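import Cfsg.Agent.H9.Amal9

/-! Amalgams of type `(S₃, S₃)`, mixed case: odd critical distance at least five, part 1. -/

set_option autoImplicit false

namespace Cfsg.Agent.H9K

open Subgroup H24
open scoped commutatorElement

variable {G : Type*} [Group G] {M₁ M₂ : Subgroup G} [Finite G]

theorem eq_of_ne_bot_of_card_two {A B : Subgroup G} (h : A ≤ B) (h0 : A ≠ ⊥) (h2 : Nat.card B = 2) :
    A = B := by
  have := card_pos' A
  have := mt card_eq_one.1 h0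
  exact eq_of_le_of_card_le h (by omega)

/-- the remaining configuration -/
structure Od (M₁ M₂ : Subgroup G) (d : ℕ) (p : ℕ → CosetVertex M₁ M₂) : Prop
    extends Mi M₁ M₂ (d + 4) where
  hH : HypH M₁ M₂ (d + 4)
  hN : N1 M₁ M₂
  crit : Crit (d + 4) p
  last : ¬ NC (p (d + 5))

theorem Mi.m3 {c : ℕ} (h : Mi M₁ M₂ c) (hN : N1 M₁ M₂) (hc : 1 ≤ c) (h8 : S8 M₁ M₂)
    {ε γ γ' : CosetVertex M₁ M₂} (hε : ¬ NC ε) (h1 : ε ~ γ) (h2 : ε ~ γ') (hne : γ ≠ γ') :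
    ¬ 𝐎[St ε] ⊓ 𝐎[St γ] ≤ 𝐎[St γ'] := fun h0 => by
  have e1 : 𝐎[St ε] ⊓ 𝐎[St γ] ≤ 𝐂[Vv ε] := h.le_C_V fun δ b => by
    by_cases e : γ = δ
    · exact e ▸ inf_le_right
    obtain ⟨g, e1, e2, rfl⟩ := h.edge.two_trans h1 h2 hne h1 b e rfl
    rwa [← e1, ← e2, O_smul, O_smul, O_smul, ← cj_inf, cj_le_cj_iff]
  have hR := pResidualOf_le 2 (St ε)
  have e2 : ⁅𝐎[St ε] ⊓ 𝐎[St ε], 𝐑[St ε]⁆ ≤ 𝐎[St ε] ⊓ 𝐂[Vv ε] := by
    rw [inf_idem]
    refine commutator_le_of_relIndex_le_two ((relIndex_le_of_le_left (le_inf inf_le_left e1)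
      (relIndex_ne_zero _)).trans ?_) (hR.trans (St_le_O ε)) (hR.trans
        (le_normalizer_inf (St_le_O ε) (le_normalizer_centralizer (St_le_V ε))))
    rw [inf_relIndex_left]
    exact h.edge.relIndex_le h1.symm ((h.edge.O_le h1).trans (inf_comm _ _).le)
  rw [inf_idem] at e2
  have e3 : ⁅⁅Vv ε, 𝐑[St ε]⁆, 𝐎[St ε]⁆ = ⊥ := three_subgroups_bot
    (le_centralizer_iff_commutator.1 (commutator_comm 𝐎[St ε] _ ▸ e2.trans inf_le_right))
    (le_centralizer_iff_commutator'.1 ((hR.trans (h.St_le_C hε)).trans (centralizer_anti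
      (commutator_comm (Vv ε) _ ▸ h.comm_V hε le_rfl))))
  have hV := hR.trans (St_le_V ε)
  have e4 : 𝐙[St ε].relIndex (Vv ε ⊓ 𝐂[𝐎[St ε]]) ≤ 2 := by
    refine le_trans (relIndex_le_of_le_left (H := 𝐙[St γ] ⊓ (Vv ε ⊓ 𝐂[𝐎[St ε]]))
      ((inf_le_inf_left _ inf_le_right).trans (h.inf_C_le hε h1.symm
        ((h.edge.O_le h1).trans (inf_comm _ _).le) (h.edge.not_O_le (h.char ε) h1)))
      (relIndex_ne_zero _)) ?_
    rw [inf_relIndex_right]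
    exact (relIndex_le_of_le_right inf_le_left (relIndex_ne_zero _)).trans
      (h.relIndex_V hN hc h8 hε h1)
  have e5 : ⁅Vv ε, 𝐑[St ε]⁆ ≤ 𝐙[St ε] := by
    rw [← commutator_commutator_eq' (pResidualOf_idem 2 _) ((isPGroup_pCoreOf 2 _).to_le
      (h.V_le_O hc ε)) hV]
    exact (commutator_mono (le_inf (commutator_le_left_of_le_normalizer hV)
      (le_centralizer_iff_commutator.2 e3)) le_rfl).trans (commutator_le_of_relIndex_le_two e4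
        (le_normalizer_inf hV (hR.trans (le_normalizer_centralizer (St_le_O ε))))
        (hR.trans (St_le_Z ε)))
  exact (h.edge.half h1).not_le' ((h.edge.half h1).res_sup.ge.trans (sup_le (fun x hx =>
    ⟨hR hx, h.mem_St h1 (hR hx) (le_normalizer_of_commutator_le (Z_le_V h1)
      (e5.trans (h.Z_le_Z hε h1.symm)) hx)⟩) le_rfl))

namespace Od

variable {d : ℕ} {p : ℕ → CosetVertex M₁ M₂} (h : Od M₁ M₂ d p)
include h

theorem arc : Arc (d + 5) p := h.crit.arc h.below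

theorem t0 : NC (p 0) := h.nc_first h.crit

theorem t1 : ¬ NC (p 1) := h.mix _ _ (h.arc.adj 0) h.t0

theorem t2 : NC (p 2) := h.nc_of h.t1 (h.arc.adj 1).symm

theorem u4 : NC (p (d + 4)) := h.nc_of h.last (h.arc.adj (d + 4))

theorem u3 : ¬ NC (p (d + 3)) := h.mix _ _ (h.arc.adj (d + 3)).symm h.u4

theorem u2 : NC (p (d + 2)) := h.nc_of h.u3 (h.arc.adj (d + 2))

theorem c2a : Vv (p 1) ⊓ 𝐎[St (p (d + 5))] ≤ 𝐂[Vv (p (d + 5))] := by
  have := h.hH _ (h.arc.rev.mono (by omega)) h.last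
  rwa [show d + 5 - (d + 4) = 1 by omega] at this

theorem c2b : Vv (p (d + 5)) ⊓ 𝐎[St (p 1)] ≤ 𝐂[Vv (p 1)] := by
  have := h.hH _ (h.arc.shift 1) h.t1
  rwa [show 1 + (d + 4) = d + 5 by omega] at this

theorem c1a : Vv (p 1) ≤ St (p (d + 5)) ⊓ St (p (d + 4)) :=
  ((h.below.V_le h.crit.walk 1 (d + 4)).trans (h.edge.O_le (h.arc.adj (d + 4)))).trans
    (inf_comm _ _).le

theorem c1b : Vv (p (d + 5)) ≤ St (p 1) ⊓ St (p 2) :=
  ((h.below.V_le h.crit.walk (d + 5) 2).trans (h.edge.O_le (h.arc.adj 1).symm)).trans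
    (inf_comm _ _).le

theorem V_not_le : ¬ Vv (p (d + 5)) ≤ 𝐎[St (p 1)] := fun h0 => by
  obtain ⟨δ, h1, hne⟩ := h.edge.exists_ne (h.arc.adj (d + 4)).symm
  exact h.crit_rev h.hH h.crit h.last h1 hne.symm ((Z_le_V h1).trans h0)

theorem R_not_le : ¬ ⁅Vv (p 1), Vv (p (d + 5))⁆ ≤ 𝐙[St (p 1)] := fun h0 =>
  h.V_not_le (h.le_O_of_norm (h.arc.adj 1) (h.arc.adj 0).symm (h.arc.ne 0 (by omega)).symm h.c1b
    (le_normalizer_of_commutator_le (Z_le_V (h.arc.adj 0).symm)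
      (h0.trans (h.Z_le_Z h.t1 (h.arc.adj 0)))))

theorem R_ne : ⁅Vv (p 1), Vv (p (d + 5))⁆ ≠ ⊥ := fun h0 => h.R_not_le (h0.le.trans bot_le)

theorem ext : ∃ μ ν, p 0 ~ μ ∧ μ ≠ p 1 ∧ μ ~ ν ∧ Od M₁ M₂ d (pcons ν (pcons μ p)) := by
  by_contra! h0
  have ha := h.arc
  have e1 : ∀ μ, p 0 ~ μ → Vv μ ≤ 𝐎[St (p (d + 3))] := fun μ hμ => by
    by_cases e : μ = p 1
    · rw [e]; exact h.below.V_le ha.walk 1 (d + 3)
    refine V_le fun ν hν => ?_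
    by_contra h1
    exact h0 μ ν hμ e hν ⟨h.toMi, h.hH, h.hN,
      ⟨((ha.walk.cons hμ.symm).cons hν.symm).mono (by omega), h1⟩, h.u3⟩
  have e2 : ∀ μ, p 0 ~ μ → Vv μ ≤ 𝐎[St (p (d + 4))] := fun μ hμ => by
    by_cases e : μ = p 1
    · rw [e]; exact h.below.V_le ha.walk 1 (d + 4)
    have := h.hH _ ((ha.cons hμ.symm e).mono (m := d + 4) (by omega)).rev h.u3
    rw [Nat.sub_self] at this
    exact h.le_O_of_C_V h.u3 (ha.adj (d + 3)) ((e1 μ hμ).trans (h.edge.O_le' (ha.adj (d + 3))))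
      ((le_inf le_rfl (e1 μ hμ)).trans this)
  have e3 : Ww (p 0) ≤ 𝐎[St (p (d + 4))] := W_le e2
  have hVW := V_le_W (ha.adj 0)
  have hZV := Z_le_V (ha.adj 0).symm
  by_cases h1 : Ww (p 0) ⊓ 𝐎[St (p (d + 5))] ≤ 𝐂[Vv (p (d + 5))]
  · have n := ((hZV.trans h.c1a).trans inf_le_left).trans (St_le_V _)
    have e4 : ⁅Vv (p (d + 5)), Ww (p 0)⁆ ≤ Ww (p 0) := (commutator_le_of_le_sup
      (le_sup_inf_of_relIndex_two (h.edge.half (ha.adj (d + 4)).symm).idx2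
        ((e3.trans (h.edge.O_le (ha.adj (d + 4)))).trans (inf_comm _ _).le) (hZV.trans hVW)
        h.crit.notle) h1 (le_normalizer_of_le_centralizer (h1.trans (centralizer_anti
          (commutator_le_left_of_le_normalizer n))))).trans
      (((commutator_mono le_rfl hZV).trans (commutator_le_right_of_le_normalizer
        ((h.c1b.trans inf_le_left).trans (St_le_V _)))).trans hVW)
    have e5 := h.below.W_le ha.walk 0
    exact h.V_ne_bot _ (le_bot_iff.1 (h.edge.eq_bot (ha.adj 0) (e5.trans (O_le_St _))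
      (e5.trans (h.edge.O_le' (ha.adj 0))) (St_le_W _) (h.edge.le_of_not_le (ha.adj 0).symm
        (ha.adj 1) (ha.ne 0 (by omega)) (inf_le_right.trans (St_le_W _))
        (le_normalizer_of_commutator_le le_rfl (by rw [commutator_comm]; exact e4)) h.c1b
        h.V_not_le) ▸ hVW))
  obtain ⟨δ, hδ, h2⟩ : ∃ δ, p (d + 5) ~ δ ∧ ¬ Ww (p 0) ⊓ 𝐎[St (p (d + 5))] ≤ 𝐎[St δ] := by
    by_contra! h2
    exact h1 (h.le_C_V h2)
  obtain ⟨w, hw, hwO⟩ := SetLike.not_le_iff_exists.1 h2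
  have hr := ha.rev.cons hδ.symm (show δ ≠ p (d + 4) from by rintro rfl; exact hwO (e3 hw.1))
  obtain ⟨μ, hμ, hne⟩ := h.edge.exists_ne (ha.adj 0)
  obtain ⟨ν, hν, hne'⟩ := h.edge.exists_ne hμ.symm
  refine h.all_crit' h.crit (hr.mono (by omega)) ⟨w, fun i hi => ?_, hwO⟩
    (iff_of_true (h.nc_of h.last hδ.symm) h.last)
    (((ha.cons hμ.symm hne.symm).cons hν.symm hne'.symm).mono (by omega))
    (h.nc_of (h.mix _ _ hμ h.t0) hν.symm) ((Z_le_V hν).trans (e1 μ hμ))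
  rcases i with _ | _ | _ | _ | i
  · exact h.edge.O_le' hδ hw.2
  · exact O_le_St _ hw.2
  · exact O_le_St _ (e3 hw.1)
  · exact O_le_St _ (W_le e1 hw.1)
  · exact O_le_St _ ((h.below.W_le ha.walk (d + 5 - (i + 1 + 1 + 1)) :) hw.1)

theorem R8 (h8 : S8 M₁ M₂) :
    ⁅Vv (p 1), Vv (p (d + 5))⁆ ≤ 𝐙[St (p 2)] ⊓ 𝐙[St (p (d + 4))] :=
  le_inf ((commutator_mono le_rfl (h.c1b.trans (inf_comm _ _).le)).trans
    (h8 _ _ h.t2 (h.arc.adj 1).symm)) (by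
      rw [commutator_comm]
      exact (commutator_mono le_rfl (h.c1a.trans (inf_comm _ _).le)).trans
        (h8 _ _ h.u4 (h.arc.adj (d + 4))))

theorem E1 (h8 : S8 M₁ M₂) : 𝐙[St (p 2)] ≤ 𝐙[St (p (d + 2))] := by
  obtain ⟨μ, ν, hμ, hne, hν, h'⟩ := h.ext
  have ha := h.arc
  have e1 : 𝐙[St (p 1)] ≤ 𝐙[St (p (d + 2))] := (eq_of_ne_bot_of_card_two
    (((h'.R8 h8).trans (inf_le_inf_left _ (h.below.le ha.walk (d + 2) (d + 5)))).trans
      (h.inf_le_Z h.hN h.t0 (ha.adj 0) (h.below.le ha.walk 1 (d + 5)) h.crit.notle))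
    h'.R_ne (h.hN _ h.t1)).ge.trans ((h'.R8 h8).trans inf_le_right)
  have e2 := eq_of_ne_bot_of_card_two (((h.R8 h8).trans ((inf_comm _ _).le.trans
    (inf_le_inf_left _ (h.below.le h'.arc.walk 4 1)))).trans (h.inf_le_Z h.hN h.u4
      (ha.adj (d + 3)).symm (h.below.le h'.arc.walk (d + 5) 1) (h.crit_rev h.hH h'.crit h'.last
        (ha.adj (d + 3)) (ha.ne (d + 2) (by omega)).symm))) h.R_ne (h.hN _ h.u3)
  exact (le_sup_of_relIndex_two (h.relIndex_Z h.hN h.t2 (ha.adj 1).symm)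
    ((h.R8 h8).trans inf_le_left) h.R_not_le).trans
    (sup_le (e2.le.trans (h.Z_le_Z h.u3 (ha.adj (d + 2)))) e1)

theorem s8_pos (h8 : S8 M₁ M₂) (hd : 1 ≤ d) : False := by
  obtain ⟨μ, ν, -, -, -, h'⟩ := h.ext
  exact h.crit.notle ((h'.E1 h8).trans (h.below.le h.arc.walk d (d + 5)))

end Od

theorem Od.s8_zero {p : ℕ → CosetVertex M₁ M₂} (h : Od M₁ M₂ 0 p) (h8 : S8 M₁ M₂) : False := by
  obtain ⟨μ, ν, hμ, hne, hν, h'⟩ := h.ext
  have ha := h.arc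
  have R4 : ∀ s₀ s₁ s₂ s₃ s₄ : CosetVertex M₁ M₂, s₀ ~ s₁ → s₁ ~ s₂ → s₂ ~ s₃ → s₃ ~ s₄ → ¬ NC s₂ →
      s₁ ≠ s₃ → ⁅Vv s₀, Vv s₄⁆ ≤ 𝐙[St s₂] := fun s₀ s₁ s₂ s₃ s₄ a b c e f n => by
    have w := (((walk_one e).cons c).cons b).cons a
    refine (le_inf ((commutator_mono le_rfl ((h.below.V_le w 4 1).trans
      (h.edge.O_le a.symm))).trans (h8 _ _ (h.nc_of f b) a.symm)) ?_).trans
      (h.Z_inf_Z h.hN f b.symm c n)
    rw [commutator_comm]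
    exact (commutator_mono le_rfl ((h.below.V_le w 0 3).trans (h.edge.O_le e))).trans
      (h8 _ _ (h.nc_of f c.symm) e)
  obtain ⟨w, hw, hwO⟩ := SetLike.not_le_iff_exists.1 h'.crit.notle
  replace hw : w ∈ Vv μ := Z_le_V hν hw
  change w ∉ 𝐎[St (p 3)] at hwO
  obtain ⟨x, hx, hxO⟩ := SetLike.not_le_iff_exists.1 h.V_not_le
  have hw2 : w ∈ 𝐎[St (p 2)] := (h.below.V_le h'.arc.walk 1 4 :) hw
  have hw' : w ∈ St (p 3) ⊓ St (p 2) := ⟨h.edge.O_le' (ha.adj 2) hw2, O_le_St _ hw2⟩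
  have hx' := h.c1b hx
  obtain ⟨a1, a2, a3⟩ := h.edge.smul_ne (ha.adj 1) (ha.adj 0).symm (ha.ne 0 (by omega)).symm hx' hxO
  obtain ⟨b1, -, b3⟩ := h.edge.smul_ne (ha.adj 2).symm (ha.adj 3) (ha.ne 2 (by omega)) hw' hwO
  have iw := inv_eq_of_isEA (h.isEA_V (by omega) μ) hw
  have ix := inv_eq_of_isEA (h.isEA_V (by omega) _) hx
  have a4 := adj_smul hμ x
  have hwx : x * w * x⁻¹ ∈ Vv (x • μ) := V_smul x μ ▸ conj_mem_cj hw x
  have e1 : ⁅w, x * w * x⁻¹⁆ = ⁅w * x * w⁻¹, x⁆ := by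
    simp only [commutatorElement_def, mul_inv_rev, iw, ix, mul_assoc]
  have e2 : ⁅w, x * w * x⁻¹⁆ = 1 := mem_bot.1 (h.Z_inf h.t2 (ha.adj 1).symm (ha.adj 2)
    (ha.ne 1 (by omega)) ▸ mem_inf.2 ⟨R4 _ _ _ _ _ hμ.symm (ha.adj 0) a1 a4 h.t1 a3
      (commutator_mem_commutator hw hwx), e1 ▸ R4 _ _ _ _ _ (adj_smul (ha.adj 4) w).symm b1.symm
        (ha.adj 3) (ha.adj 4) h.u3 b3.symm (commutator_mem_commutator
          (V_smul w _ ▸ conj_mem_cj hx w) hx)⟩)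
  have hμ' := h.mix _ _ hμ h.t0
  have e3 : Vv μ ≤ zpowers w ⊔ 𝐙[St (p 0)] := h.V_le_zp h.hN (by omega) h8 hμ' hμ.symm hw
    fun h0 => hwO ((h.below.le ha.walk 0 3 :) h0)
  have e4 : Vv (x • μ) ≤ zpowers (x * w * x⁻¹) ⊔ 𝐙[St (x • p 0)] := by
    rw [V_smul, Z_smul, ← cj_zpowers, ← cj_sup, cj_le_cj_iff]; exact e3
  have hs : Arc 4 (pcons μ (pcons (p 0) (pcons (p 1) (pcons (x • p 0) fun _ => x • μ)))) :=
    ((((⟨fun _ hi => absurd hi (by omega), fun _ hi => absurd hi (by omega)⟩ :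
      Arc 0 fun _ => x • μ).cons a4 a4.ne).cons a1 fun e => hne
        (smul_left_cancel x (e.symm.trans (hx'.1 : x • p 1 = p 1).symm))).cons (ha.adj 0) a3).cons
      hμ.symm hne
  have e5 : Vv μ ≤ 𝐂[Vv (x • μ)] := by
    refine le_centralizer_iff.1 (e4.trans (sup_le (le_centralizer_iff.1 (e3.trans (sup_le ?_ ?_)))
      (le_centralizer_iff.1 ((h.below.V_le hs.walk 0 3).trans (h.O_le_C _)))))
    · exact zpowers_le.2 (mem_centralizer_zpowers_iff.2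
        (commutatorElement_eq_one_iff_mul_comm.1 e2).symm)
    · exact le_centralizer_iff.1 ((zpowers_le.2 hwx).trans
        ((h.below.V_le hs.walk 4 1).trans (h.O_le_C _)))
  obtain ⟨m, hm, hmO⟩ := SetLike.not_le_iff_exists.1 (h.m3 h.hN (by omega) h8 h.t1 (ha.adj 1)
    (ha.adj 0).symm (ha.ne 0 (by omega)).symm)
  obtain ⟨y, y1, y2⟩ := h.mov_crit h.crit
  obtain ⟨g, hg⟩ := h.arc_trans (k := 3) (ha.mono (by omega)) h.t0 ⟨m, fun i hi => by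
      rcases i with _ | _ | _ | _ | i
      exacts [h.edge.O_le' (ha.adj 0).symm hm.1, O_le_St _ hm.1, O_le_St _ hm.2,
        h.edge.O_le' (ha.adj 2) hm.2, by omega], hmO⟩ (ha.rev.mono (by omega)) h.last
    ⟨y, fun i hi => y1 i (by omega), y2⟩ 3 le_rfl ((ha.cons hμ.symm hne).mono (by omega)) hs rfl
  have g0 : g • μ = μ := hg 0 (by omega)
  have g4 : g • p 3 = x • μ := hg 4 (by omega)
  rw [← g4] at e5
  nth_rewrite 1 [← g0] at e5
  rw [V_smul, V_smul, ← cj_centralizer, cj_le_cj_iff] at e5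
  exact h'.R_ne (le_centralizer_iff_commutator.1 e5)

end Cfsg.Agent.H9K
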