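import Cfsg.Agent.H9.Amal10

/-! Amalgams of type `(S₃, S₃)`, mixed case: odd critical distance at least five, part 2. -/

set_option autoImplicit false

namespace Cfsg.Agent.H9K

open Subgroup H24
open scoped commutatorElement

variable {G : Type*} [Group G] {M₁ M₂ : Subgroup G}

/-- `Y_ε` -/
def Yy (ε : CosetVertex M₁ M₂) : Subgroup G := Vv ε ⊓ centMod (St ε) 𝐙[St ε]

theorem Y_smul (g : G) (ε : CosetVertex M₁ M₂) : Yy (g • ε) = cj (Yy ε) g := by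
  rw [Yy, Yy, cj_inf, cj_centMod, V_smul, Z_smul, St_smul]

theorem St_le_Y (ε : CosetVertex M₁ M₂) : St ε ≤ 𝐍[Yy ε] := le_normalizer_of_smul Y_smul ε

theorem Y_le_V (ε : CosetVertex M₁ M₂) : Yy ε ≤ Vv ε := inf_le_left

theorem comm_Y (ε : CosetVertex M₁ M₂) : ⁅St ε, Yy ε⁆ ≤ 𝐙[St ε] :=
  (le_centMod_iff.1 inf_le_right).2

theorem comm_six {V : Subgroup G} (hV : V ≤ 𝐂[V]) {u₁ u₂ u₃ b₁ b₂ b₃ : G} (h1 : u₁ ∈ V)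
    (h2 : u₂ ∈ V) (h3 : u₃ ∈ V) (h4 : b₁ ∈ V) (h5 : b₂ ∈ V) (h6 : b₃ ∈ V) :
    u₁ * u₂ * u₃ * (b₁ * b₂ * b₃)⁻¹ = b₁⁻¹ * u₁ * (b₃⁻¹ * u₂) * (b₂⁻¹ * u₃) := by
  letI : CommGroup V := { (inferInstance : Group V) with
    mul_comm := fun a b => Subtype.ext (hV b.2 a a.2) }
  have : (⟨u₁, h1⟩ * ⟨u₂, h2⟩ * ⟨u₃, h3⟩ * (⟨b₁, h4⟩ * ⟨b₂, h5⟩ * ⟨b₃, h6⟩)⁻¹ : V) =
      (⟨b₁, h4⟩ : V)⁻¹ * ⟨u₁, h1⟩ * ((⟨b₃, h6⟩ : V)⁻¹ * ⟨u₂, h2⟩) *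
        ((⟨b₂, h5⟩ : V)⁻¹ * ⟨u₃, h3⟩) := by
    simp only [mul_inv, mul_comm, mul_left_comm, mul_assoc]
  exact congrArg Subtype.val this

variable [Finite G]

namespace Mi

variable {c : ℕ} (h : Mi M₁ M₂ c) (hN : N1 M₁ M₂) (hc : 2 ≤ c)
  {γ γ' δ δ' δ₁ δ₂ δ₃ ε : CosetVertex M₁ M₂} {s b b' b₁ b₂ b₃ : G}
include h

theorem smul_eq (h1 : ε ~ δ₁) (h2 : ε ~ δ₂) (h3 : ε ~ δ₃) (n1 : δ₁ ≠ δ₂) (n2 : δ₁ ≠ δ₃)
    (n3 : δ₂ ≠ δ₃) (hs : s ∈ St ε ⊓ St δ₁) (hsO : s ∉ 𝐎[St ε]) : s • δ₂ = δ₃ := by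
  obtain ⟨a1, a2, a3⟩ := h.edge.smul_ne h1 h2 n1 hs hsO
  exact ((h.edge.three h1 h2 h3 n1 n2 n3 a1).resolve_left a2.symm).resolve_left a3.symm

theorem Z_le_Y (hε : ¬ NC ε) : 𝐙[St ε] ≤ Yy ε :=
  le_inf (h.Z_le_V' hε) (le_centMod_iff.2 ⟨le_normalizer,
    commutator_le_right_of_le_normalizer (St_le_Z ε)⟩)

theorem not_Z_le_Y (hε : ¬ NC ε) (h1 : ε ~ γ) : ¬ 𝐙[St γ] ≤ Yy ε := fun h0 =>
  (h.edge.half h1).not_le' fun x hx => ⟨hx, h.mem_St h1 hx (le_normalizer_of_commutator_le h0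
    (commutator_comm (St ε) _ ▸ (comm_Y ε).trans (h.Z_le_Z hε h1.symm)) hx)⟩

include hN

theorem coset (hε : ¬ NC ε) (h1 : ε ~ δ') (hs : s ∈ St ε) (e : s • δ = δ') (hb : b ∈ 𝐙[St δ])
    (hbZ : b ∉ 𝐙[St ε]) (hb' : b' ∈ 𝐙[St δ']) (hbZ' : b' ∉ 𝐙[St ε]) :
    b'⁻¹ * (s * b * s⁻¹) ∈ 𝐙[St ε] :=
  inv_mul_mem_of_relIndex_two (h.relIndex_Z hN (h.nc_of hε h1.symm) h1.symm) hb'
    (e ▸ Z_smul s δ ▸ conj_mem_cj hb s) hbZ'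
    fun h0 => hbZ ((mem_normalizer_iff.1 (St_le_Z ε hs) b).2 h0)

include hc

theorem swap (hε : ¬ NC ε) (h1 : ε ~ δ₁) (h2 : ε ~ δ₂) (h3 : ε ~ δ₃) (n1 : δ₁ ≠ δ₂)
    (n2 : δ₁ ≠ δ₃) (n3 : δ₂ ≠ δ₃) (a1 : b₁ ∈ 𝐙[St δ₁]) (a2 : b₂ ∈ 𝐙[St δ₂]) (a3 : b₃ ∈ 𝐙[St δ₃])
    (z1 : b₁ ∉ 𝐙[St ε]) (z2 : b₂ ∉ 𝐙[St ε]) (z3 : b₃ ∉ 𝐙[St ε]) :
    St ε ⊓ St δ₁ ≤ centMod (zpowers (b₁ * b₂ * b₃)) 𝐙[St ε] := by
  have v1 := Z_le_V h1 a1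
  have v2 := Z_le_V h2 a2
  have v3 := Z_le_V h3 a3
  have hy := mul_mem (mul_mem v1 v2) v3
  refine le_centMod_iff.2 ⟨inf_le_left.trans (St_le_Z ε), ?_⟩
  rw [commutator_comm]
  refine commutator_zpowers_right_le (St_le_Z ε (O_le_St ε (h.V_le_O (by omega) ε hy)))
    fun s hs => ?_
  by_cases hO : s ∈ 𝐎[St ε]
  · exact commutator_comm (Vv ε) _ ▸ h.comm_V hε le_rfl <| commutator_mem_commutator hO hy
  have hn := St_le_V ε hs.1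
  have : ⁅s, b₁ * b₂ * b₃⁆ = s * b₁ * s⁻¹ * (s * b₂ * s⁻¹) * (s * b₃ * s⁻¹) * (b₁ * b₂ * b₃)⁻¹ := by
    simp only [commutatorElement_def, mul_assoc, inv_mul_cancel_left]
  rw [this, comm_six (isEA_iff.1 (h.isEA_V hc ε)).1 (conj_mem_of_mem_normalizer hn v1)
    (conj_mem_of_mem_normalizer hn v2) (conj_mem_of_mem_normalizer hn v3) v1 v2 v3]
  exact mul_mem (mul_mem (h.coset hN hε h1 hs.1 hs.2 a1 z1 a1 z1)
    (h.coset hN hε h3 hs.1 (h.smul_eq h1 h2 h3 n1 n2 n3 hs hO) a2 z2 a3 z3))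
    (h.coset hN hε h2 hs.1 (h.smul_eq h1 h3 h2 n2 n1 n3.symm hs hO) a3 z3 a2 z2)

theorem mem_Y (hε : ¬ NC ε) (h1 : ε ~ δ₁) (h2 : ε ~ δ₂) (h3 : ε ~ δ₃) (n1 : δ₁ ≠ δ₂)
    (n2 : δ₁ ≠ δ₃) (n3 : δ₂ ≠ δ₃) (a1 : b₁ ∈ 𝐙[St δ₁]) (a2 : b₂ ∈ 𝐙[St δ₂]) (a3 : b₃ ∈ 𝐙[St δ₃])
    (z1 : b₁ ∉ 𝐙[St ε]) (z2 : b₂ ∉ 𝐙[St ε]) (z3 : b₃ ∉ 𝐙[St ε]) : b₁ * b₂ * b₃ ∈ Yy ε := by
  have hy := mul_mem (mul_mem (Z_le_V h1 a1) (Z_le_V h2 a2)) (Z_le_V h3 a3)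
  have e1 := h.swap hN hc hε h1 h2 h3 n1 n2 n3 a1 a2 a3 z1 z2 z3
  have e2 := h.swap hN hc hε h2 h1 h3 n1.symm n3 n2 a2 a1 a3 z2 z1 z3
  rw [(isEA_iff.1 (h.isEA_V hc ε)).1 (Z_le_V h1 a1) b₂ (Z_le_V h2 a2)] at e2
  refine ⟨hy, zpowers_le.1 (le_centMod_iff.2 ⟨zpowers_le.2
    (St_le_Z ε (O_le_St ε (h.V_le_O (by omega) ε hy))), ?_⟩)⟩
  rw [commutator_comm]
  exact (le_centMod_iff.1 (h.edge.le_of_le h1 h2 n1 e1 e2)).2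

theorem s8_of_le (hε : ¬ NC ε) (h1 : ε ~ γ) (h2 : ε ~ γ') (h3 : Vv ε ≤ 𝐙[St γ'] ⊔ 𝐙[St γ]) :
    S8 M₁ M₂ := by
  refine h.s8_of (h.nc_of hε h1.symm) h1.symm (commutator_le_of_relIndex_le_two ?_
    (inf_le_right.trans (St_le_V ε)) (inf_le_left.trans (St_le_Z γ)))
  refine (relIndex_le_of_le_right h3 (relIndex_ne_zero _)).trans ?_
  rw [relIndex_sup_of_le_normalizer (((h.Z_le_O_adj (by omega) h2.symm).trans
    (h.edge.O_le' h1)).trans (St_le_Z γ))]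
  exact (relIndex_le_of_le_left (h.Z_le_Z hε h1.symm) (relIndex_ne_zero (H := 𝐙[St γ']) _)).trans
    (h.relIndex_Z hN (h.nc_of hε h2.symm) h2.symm).le

theorem not_mem_Z (h8 : ¬ S8 M₁ M₂) (hε : ¬ NC ε) (h1 : ε ~ δ₁) (h2 : ε ~ δ₂) (h3 : ε ~ δ₃)
    (n1 : δ₁ ≠ δ₂) (n2 : δ₁ ≠ δ₃) (n3 : δ₂ ≠ δ₃) (a1 : b₁ ∈ 𝐙[St δ₁]) (a2 : b₂ ∈ 𝐙[St δ₂])
    (a3 : b₃ ∈ 𝐙[St δ₃]) (z2 : b₂ ∉ 𝐙[St ε]) : b₁ * b₂ * b₃ ∉ 𝐙[St δ₃] := fun h0 => by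
  refine h8 (h.s8_of_le hN hc hε h3 h1 (V_le fun δ hδ => ?_))
  rcases h.edge.three h1 h2 h3 n1 n2 n3 hδ with rfl | rfl | rfl
  · exact le_sup_left
  · refine (le_sup_of_relIndex_two (h.relIndex_Z hN (h.nc_of hε h2.symm) h2.symm)
      (zpowers_le.2 a2) fun h4 => z2 (zpowers_le.1 h4)).trans (sup_le (zpowers_le.2 ?_)
        ((h.Z_le_Z hε h1.symm).trans le_sup_left))
    exact (mul_mem_cancel_left (mem_sup_left a1)).1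
      (mem_sup_right ((mul_mem_cancel_right a3).1 h0))
  · exact le_sup_right

theorem not_Y_le (h8 : ¬ S8 M₁ M₂) (hε : ¬ NC ε) (h1 : ε ~ γ) : ¬ Yy ε ≤ 𝐙[St γ] := fun h0 => by
  have k : ∀ δ, ε ~ δ → ∃ b ∈ 𝐙[St δ], b ∉ 𝐙[St ε] := fun δ hδ =>
    SetLike.not_le_iff_exists.1 fun h2 => h.not_Z_le_Y hε hδ (h2.trans (h.Z_le_Y hε))
  obtain ⟨δ₁, δ₂, a1, a2, n1, n2, n3⟩ := h.edge.exists_two h1
  obtain ⟨b₁, c1, z1⟩ := k _ a1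
  obtain ⟨b₂, c2, z2⟩ := k _ a2
  obtain ⟨b₃, c3, z3⟩ := k _ h1
  exact h.not_mem_Z hN hc h8 hε a1 a2 h1 n3 n1.symm n2.symm c1 c2 c3 z2
    (h0 (h.mem_Y hN hc hε a1 a2 h1 n3 n1.symm n2.symm c1 c2 c3 z1 z2 z3))

theorem relIndex_Y (h8 : ¬ S8 M₁ M₂) (hε : ¬ NC ε) : 𝐙[St ε].relIndex (Yy ε) ≤ 2 := by
  obtain ⟨γ, h1⟩ := exists_adj ε
  obtain ⟨δ₁, δ₂, a1, a2, n1, n2, n3⟩ := h.edge.exists_two h1
  have hV := (isEA_iff.1 (h.isEA_V hc ε)).1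
  have kn : ∀ {A B : Subgroup G}, A ≤ Vv ε → B ≤ Vv ε → A ≤ 𝐍[B] := fun a b =>
    le_normalizer_of_le_centralizer ((a.trans hV).trans (centralizer_anti b))
  have ki : ∀ {δ}, ε ~ δ → 𝐙[St ε].relIndex 𝐙[St δ] = 2 := fun a =>
    h.relIndex_Z hN (h.nc_of hε a.symm) a.symm
  have kz : ∀ {δ}, ε ~ δ → 𝐙[St ε] ≤ 𝐙[St δ] := fun a => h.Z_le_Z hε a.symm
  have e1 : 𝐙[St ε].relIndex (Vv ε) ≤ 2 * 2 * 2 := by
    refine (relIndex_le_of_le_right (V_le (H := 𝐙[St γ] ⊔ 𝐙[St δ₁] ⊔ 𝐙[St δ₂]) fun δ hδ => ?_)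
      (relIndex_ne_zero _)).trans (relIndex_sup_le_mul ((kz h1).trans le_sup_left) (kz a2)
        (kn (sup_le (Z_le_V h1) (Z_le_V a1)) (Z_le_V a2)) (relIndex_sup_le_mul (kz h1) (kz a1)
          (kn (Z_le_V h1) (Z_le_V a1)) (ki h1).le (ki a1).le) (ki a2).le)
    rcases h.edge.three h1 a1 a2 n1 n2 n3 hδ with rfl | rfl | rfl
    exacts [le_sup_left.trans le_sup_left, le_sup_right.trans le_sup_left, le_sup_right]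
  have hYZ := sup_le (Y_le_V ε) (Z_le_V h1)
  rw [← relIndex_mul_relIndex _ _ _ ((kz h1).trans le_sup_right) hYZ,
    ← relIndex_mul_relIndex _ _ _ (kz h1) le_sup_right, ki h1,
    relIndex_sup_of_le_normalizer (kn (Y_le_V ε) (Z_le_V h1))] at e1
  have e2 : (Yy ε ⊔ 𝐙[St γ]).relIndex (Vv ε) ≠ 1 := fun e => h8 (h.s8_of (h.nc_of hε h1.symm)
    h1.symm ((commutator_mono (relIndex_eq_one.1 e) le_rfl).trans (commutator_sup_left_le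
      (kn (Y_le_V ε) (Z_le_V h1)) le_normalizer
      (commutator_comm _ (Yy ε) ▸ ((commutator_mono inf_le_right le_rfl).trans (comm_Y ε)).trans
        (kz h1)) (commutator_le_left_of_le_normalizer (inf_le_left.trans (St_le_Z γ))))))
  have e3 := relIndex_ne_zero (H := Vv ε) (Yy ε ⊔ 𝐙[St γ])
  have e4 := relIndex_le_of_le_left (h.inf_le_Z hN (h.nc_of hε h1.symm) h1.symm (h.Z_le_Y hε)
    (h.not_Z_le_Y hε h1)) (relIndex_ne_zero (H := Yy ε) _)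
  rw [inf_relIndex_right] at e4
  nlinarith [Nat.two_le_iff _ |>.2 ⟨e3, e2⟩]

theorem Y_le (h8 : ¬ S8 M₁ M₂) (hε : ¬ NC ε) (hb : b ∈ Yy ε) (hb' : b ∉ 𝐙[St ε]) :
    Yy ε ≤ zpowers b ⊔ 𝐙[St ε] :=
  le_sup_of_relIndex_le_two (h.relIndex_Y hN hc h8 hε) (zpowers_le.2 hb)
    fun h0 => hb' (zpowers_le.1 h0)

theorem fin (h8 : ¬ S8 M₁ M₂) {ε' : CosetVertex M₁ M₂} (hγ : NC γ) (h1 : γ ~ ε) (h2 : γ ~ ε')
    (hne : ε ≠ ε') (h3 : 𝐎[St γ] ⊓ 𝐎[St ε] ≤ 𝐂[Yy ε']) (hs : s ∈ 𝐎[St γ]) (hsO : s ∉ 𝐎[St ε])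
    (hsC : s ∈ 𝐂[Yy ε]) : False := by
  have k : ∀ δ, γ ~ δ → δ ≠ ε → 𝐎[St γ] ⊓ 𝐎[St δ] ≤ 𝐂[Yy ε] := fun δ a n => by
    obtain ⟨g, e1, rfl, e2⟩ := h.edge.two_trans h1 h2 hne a h1 n rfl
    have := (cj_le_cj_iff (g := g)).2 h3
    rwa [cj_inf, cj_centralizer, ← O_smul, ← O_smul, ← Y_smul, e1, e2] at this
  obtain ⟨δ₁, δ₂, a1, a2, n1, n2, n3⟩ := h.edge.exists_two h1
  have k2 : ∀ δ, γ ~ δ → δ ≠ ε → ∀ X ≤ 𝐎[St γ], X ≤ 𝐂[Yy ε] → ¬ X ≤ 𝐎[St δ] → False :=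
    fun δ a n X b1 b2 b3 => h.not_Y_le hN hc h8 (h.mix _ _ h1 hγ) h1.symm
      (h.le_Z_of_center hN hγ (H9.isEA_of_le (h.isEA_V hc ε) (Y_le_V ε))
        ((Y_le_V ε).trans (h.V_le_O' hc h1)) (le_centralizer_iff.1 ((le_sup_inf_of_relIndex_two
          (h.edge.half a.symm).idx2 ((h.edge.O_le a).trans (inf_comm _ _).le) b1 b3).trans
            (sup_le b2 (k δ a n)))))
  by_cases h4 : 𝐎[St γ] ⊓ 𝐎[St δ₁] ≤ 𝐎[St δ₂]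
  · refine k2 δ₁ a1 n1.symm _ (zpowers_le.2 hs) (zpowers_le.2 hsC) fun h5 => hsO ?_
    obtain ⟨g, e1, e2, e3⟩ := h.edge.two_trans a1 a2 n3 a1 h1 n1.symm rfl
    have := (cj_le_cj_iff (g := g)).2 h4
    rw [cj_inf, ← O_smul, ← O_smul, ← O_smul, e1, e2, e3] at this
    exact this ⟨hs, zpowers_le.1 h5⟩
  · exact k2 δ₂ a2 n2.symm _ inf_le_left (k δ₁ a1 n1.symm) h4

end Mi

omit [Finite G] in
theorem commutatorElement_mul_of_comm {e c a : G} (h : a * e = e * a) : ⁅e, c * a⁆ = ⁅e, c⁆ := by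
  simp only [commutatorElement_def, mul_inv_rev]
  rw [show e * (c * a) * e⁻¹ = e * c * e⁻¹ * (e * a * e⁻¹) by group, ← h]
  group

namespace Od

variable {d : ℕ} {p : ℕ → CosetVertex M₁ M₂} (h : Od M₁ M₂ d p)
include h

theorem Y_le_C : Yy (p 1) ≤ 𝐂[Vv (p (d + 5))] := by
  by_contra h0
  have e1 : Nat.card (⁅Vv (p 1), Vv (p (d + 5))⁆ :) ≤ 2 :=
    h.card_comm_le (by omega) (h.arc.adj (d + 4)).symm h.c1a (h.arc.adj 1) h.c1b h.c2a h.c2b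
  have e2 := mt card_eq_one.1 (mt le_centralizer_iff_commutator.2 h0)
  have e3 := card_pos' ⁅Yy (p 1), Vv (p (d + 5))⁆
  refine h.R_not_le ((eq_of_le_of_card_le (commutator_mono (Y_le_V _) le_rfl) (by omega)).ge.trans ?_)
  rw [commutator_comm]
  exact (commutator_mono (h.c1b.trans inf_le_left) le_rfl).trans (comm_Y _)

theorem E_le (h8 : ¬ S8 M₁ M₂) {x : G} (hx : x ∈ Vv (p (d + 5))) (hxO : x ∉ 𝐎[St (p 1)]) :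
    ∃ μ, p 0 ~ μ ∧ μ ≠ p 1 ∧ 𝐎[St (p 0)] ⊓ 𝐎[St (p 1)] ⊓ 𝐎[St (x • p 0)] ≤ 𝐂[Yy μ] := by
  obtain ⟨μ, ν, hμ, hne, hν, h'⟩ := h.ext
  have ha := h.arc
  have hμ' := h.mix _ _ hμ h.t0
  obtain ⟨a', ha', ha'O⟩ := SetLike.not_le_iff_exists.1 h'.crit.notle
  obtain ⟨x', hx', hx'O⟩ := SetLike.not_le_iff_exists.1 h'.V_not_le
  obtain ⟨a, ha0, haZ⟩ := SetLike.not_le_iff_exists.1 fun h2 =>
    h.not_Z_le_Y hμ' hμ.symm (h2.trans (h.Z_le_Y hμ'))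
  have n0 : ν ≠ p 0 := h'.arc.ne 0 (by omega)
  obtain ⟨b1, b2, b3⟩ := h.edge.smul_ne hμ.symm hν n0.symm (h'.c1b hx') hx'O
  have z1 : a' ∉ 𝐙[St μ] := fun h0 => ha'O ((h.below.le h'.arc.walk 1 (d + 5) :) h0)
  have c1 : x' * a' * x'⁻¹ ∈ 𝐙[St (x' • ν)] := Z_smul x' ν ▸ conj_mem_cj ha' x'
  have z2 : x' * a' * x'⁻¹ ∉ 𝐙[St μ] := fun h0 =>
    z1 ((mem_normalizer_iff.1 (St_le_Z μ (h'.c1b hx').1) a').2 h0)
  have y1 := h.mem_Y h.hN (by omega) hμ' hν b1 hμ.symm b3 n0 b2.symm ha' c1 ha0 z1 z2 haZ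
  have y2 := h.not_mem_Z h.hN (by omega) h8 hμ' hν b1 hμ.symm b3 n0 b2.symm ha' c1 ha0 z2
  have c2 : a' * (x' * a' * x'⁻¹) ∈ Vv (p (d + 3)) := by
    have := mul_mem (conj_mem_of_mem_normalizer (St_le_V _ (h'.c1a (Z_le_V hν ha')).1) hx')
      (inv_mem hx')
    rwa [inv_eq_of_isEA (h.isEA_Z ν) ha', mul_assoc, mul_assoc, ← mul_assoc x'] at this
  set c' := a' * (x' * a' * x'⁻¹)
  have c3 : x * c' = c' * x := h.le_C_V (fun γ hγ => (h.below.V_le (((walk_one hγ).cons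
    (ha.adj (d + 4))).cons (ha.adj (d + 3))) 0 3 :)) c2 x hx
  obtain ⟨a1, -, a3⟩ := h.edge.smul_ne (ha.adj 1) (ha.adj 0).symm (ha.ne 0 (by omega)).symm
    (h.c1b hx) hxO
  have y3 : c' * (x * a * x⁻¹) ∈ Yy (x • μ) := by
    have := conj_mem_cj y1 x
    rwa [← Y_smul, ← mul_assoc, c3, mul_assoc c', mul_assoc c'] at this
  refine ⟨μ, hμ, hne, fun e he => centralizer_anti (h.Y_le h.hN (by omega) h8 hμ' y1
    fun h0 => y2 (h.Z_le_Z hμ' hμ h0)) (le_centralizer_sup (L := zpowers e) (zpowers_le.2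
      (mem_centralizer_zpowers_iff.2 (commutatorElement_eq_one_iff_mul_comm.1 ?_).symm))
      (zpowers_le.2 (h.St_le_C hμ' (h.edge.O_le' hμ he.1.1))) (mem_zpowers e))⟩
  have f1 := comm_Y μ (commutator_mem_commutator (h.edge.O_le' hμ he.1.1) y1)
  have f2 := comm_Y _ (commutator_mem_commutator (h.edge.O_le' (adj_smul hμ x) he.2) y3)
  rw [commutatorElement_mul_of_comm (h.O_le_C _ he.1.1 a ha0)] at f1 ⊢
  rw [commutatorElement_mul_of_comm (h.O_le_C _ he.2 _ (Z_smul x _ ▸ conj_mem_cj ha0 x))] at f2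
  exact mem_bot.1 (h.Z_inf h.t0 hμ (ha.adj 0) hne ▸ mem_inf.2 ⟨f1, h.Z_inf_Z h.hN h.t1
    (ha.adj 0).symm a1 a3 ⟨h.Z_le_Z hμ' hμ f1, h.Z_le_Z (h.mix _ _ (adj_smul hμ x)
      (h.t0.smul x)) (adj_smul hμ x) f2⟩⟩)

theorem ns8 (h8 : ¬ S8 M₁ M₂) : False := by
  have ha := h.arc
  have n0 := ha.ne 0 (by omega)
  have b0 := (ha.adj 0).symm
  obtain ⟨x, hx, hxO⟩ := SetLike.not_le_iff_exists.1 h.V_not_le
  obtain ⟨μ, hμ, hne, hE⟩ := h.E_le h8 hx hxO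
  obtain ⟨a1, a2, a3⟩ := h.edge.smul_ne (ha.adj 1) b0 n0.symm (h.c1b hx) hxO
  obtain ⟨t, t0, t1, tC⟩ : ∃ t ∈ 𝐎[St (p 0)], t ∉ 𝐎[St (p 1)] ∧ t ∈ 𝐂[Yy (p 1)] := by
    obtain ⟨g, g1, g2⟩ := exists_smul_edge (ha.adj 1) b0 rfl
    refine ⟨g * x * g⁻¹, ?_, fun h0 => hxO ((mem_normalizer_iff.1 (St_le_O _ g1) x).2 h0),
      conj_mem_of_mem_normalizer (le_normalizer_centralizer (St_le_Y _) g1)
        (le_centralizer_iff.1 h.Y_le_C hx)⟩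
    rw [← g2, O_smul]
    exact conj_mem_cj ((h.below.V_le ha.walk (d + 5) 2 :) hx) g
  have tT : t ∈ St (p 1) ⊓ St (p 0) := ⟨h.edge.O_le' (ha.adj 0) t0, O_le_St _ t0⟩
  have fin := fun h3 => h.fin h.hN (by omega) h8 h.t0 (ha.adj 0) hμ hne.symm h3 t0 t1 tC
  by_cases h1 : 𝐎[St (p 0)] ⊓ 𝐎[St (p 1)] ≤ 𝐎[St (x • p 0)]
  · exact fin ((le_inf le_rfl h1).trans hE)
  by_cases h2 : ¬ 𝐎[St (p 0)] ⊓ 𝐎[St (p 1)] ⊓ 𝐎[St (x • p 0)] ≤ 𝐎[St (p 2)]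
  · have hE' := (cj_le_cj_iff (g := t)).2 hE
    rw [cj_inf, cj_inf, cj_centralizer, ← O_smul, ← O_smul, ← O_smul, ← Y_smul,
      show t • p 0 = p 0 from tT.2, show t • p 1 = p 1 from tT.1,
      show t • μ = μ from h.edge.O_le' hμ t0,
      h.smul_eq b0 a1 (ha.adj 1) a3 n0 a2.symm tT t1] at hE'
    exact fin ((le_sup_inf_of_relIndex_two (h.edge.half (ha.adj 1).symm).idx2 (inf_le_right.trans
      ((h.edge.O_le (ha.adj 1)).trans (inf_comm _ _).le)) inf_le_left h2).trans (sup_le hE hE'))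
  rw [not_not] at h2
  have hY := h.not_Y_le h.hN (by omega) h8 h.t1 b0
  by_cases h3 : 𝐎[St (p 1)] ≤ 𝐂[Yy (p 1)]
  · refine hY ((h.le_Z h.t1 (ha.adj 0) (H9.isEA_of_le (h.isEA_V (by omega) _) (Y_le_V _))
      ((Y_le_V _).trans (h.V_le_T (by omega) (ha.adj 0) (ha.adj 0))) (le_centralizer_iff.1 ?_)).trans
        (h.Z_le_Z h.t1 (ha.adj 0)))
    rw [inf_comm]
    exact ((h.edge.half b0).le_sup (zpowers_le.2 tT) fun h0 => t1 (zpowers_le.1 h0)).trans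
      (sup_le (zpowers_le.2 tC) h3)
  obtain ⟨b, hb, hbZ⟩ := SetLike.not_le_iff_exists.1 fun h0 =>
    hY (le_trans h0 (h.Z_le_Z h.t1 (ha.adj 0)))
  have hR := pResidualOf_le 2 (St (p 1))
  have nC := hR.trans (le_normalizer_inf (St_le_O (p 1)) (le_normalizer_centralizer (St_le_Y (p 1))))
  have i1 : (𝐎[St (p 1)] ⊓ 𝐂[Yy (p 1)]).relIndex 𝐎[St (p 1)] ≤ 2 := by
    refine (relIndex_le_of_le_left (H := 𝐎[St (p 1)] ⊓ centralizer {b}) (le_inf inf_le_left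
      (le_trans ?_ (centralizer_anti (h.Y_le h.hN (by omega) h8 h.t1 hb hbZ))))
      (relIndex_ne_zero _)).trans ?_
    · exact le_centralizer_sup (inf_le_right.trans (centralizer_zpowers b).ge)
        ((inf_le_left.trans (O_le_St _)).trans (h.St_le_C h.t1))
    · rw [inf_relIndex_left]
      exact (H3.relIndex_centralizer_le fun g hg =>
        comm_Y _ (commutator_mem_commutator (O_le_St _ hg) hb)).trans (h.hN _ h.t1).le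
  have i2 : (𝐎[St (p 1)] ⊓ 𝐂[Vv (p 1)]).relIndex 𝐎[St (p 1)] ≤ 2 * 2 := by
    refine (relIndex_le_of_le_left (H := 𝐎[St (p 1)] ⊓ (𝐎[St (p 0)] ⊓ 𝐎[St (x • p 0)]))
      (le_inf inf_le_left (le_trans (le_inf inf_le_right (le_trans ?_ h2))
        (h.le_C_V3 b0 a1 (ha.adj 1) a3 n0 a2.symm))) (relIndex_ne_zero _)).trans ?_
    · exact le_inf (le_inf (inf_le_right.trans inf_le_left) inf_le_left)
        (inf_le_right.trans inf_le_right)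
    · rw [inf_relIndex_left]
      exact relIndex_inf_le.trans (Nat.mul_le_mul
        (h.edge.relIndex_le b0.symm ((h.edge.O_le b0).trans (inf_comm _ _).le))
        (h.edge.relIndex_le a1.symm ((h.edge.O_le a1).trans (inf_comm _ _).le)))
  rw [← relIndex_mul_relIndex _ (𝐎[St (p 1)] ⊓ 𝐂[Yy (p 1)]) _
    (inf_le_inf_left _ (centralizer_anti (Y_le_V _))) inf_le_left] at i2
  have i3 := (Nat.two_le_iff _).2 ⟨relIndex_ne_zero (H := 𝐎[St (p 1)]) (𝐎[St (p 1)] ⊓ 𝐂[Yy (p 1)]),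
    fun e => h3 ((relIndex_eq_one.1 e).trans inf_le_right)⟩
  have e1 : ⁅𝐎[St (p 1)], 𝐑[St (p 1)]⁆ ≤ 𝐎[St (p 0)] ⊓ 𝐎[St (p 1)] := by
    rw [← commutator_commutator_eq' (pResidualOf_idem 2 _) (isPGroup_pCoreOf 2 _)
      (hR.trans (St_le_O _))]
    refine ((commutator_mono (commutator_le_of_relIndex_le_two i1 (hR.trans (St_le_O _)) nC)
      le_rfl).trans (commutator_le_of_relIndex_le_two (by nlinarith) nC (hR.trans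
        (le_normalizer_inf (St_le_O (p 1)) (le_normalizer_centralizer (St_le_V (p 1))))))).trans
      (le_inf (h.le_O_of_C_V h.t1 b0 (inf_le_left.trans (h.edge.O_le' b0)) inf_le_right) inf_le_left)
  have e2 := cj_eq_of_mem_normalizer (((h.edge.half b0).res_sup.ge.trans (sup_le
    (le_normalizer_of_commutator_le inf_le_right e1) (le_normalizer_inf
      (inf_le_right.trans (St_le_O _)) (inf_le_left.trans (St_le_O _))))) (h.c1b hx).1)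
  rw [cj_inf, ← O_smul] at e2
  exact h1 (e2.ge.trans inf_le_left)

theorem elim : False := by
  by_cases h8 : S8 M₁ M₂
  · rcases d with _ | d
    · exact h.s8_zero h8
    · exact h.s8_pos h8 (by omega)
  · exact h.ns8 h8

end Od

theorem Mi.final {c : ℕ} (h : Mi M₁ M₂ c) {p : ℕ → CosetVertex M₁ M₂} (hp : Crit c p) :
    Nat.card (M₁ ⊓ M₂ :) ≤ 128 := by
  by_cases hz : NC (p (c + 1))
  · have := h.c_ne hp
    rcases Nat.lt_or_ge c 2 with hc | hc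
    · obtain rfl : c = 1 := by omega
      exact h.even_one hp
    · exact (h.even_ge hc hp hz).elim
  have h2 := h.two_le hp hz
  have h3 : c ≠ 3 := by
    rintro rfl
    have ha := hp.arc h.below
    exact hz (h.nc_of (h.mix _ _ (ha.adj 2) (h.nc_of (h.mix _ _ (ha.adj 0) (h.nc_first hp))
      (ha.adj 1).symm)) (ha.adj 3).symm)
  by_cases hH : HypH M₁ M₂ c
  · have hN := h.n1_of_hypH hH hp hz
    rcases h2.eq_or_lt with rfl | hc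
    · exact h.three hN hp
    · obtain ⟨d, rfl⟩ : ∃ d, c = d + 4 := ⟨c - 4, by omega⟩
      exact (Od.elim ⟨h, hH, hN, hp, hz⟩).elim
  · obtain ⟨a, b⟩ := h.not_hypH hp hz hH
    obtain rfl : c = 2 := by omega
    exact h.three (b rfl) hp

end Cfsg.Agent.H9K
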