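import Cfsg.Agent.H9.Amal6
import Cfsg.Agent.H9.S4F1

/-! Amalgams of type `(S₃, S₃)`: arcs, and the mixed case. -/

set_option autoImplicit false

namespace Cfsg.Agent.H9K

open Subgroup H24
open scoped commutatorElement

variable {G : Type*} [Group G] {M₁ M₂ : Subgroup G}

/-- non-backtracking walks -/
structure Arc (n : ℕ) (p : ℕ → CosetVertex M₁ M₂) : Prop where
  walk : Walk n p
  ne : ∀ i, i + 2 ≤ n → p i ≠ p (i + 2)

namespace Arc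

variable {n m : ℕ} {p : ℕ → CosetVertex M₁ M₂} (h : Arc n p)
include h

theorem mono (hm : m ≤ n) : Arc m p := ⟨h.walk.mono hm, fun i hi => h.ne i (by omega)⟩

theorem shift (k : ℕ) : Arc (n - k) (fun i => p (k + i)) :=
  ⟨h.walk.shift k, fun i hi => h.ne (k + i) (by omega)⟩

theorem rev : Arc n (fun i => p (n - i)) := ⟨h.walk.rev, fun i hi => by
  have := (h.ne (n - (i + 2)) (by omega)).symm
  rwa [show n - (i + 2) + 2 = n - i by omega] at this⟩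

theorem cons {μ : CosetVertex M₁ M₂} (h1 : μ ~ p 0) (h2 : μ ≠ p 1) : Arc (n + 1) (pcons μ p) :=
  ⟨h.walk.cons h1, fun i hi => by
    rcases i with _ | i
    · exact h2
    · exact h.ne i (by omega)⟩

theorem adj (i : ℕ) (hi : i < n := by omega) : p i ~ p (i + 1) := h.walk i hi

end Arc

theorem Crit.arc {c : ℕ} {p : ℕ → CosetVertex M₁ M₂} (hp : Crit c p) (hb : Below M₁ M₂ (c + 1)) :
    Arc (c + 1) p := by
  refine ⟨hp.walk, fun i hi e => hp.notle ?_⟩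
  have := hb (c - 1) (by omega) (fun j => if j ≤ i then p j else p (j + 2)) fun j hj => by
    dsimp only
    by_cases h1 : j + 1 ≤ i
    · rw [if_pos h1, if_pos (by omega)]; exact hp.walk j (by omega)
    · rw [if_neg h1]
      by_cases h2 : j ≤ i
      · rw [if_pos h2, show j = i by omega, e]; exact hp.walk (i + 2) (by omega)
      · rw [if_neg h2]; exact hp.walk (j + 2) (by omega)
  simp only [Nat.zero_le, if_true] at this
  split_ifs at this with h1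
  · rwa [show c - 1 = i by omega, e, show i + 2 = c + 1 by omega] at this
  · rwa [show c - 1 + 2 = c + 1 by omega] at this

/-- an element fixing the arc and moving the neighbours of its first vertex -/
def Mov (n : ℕ) (p : ℕ → CosetVertex M₁ M₂) : Prop :=
  ∃ x : G, (∀ i ≤ n, x ∈ St (p i)) ∧ x ∉ 𝐎[St (p 0)]

theorem arc_trans [Finite G] (hE : Edge M₁ M₂) {k : ℕ}
    (H : ∀ δ : CosetVertex M₁ M₂, ∃ r, Arc k r ∧ Same (r 0) δ ∧ Mov k r) :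
    ∀ j ≤ k, ∀ p q : ℕ → CosetVertex M₁ M₂, Arc (j + 1) p → Arc (j + 1) q → Same (p 0) (q 0) →
      ∃ g : G, ∀ i ≤ j + 1, g • p i = q i := by
  intro j
  induction j with
  | zero =>
    intro _ p q hp hq hs
    obtain ⟨g, h1, h2⟩ := exists_smul_edge (hp.adj 0) (hq.adj 0) hs
    refine ⟨g, fun i hi => ?_⟩
    rcases i with _ | _ | i
    exacts [h1, h2, by omega]
  | succ j ih =>
    intro hj p q hp hq hs
    have hs1 : Same (p 1) (q 1) := ((same_or_same (hq.adj 0) (p 1)).resolve_left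
      fun h0 => not_same_of_adj (hp.adj 0) (hs.trans h0.symm))
    obtain ⟨g, hg⟩ := ih (by omega) _ _ (hp.shift 1) (hq.shift 1) hs1
    obtain ⟨r, hr, hrs, x, hx, hxO⟩ := H (q 1)
    obtain ⟨k', hk⟩ := ih (by omega) _ _ (hr.mono (by omega)) (hq.shift 1) hrs
    have g1 : g • p 1 = q 1 := hg 0 (by omega)
    have g2 : g • p 2 = q 2 := hg 1 (by omega)
    have a1 : q 1 ~ g • p 0 := g1 ▸ adj_smul (hp.adj 0).symm g
    have a2 : q 2 ≠ g • p 0 := fun e => hp.ne 0 (by omega) (smul_left_cancel g (e.symm.trans g2.symm))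
    have hx' : ∀ i ≤ j + 1, k' * x * k'⁻¹ ∈ St (q (1 + i)) := fun i hi => by
      rw [← hk i hi, St_smul]; exact conj_mem_cj (hx i (by omega)) k'
    have hxO' : k' * x * k'⁻¹ ∉ 𝐎[St (q 1)] := by
      rw [← hk 0 (by omega), O_smul, conj_mem_cj_iff]; exact hxO
    obtain ⟨b1, b2, b3⟩ := hE.smul_ne (hq.adj 1) a1 a2 ⟨hx' 0 (by omega), hx' 1 (by omega)⟩ hxO'
    have key : ∀ t : G, (∀ i ≤ j + 1, t ∈ St (q (1 + i))) → q 0 = t • g • p 0 →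
        ∃ g : G, ∀ i ≤ j + 1 + 1, g • p i = q i := fun t h1 h2 => ⟨t * g, fun i hi => by
      rcases i with _ | i
      · rw [mul_smul, h2]
      · rw [mul_smul, add_comm i, hg i (by omega)]; exact h1 i (by omega)⟩
    rcases hE.three (hq.adj 1) a1 b1 a2 b2 b3 (hq.adj 0).symm with e | e | e
    · exact absurd e (hq.ne 0 (by omega))
    · exact key 1 (fun _ _ => one_mem _) (by rw [one_smul, e])
    · exact key _ hx' e

/-- `V_δ` -/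
def Vv (δ : CosetVertex M₁ M₂) : Subgroup G := ⨆ γ, ⨆ (_ : δ ~ γ), 𝐙[St γ]

/-- `W_δ` -/
def Ww (δ : CosetVertex M₁ M₂) : Subgroup G := ⨆ γ, ⨆ (_ : δ ~ γ), Vv γ

section
variable {δ γ : CosetVertex M₁ M₂} {H : Subgroup G}

theorem iSup_adj_smul (F : CosetVertex M₁ M₂ → Subgroup G)
    (hF : ∀ (g : G) δ, F (g • δ) = cj (F δ) g) (g : G) (δ : CosetVertex M₁ M₂) :
    (⨆ γ, ⨆ (_ : g • δ ~ γ), F γ) = cj (⨆ γ, ⨆ (_ : δ ~ γ), F γ) g := by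
  refine le_antisymm (iSup₂_le fun γ h => ?_) (cj_le_iff.2 (iSup₂_le fun γ h => ?_))
  · rw [← smul_inv_smul g γ, hF, cj_le_cj_iff]
    exact le_iSup₂_of_le (f := fun γ (_ : δ ~ γ) => F γ) _
      (by simpa using adj_smul h g⁻¹) le_rfl
  · rw [← cj_le_iff, ← hF]
    exact le_iSup₂_of_le (f := fun γ (_ : g • δ ~ γ) => F γ) _ (adj_smul h g) le_rfl

theorem V_smul (g : G) (δ : CosetVertex M₁ M₂) : Vv (g • δ) = cj (Vv δ) g :=
  iSup_adj_smul _ Z_smul g δ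

theorem W_smul (g : G) (δ : CosetVertex M₁ M₂) : Ww (g • δ) = cj (Ww δ) g :=
  iSup_adj_smul _ V_smul g δ

theorem Z_le_V (h : δ ~ γ) : 𝐙[St γ] ≤ Vv δ :=
  le_iSup₂_of_le (f := fun γ (_ : δ ~ γ) => 𝐙[St γ]) γ h le_rfl

theorem V_le_W (h : δ ~ γ) : Vv γ ≤ Ww δ :=
  le_iSup₂_of_le (f := fun γ (_ : δ ~ γ) => Vv γ) γ h le_rfl

theorem V_le (h : ∀ γ, δ ~ γ → 𝐙[St γ] ≤ H) : Vv δ ≤ H := iSup₂_le h

theorem W_le (h : ∀ γ, δ ~ γ → Vv γ ≤ H) : Ww δ ≤ H := iSup₂_le h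

theorem le_normalizer_of_smul {F : CosetVertex M₁ M₂ → Subgroup G}
    (hF : ∀ (g : G) δ, F (g • δ) = cj (F δ) g) (δ : CosetVertex M₁ M₂) : St δ ≤ 𝐍[F δ] :=
  fun g hg => cj_eq_self_iff.1 (by rw [← hF, show g • δ = δ from hg])

theorem St_le_V (δ : CosetVertex M₁ M₂) : St δ ≤ 𝐍[Vv δ] := le_normalizer_of_smul V_smul δ

theorem St_le_W (δ : CosetVertex M₁ M₂) : St δ ≤ 𝐍[Ww δ] := le_normalizer_of_smul W_smul δ

theorem St_le_Z (δ : CosetVertex M₁ M₂) : St δ ≤ 𝐍[𝐙[St δ]] := le_normalizer_scc 2 _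

theorem St_le_O (δ : CosetVertex M₁ M₂) : St δ ≤ 𝐍[𝐎[St δ]] := le_normalizer_pCoreOf 2 _

theorem O_le_St (δ : CosetVertex M₁ M₂) : 𝐎[St δ] ≤ St δ := pCoreOf_le 2 _

end

theorem Below.V_le {b n : ℕ} (h : Below M₁ M₂ b) {p : ℕ → CosetVertex M₁ M₂} (hp : Walk n p)
    (i j : ℕ) (hi : i ≤ n := by omega) (hj : j ≤ n := by omega) (h1 : j + 1 < i + b := by omega)
    (h2 : i + 1 < j + b := by omega) : Vv (p i) ≤ 𝐎[St (p j)] := H9K.V_le fun γ hγ => by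
  rcases le_total i j with hij | hij
  · have := h (j - i + 1) (by omega) _ (((hp.shift i).mono (m := j - i) (by omega)).cons hγ.symm)
    simp only [pcons] at this
    rwa [show i + (j - i) = j by omega] at this
  · have := h (i - j + 1) (by omega) _ ((((hp.mono hi).rev).mono (m := i - j) (by omega)).cons
      hγ.symm)
    simp only [pcons] at this
    rwa [show i - (i - j) = j by omega] at this

theorem Below.W_le {b n : ℕ} (h : Below M₁ M₂ b) {p : ℕ → CosetVertex M₁ M₂} (hp : Walk n p)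
    (j : ℕ) (hj : j ≤ n := by omega) (h1 : j + 2 < b := by omega) :
    Ww (p 0) ≤ 𝐎[St (p j)] := H9K.W_le fun _ hγ => h.V_le (hp.cons hγ.symm) 0 (j + 1)

/-- the mixed case -/
structure Mi (M₁ M₂ : Subgroup G) (c : ℕ) : Prop extends Am M₁ M₂ c where
  mix : ∀ δ ε : CosetVertex M₁ M₂, δ ~ ε → NC δ → ¬ NC ε

theorem Edge.res_le_two [Finite G] (hE : Edge M₁ M₂) {δ μ ν : CosetVertex M₁ M₂} (h : δ ~ μ)
    (h' : δ ~ ν) (hne : μ ≠ ν) {Y Y' : Subgroup G} (h1 : Y ≤ St δ ⊓ St μ) (h2 : Y' ≤ St δ ⊓ St ν)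
    (h3 : ¬ Y ≤ 𝐎[St δ]) (h4 : ¬ Y' ≤ 𝐎[St δ]) (h5 : 𝐎[St δ] ≤ 𝐍[Y]) (h6 : 𝐎[St δ] ≤ 𝐍[Y']) :
    𝐑[St δ] ≤ Y ⊔ Y' := by
  obtain ⟨y, hy, hyO⟩ := SetLike.not_le_iff_exists.1 h3
  have h7 := le_normalizer_sup h5 h6
  exact (hE.half h).res_le (hE.le_of_le h h' hne (((hE.half h).le_sup h1 h3).trans
    (sup_le (le_normalizer_of_le le_sup_left) h7)) (((hE.half h').le_sup h2 h4).trans
    (sup_le (le_normalizer_of_le le_sup_right) h7))) (h1 hy).1 (mem_sup_left hy) hyO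

theorem Edge.relIndex_le [Finite G] (hE : Edge M₁ M₂) {δ μ : CosetVertex M₁ M₂} (h : δ ~ μ)
    {Y : Subgroup G} (h1 : Y ≤ St δ ⊓ St μ) : 𝐎[St δ].relIndex Y ≤ 2 :=
  (relIndex_le_of_le_right h1 (relIndex_ne_zero _)).trans (hE.half h).idx2.le

theorem card_le_mul_of_relIndex [Finite G] {A Y : Subgroup G} {n : ℕ} (h : A.relIndex Y ≤ n) :
    Nat.card Y ≤ n * Nat.card (Y ⊓ A :) := by
  rw [← card_inf_mul_relIndex A Y, inf_comm, mul_comm]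
  exact Nat.mul_le_mul_right _ h

theorem Edge.card_le [Finite G] (hE : Edge M₁ M₂) {δ μ : CosetVertex M₁ M₂} (h : δ ~ μ)
    {Y : Subgroup G} (h1 : Y ≤ St δ ⊓ St μ) : Nat.card Y ≤ 2 * Nat.card (Y ⊓ 𝐎[St δ] :) :=
  card_le_mul_of_relIndex (hE.relIndex_le h h1)

theorem card_edge {δ μ : CosetVertex M₁ M₂} (h : δ ~ μ) :
    Nat.card (St δ ⊓ St μ :) = Nat.card (M₁ ⊓ M₂ :) :=
  edge_transfer (P := fun A B => Nat.card (A ⊓ B :) = Nat.card (M₁ ⊓ M₂ :)) rfl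
    (fun A B h => by rwa [inf_comm]) (fun A B g h => by rwa [← cj_inf, card_cj]) h

theorem Edge.card_T [Finite G] (hE : Edge M₁ M₂) (δ : CosetVertex M₁ M₂) :
    Nat.card (M₁ ⊓ M₂ :) = 2 * Nat.card 𝐎[St δ] := by
  obtain ⟨μ, h⟩ := exists_adj δ
  rw [← card_edge h, ← card_mul_relIndex (hE.O_le h), (hE.half h).idx2, mul_comm]

namespace Mi

variable [Finite G] {c : ℕ} (h : Mi M₁ M₂ c) {p : ℕ → CosetVertex M₁ M₂}
  {α β β' γ γ' δ ε μ ν : CosetVertex M₁ M₂} {x : G} {N Y : Subgroup G}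
include h

theorem pT (h1 : δ ~ ε) : IsPGroup 2 (St δ ⊓ St ε :) := (h.edge.half h1).pgrp

theorem Z_eq (hβ : ¬ NC β) (h1 : α ~ β) : 𝐙[St β] = 𝛀[St α ⊓ St β] := by
  have hs := (h.edge.half h1.symm).syl
  rw [inf_comm]
  exact hs.scc_eq_ncl.trans (ncl_eq_self (le_normalizer_of_le_centralizer
    ((not_not.1 hβ).trans (centralizer_anti hs.omegaOneCenter_le_scc))))

theorem Z_le_Z (hβ : ¬ NC β) (h1 : α ~ β) : 𝐙[St β] ≤ 𝐙[St α] :=
  (h.Z_eq hβ h1).le.trans (h.edge.half h1).syl.omegaOneCenter_le_scc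

theorem nc_of (hβ : ¬ NC β) (h1 : α ~ β) : NC α := fun h0 => h.Z_ne_bot β
  (h.eq_bot_of_central h1 ((h.Z_le h1.symm).trans (inf_comm _ _).le)
    (h0.trans (centralizer_anti (h.Z_le_Z hβ h1))) (not_not.1 hβ))

theorem same_of_nc (h1 : NC δ) (h2 : NC ε) : Same δ ε := by
  obtain ⟨μ, hμ⟩ := exists_adj ε
  exact (same_or_same hμ δ).resolve_right fun h0 => h.mix ε μ hμ h2 (h1.same h0)

theorem same_of_not (h1 : ¬ NC δ) (h2 : ¬ NC ε) : Same δ ε := by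
  obtain ⟨μ, hμ⟩ := exists_adj ε
  exact (same_or_same hμ δ).resolve_right fun h0 => h1 ((h.nc_of h2 hμ.symm).same h0.symm)

theorem arc_trans {k : ℕ} {r s : ℕ → CosetVertex M₁ M₂} (h1 : Arc k r) (h2 : NC (r 0))
    (h3 : Mov k r) (h4 : Arc k s) (h5 : ¬ NC (s 0)) (h6 : Mov k s) (j : ℕ) (hj : j ≤ k)
    {p q : ℕ → CosetVertex M₁ M₂} (hp : Arc (j + 1) p) (hq : Arc (j + 1) q)
    (hs : Same (p 0) (q 0)) : ∃ g : G, ∀ i ≤ j + 1, g • p i = q i := by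
  refine H9K.arc_trans h.edge (fun δ => ?_) j hj p q hp hq hs
  by_cases h0 : NC δ
  exacts [⟨r, h1, h.same_of_nc h2 h0, h3⟩, ⟨s, h4, h.same_of_not h5 h0, h6⟩]

theorem le_Z (hβ : ¬ NC β) (h1 : α ~ β) (h2 : IsElementaryAbelian 2 Y) (h3 : Y ≤ St α ⊓ St β)
    (h4 : Y ≤ 𝐂[St α ⊓ St β]) : Y ≤ 𝐙[St β] := h.Z_eq hβ h1 ▸ le_omegaOneCenter h2 h3 h4

theorem inf_C_le (hβ : ¬ NC β) (h1 : α ~ β) (h2 : Y ≤ St α ⊓ St β) (h3 : ¬ Y ≤ 𝐎[St α]) :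
    𝐙[St α] ⊓ 𝐂[Y] ≤ 𝐙[St β] :=
  h.le_Z hβ h1 (H9.isEA_of_le (h.isEA_Z α) inf_le_left) (inf_le_left.trans (h.Z_le h1))
    fun _ hx => h.mem_centralizer h1 h2 h3 hx.1 hx.2

theorem comm_le (hβ : ¬ NC β) (h1 : α ~ β) (h2 : Y ≤ St α ⊓ St β) : ⁅𝐙[St α], Y⁆ ≤ 𝐙[St β] := by
  obtain ⟨t, ht, htO⟩ := SetLike.not_le_iff_exists.1 (h.edge.half h1).not_le
  have h3 : ¬ zpowers t ≤ 𝐎[St α] := fun h0 => htO (zpowers_le.1 h0)
  refine (commutator_mono le_rfl h2).trans ?_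
  rw [← (h.edge.half h1).commutator_eq (h.char α) (zpowers_le.2 ht) h3]
  exact (quad_of_sq (h.isEA_Z α) (St_le_Z α ht.1) (h.O_le_C α (sq_mem_of_relIndex_two
    (h.edge.half h1).idx2 ht))).trans (h.inf_C_le hβ h1 (zpowers_le.2 ht) h3)

theorem St_le_C (hβ : ¬ NC β) : St β ≤ 𝐂[𝐙[St β]] := not_not.1 hβ

theorem Z_inf (hα : NC α) (h1 : α ~ β) (h2 : α ~ β') (hne : β ≠ β') : 𝐙[St β] ⊓ 𝐙[St β'] = ⊥ := by
  have a := (h.St_le_C (h.mix _ _ h1 hα)).trans (centralizer_anti (A := 𝐙[St β] ⊓ 𝐙[St β'])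
    inf_le_left)
  have b := (h.St_le_C (h.mix _ _ h2 hα)).trans (centralizer_anti (A := 𝐙[St β] ⊓ 𝐙[St β'])
    inf_le_right)
  exact h.eq_bot_of_central h1 (inf_le_left.trans ((h.Z_le h1.symm).trans (inf_comm _ _).le))
    (h.edge.le_of_le h1 h2 hne (inf_le_right.trans a) (inf_le_right.trans b)) a

theorem Z_sup (hα : NC α) (h1 : α ~ β) (h2 : α ~ β') (hne : β ≠ β') :
    𝐙[St β] ⊔ 𝐙[St β'] = 𝐙[St α] := by
  have b1 := h.mix _ _ h1 hα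
  have b2 := h.mix _ _ h2 hα
  have a := sup_le (h.Z_le_Z b1 h1) (h.Z_le_Z b2 h2)
  refine le_antisymm a ?_
  rw [(h.edge.half h1).syl.scc_eq_ncl, ← h.Z_eq b1 h1]
  exact ncl_le le_sup_left (h.edge.le_of_le h1 h2 hne
    (le_normalizer_of_commutator_le a ((h.comm_le b1 h1 le_rfl).trans le_sup_left))
    (le_normalizer_of_commutator_le a ((h.comm_le b2 h2 le_rfl).trans le_sup_right)))

theorem card_Z (hα : NC α) (h1 : α ~ β) :
    Nat.card 𝐙[St α] = Nat.card 𝐙[St β] * Nat.card 𝐙[St β] := by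
  obtain ⟨β', h2, hne⟩ := h.edge.exists_ne h1
  obtain ⟨g, -, rfl⟩ := exists_smul_eq_of_adj h1 h2
  have := card_sup_mul_card_inf (A := 𝐙[St β]) (B := 𝐙[St (g • β)]) (le_normalizer_of_le_centralizer
    (((h.Z_le_Z (h.mix _ _ h1 hα) h1).trans (isEA_iff.1 (h.isEA_Z α)).1).trans
      (centralizer_anti (h.Z_le_Z (h.mix _ _ h2 hα) h2))))
  rwa [h.Z_sup hα h1 h2 hne, h.Z_inf hα h1 h2 hne, card_bot, mul_one, Z_smul, card_cj] at this

theorem comm_eq (hα : NC α) (h1 : α ~ β) (h2 : Y ≤ St α ⊓ St β) (h3 : ¬ Y ≤ 𝐎[St α]) :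
    ⁅𝐙[St α], Y⁆ = 𝐙[St β] := by
  have hβ := h.mix _ _ h1 hα
  obtain ⟨t, ht, htO⟩ := SetLike.not_le_iff_exists.1 h3
  have h4 : ¬ zpowers t ≤ 𝐎[St α] := fun h0 => htO (zpowers_le.1 h0)
  have h5 := zpowers_le.2 (h2 ht)
  refine eq_of_le_of_card_le (h.comm_le hβ h1 h2) (le_trans ?_ (card_le_of_le'
    (commutator_mono le_rfl (zpowers_le.2 ht))))
  have a := H9.card_commutator_mul_card_centralizer (h.isEA_Z α) (St_le_Z α (h2 ht).1)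
  have b := card_le_of_le' (h.inf_C_le hβ h1 h5 h4)
  rw [h.card_Z hα h1] at a
  have := card_pos' 𝐙[St β]
  nlinarith

theorem inf_res (hα : NC α) : 𝐎[St α] ⊓ 𝐂[𝐑[St α]] = ⊥ := by
  by_contra h0
  obtain ⟨β, h1⟩ := exists_adj α
  have hβ := h.mix _ _ h1 hα
  refine inf_omegaOneCenter_ne_bot (h.pT h1) (inf_le_left.trans (h.edge.O_le h1))
    (inf_le_left.trans (le_normalizer_inf (St_le_O α) (le_normalizer_centralizer
      (le_normalizer_pResidualOf 2 _)))) h0 (h.eq_bot_of_central h1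
    (inf_le_right.trans (omegaOneCenter_le 2 _)) ((h.edge.half h1).res_sup.ge.trans (sup_le
      (le_centralizer_iff.1 (inf_le_left.trans inf_le_right)) (le_centralizer_iff.1
        (inf_le_right.trans (omegaOneCenter_le_centralizer 2 _))))) ?_)
  exact (h.St_le_C hβ).trans (centralizer_anti (h.Z_eq hβ h1 ▸ inf_le_right))

theorem eq_bot_of (hα : NC α) (h1 : N ≤ 𝐎[St α]) (h2 : St α ≤ 𝐍[N]) (hx : x ∈ St α)
    (hxO : x ∉ 𝐎[St α]) (hc : x ∈ 𝐂[N]) : N = ⊥ := by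
  obtain ⟨β, h3⟩ := exists_adj α
  exact le_bot_iff.1 (h.inf_res hα ▸ le_inf h1 (le_centralizer_iff.1
    ((h.edge.half h3).res_le (le_normalizer_centralizer h2) hx hc hxO)))

theorem mem_St (h1 : β ~ γ) (hx : x ∈ St β) (hn : x ∈ 𝐍[𝐙[St γ]]) : x ∈ St γ := by
  by_contra h0
  exact h.Z_ne_bot γ (h.edge.eq_bot h1 ((h.Z_le h1.symm).trans inf_le_right) (scc_le 2 _)
    ((h.edge.half h1).le_of_not_mem (inf_le_right.trans (St_le_Z γ)) hn hx fun h2 => h0 h2.2)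
    (St_le_Z γ))

theorem le_O_of_norm (h1 : β ~ γ) (h2 : β ~ γ') (hne : γ ≠ γ') (h3 : Y ≤ St β ⊓ St γ)
    (h4 : Y ≤ 𝐍[𝐙[St γ']]) : Y ≤ 𝐎[St β] := fun _ hx =>
  h.edge.mem_O h1 h2 hne (h3 hx).1 (h3 hx).2 (h.mem_St h2 (h3 hx).1 (h4 hx))

theorem comm_V (hβ : ¬ NC β) (h1 : Y ≤ 𝐎[St β]) : ⁅Vv β, Y⁆ ≤ 𝐙[St β] :=
  commutator_iSup_left_le (fun γ => iSup_le fun hγ => ((h.Z_le hγ.symm).trans inf_le_right).trans
    (St_le_Z β)) fun γ => commutator_iSup_left_le (fun hγ => ((h.Z_le hγ.symm).trans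
      inf_le_right).trans (St_le_Z β)) fun hγ => h.comm_le hβ hγ.symm
        ((h1.trans (h.edge.O_le hγ)).trans (inf_comm _ _).le)

theorem c_ne (hp : Crit c p) : c ≠ 0 := by
  rintro rfl
  have h1 := hp.walk 0 (by omega)
  have hβ := h.mix _ _ h1 (h.nc_first hp)
  obtain ⟨a, ha, haO⟩ := SetLike.not_le_iff_exists.1 hp.notle
  have h2 : 𝐙[St (p 0)] ≤ centMod 𝐎[St (p 1)] 𝐙[St (p 1)] := le_centMod_iff.2
    ⟨((h.Z_le h1).trans inf_le_right).trans (St_le_Z _), by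
      rw [commutator_comm]
      exact h.comm_le hβ h1 ((h.edge.O_le h1.symm).trans (inf_comm _ _).le)⟩
  have h3 := (h.edge.half h1.symm).res_le (le_normalizer_centMod (St_le_O _) (St_le_Z _))
    (h.Z_le h1 ha).2 (h2 ha) haO
  exact (h.edge.half h1.symm).res_not_le_centralizer (h.char _) (le_centralizer_of_stabilizes
    (pResidualOf_idem 2 _) (isPGroup_of_isElementaryAbelian (h.isEA_Z _))
    (le_centMod_iff.1 h3).2 ((pResidualOf_le 2 _).trans (h.St_le_C hβ)))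

theorem Z_le_V' (hβ : ¬ NC β) : 𝐙[St β] ≤ Vv β := by
  obtain ⟨γ, h1⟩ := exists_adj β
  exact (h.Z_le_Z hβ h1.symm).trans (Z_le_V h1)

theorem V_le_O (hc : 1 ≤ c) (β : CosetVertex M₁ M₂) : Vv β ≤ 𝐎[St β] :=
  V_le fun _ hγ => h.Z_le_O_adj hc hγ.symm

theorem le_C_V (h1 : ∀ γ, β ~ γ → Y ≤ 𝐎[St γ]) : Y ≤ 𝐂[Vv β] :=
  le_centralizer_iff.1 (V_le fun γ hγ => le_centralizer_iff.1 ((h1 γ hγ).trans (h.O_le_C γ)))

theorem le_C_V3 {γ'' : CosetVertex M₁ M₂} (h1 : β ~ γ) (h2 : β ~ γ') (h3 : β ~ γ'') (n1 : γ ≠ γ')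
    (n2 : γ ≠ γ'') (n3 : γ' ≠ γ'') : 𝐎[St γ] ⊓ 𝐎[St γ'] ⊓ 𝐎[St γ''] ≤ 𝐂[Vv β] :=
  h.le_C_V fun _ hδ => by
    rcases h.edge.three h1 h2 h3 n1 n2 n3 hδ with rfl | rfl | rfl
    exacts [inf_le_left.trans inf_le_left, inf_le_left.trans inf_le_right, inf_le_right]

theorem le_O_of_C_V (hβ : ¬ NC β) (h1 : β ~ γ) (h2 : Y ≤ St γ) (h3 : Y ≤ 𝐂[Vv β]) :
    Y ≤ 𝐎[St γ] := h.le_O (h.nc_of hβ h1.symm) h2 (h3.trans (centralizer_anti (Z_le_V h1)))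

theorem V_ne_bot (β : CosetVertex M₁ M₂) : Vv β ≠ ⊥ := fun h0 => by
  obtain ⟨γ, h1⟩ := exists_adj β
  exact h.Z_ne_bot γ (le_bot_iff.1 (h0 ▸ Z_le_V h1))

end Mi

end Cfsg.Agent.H9K
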