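import Cfsg.Agent.H9.Amal7
import Cfsg.Agent.H2.Prim

/-! Amalgams of type `(S₃, S₃)`, mixed case: even critical distance, and the order of `Z_α`. -/

set_option autoImplicit false

namespace Cfsg.Agent.H9K

open Subgroup H24
open scoped commutatorElement

variable {G : Type*} [Group G] {M₁ M₂ : Subgroup G} [Finite G]

theorem Mi.even_one (h : Mi M₁ M₂ 1) {p : ℕ → CosetVertex M₁ M₂} (hp : Crit 1 p) :
    Nat.card (M₁ ⊓ M₂ :) ≤ 128 := by
  have ha := hp.arc h.below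
  have hα := h.nc_first hp
  have k1 : ∀ α β, NC α → α ~ β → ¬ Vv β ≤ 𝐎[St α] := fun α β h1 h2 h0 => by
    obtain ⟨γ, h3, h4⟩ := h.edge.exists_ne h2.symm
    obtain ⟨g, rfl, rfl, rfl⟩ := h.edge.two_trans (ha.adj 0).symm (ha.adj 1) (ha.ne 0 le_rfl) h3
      h2.symm h4.symm (h.same_of_not (h.mix _ _ (ha.adj 0) hα) (h.mix _ _ h2 h1))
    exact not_le_smul hp.notle g ((Z_le_V h3).trans h0)
  have k2 : ∀ α β, α ~ β → Vv β ≤ St α ⊓ St β := fun α β h2 =>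
    ((h.V_le_O le_rfl β).trans (h.edge.O_le h2.symm)).trans (inf_comm _ _).le
  have h1 := ha.adj 0
  set α := p 0
  set β := p 1
  have hβ := h.mix _ _ h1 hα
  obtain ⟨β', h2, hne⟩ := h.edge.exists_ne h1
  have e1 : 𝐎[St β] ⊓ 𝐂[Vv β] ≤ 𝐎[St α] :=
    h.le_O_of_C_V hβ h1.symm (inf_le_left.trans (h.edge.O_le' h1.symm)) inf_le_right
  have e2 : 𝐎[St β] ⊓ 𝐂[Vv β] ⊓ 𝐂[Vv β'] = ⊥ := le_bot_iff.1 (h.inf_res hα ▸ le_inf
    (inf_le_left.trans e1) ((le_centralizer_sup (inf_le_left.trans inf_le_right)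
      inf_le_right).trans (centralizer_anti (h.edge.res_le_two h1 h2 hne (k2 _ _ h1) (k2 _ _ h2)
        (k1 _ _ hα h1) (k1 _ _ hα h2) ((h.edge.O_le' h1).trans (St_le_V _))
        ((h.edge.O_le' h2).trans (St_le_V _))))))
  have k3 : ∀ α β : CosetVertex M₁ M₂, α ~ β → ∀ Y ≤ 𝐎[St β] ⊓ 𝐎[St α],
      Nat.card Y ≤ 4 * Nat.card (Y ⊓ 𝐂[Vv β] :) := fun α β h1 Y hY => by
    obtain ⟨γ, γ', a1, a2, n1, n2, n3⟩ := h.edge.exists_two h1.symm
    have b : ∀ γ, β ~ γ → Y ≤ St γ ⊓ St β := fun γ a =>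
      (hY.trans (inf_le_left.trans (h.edge.O_le a))).trans (inf_comm _ _).le
    have c1 := h.edge.card_le a1.symm (b γ a1)
    have c2 := h.edge.card_le a2.symm (inf_le_left.trans (b γ' a2) : Y ⊓ 𝐎[St γ] ≤ _)
    have c3 := card_le_of_le' (le_inf (inf_le_left.trans inf_le_left) ((inf_le_inf_right _
      (inf_le_inf_right _ (hY.trans inf_le_right))).trans (h.le_C_V3 h1.symm a1 a2 n1 n2 n3)) :
      Y ⊓ 𝐎[St γ] ⊓ 𝐎[St γ'] ≤ Y ⊓ 𝐂[Vv β])
    omega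
  have c1 := h.edge.card_le h1 ((h.edge.O_le h1.symm).trans (inf_comm _ _).le)
  have c2 := k3 α β h1 _ le_rfl
  have c3 := card_le_of_le' (inf_le_inf_right 𝐂[Vv β] (inf_le_left : 𝐎[St β] ⊓ 𝐎[St α] ≤ _))
  have c4 := h.edge.card_le h2.symm ((e1.trans (h.edge.O_le h2)).trans (inf_comm _ _).le)
  have c5 := k3 α β' h2 (𝐎[St β] ⊓ 𝐂[Vv β] ⊓ 𝐎[St β']) (le_inf inf_le_right (inf_le_left.trans e1))
  rw [inf_right_comm _ 𝐎[St β'], e2, bot_inf_eq, card_bot] at c5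
  rw [h.edge.card_T β]
  omega

namespace Mi

variable {c : ℕ} (h : Mi M₁ M₂ c) {p : ℕ → CosetVertex M₁ M₂}
  {α β β' γ γ' δ ε μ ν : CosetVertex M₁ M₂} {x : G} {N Y : Subgroup G}
include h

theorem mov_crit (hp : Crit c p) : Mov (c + 1) fun i => p (c + 1 - i) := by
  obtain ⟨a, ha, haO⟩ := SetLike.not_le_iff_exists.1 hp.notle
  refine ⟨a, fun i hi => ?_, haO⟩
  rcases i with _ | i
  · exact (h.Z_first_le hp ha).1
  · exact O_le_St _ ((h.below.le hp.walk 0 (c + 1 - (i + 1)) :) ha)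

theorem all_crit {r : ℕ → CosetVertex M₁ M₂} (hp : Crit c p) (h1 : Arc c r) (h3 : Mov c r)
    (h2 : NC (r 0) ↔ ¬ NC (p (c + 1))) (j : ℕ) (hj : j ≤ c) {q q' : ℕ → CosetVertex M₁ M₂}
    (hq : Arc (j + 1) q) (hq' : Arc (j + 1) q') (hs : Same (q 0) (q' 0)) :
    ∃ g : G, ∀ i ≤ j + 1, g • q i = q' i := by
  have a := (hp.arc h.below).rev.mono (Nat.le_succ c)
  have b : Mov c fun i => p (c + 1 - i) := by
    obtain ⟨x, h4, h5⟩ := h.mov_crit hp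
    exact ⟨x, fun i hi => h4 i (by omega), h5⟩
  by_cases h0 : NC (r 0)
  · exact h.arc_trans h1 h0 h3 a (h2.1 h0) b j hj hq hq' hs
  · exact h.arc_trans a (not_not.1 fun h4 => h0 (h2.2 h4)) b h1 h0 h3 j hj hq hq' hs

theorem all_crit' {r : ℕ → CosetVertex M₁ M₂} (hp : Crit c p) (h1 : Arc c r) (h3 : Mov c r)
    (h2 : NC (r 0) ↔ ¬ NC (p (c + 1))) {q : ℕ → CosetVertex M₁ M₂} (hq : Arc (c + 1) q)
    (hs : NC (q 0)) : ¬ 𝐙[St (q 0)] ≤ 𝐎[St (q (c + 1))] := by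
  obtain ⟨g, hg⟩ := h.all_crit hp h1 h3 h2 c le_rfl (hp.arc h.below) hq
    (h.same_of_nc (h.nc_first hp) hs)
  rw [← hg 0 (by omega), ← hg (c + 1) le_rfl]
  exact not_le_smul hp.notle g

theorem even_ge (hc : 2 ≤ c) (hp : Crit c p) (hz : NC (p (c + 1))) : False := by
  have key : ∀ q : ℕ → CosetVertex M₁ M₂, Crit c q → NC (q (c + 1)) → 𝐙[St (q 1)] = 𝐙[St (q c)] := fun q hq hq' => by
    have a := hq.walk 0 (by omega)
    have b := (hq.walk c (by omega)).symm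
    rw [← h.comm_eq (h.nc_first hq) a le_rfl (h.edge.half a).not_le,
      ← h.comm_eq hq' b le_rfl (h.edge.half b).not_le]
    exact h.Rr_eq hq hq'
  obtain ⟨d, rfl⟩ : ∃ d, c = d + 2 := ⟨c - 2, by omega⟩
  have ha := hp.arc h.below
  have hα := h.nc_first hp
  obtain ⟨μ, h1, hne⟩ := h.edge.exists_ne (ha.adj 0)
  have hμ := h.mix _ _ h1 hα
  have t1 := h.mix _ _ (ha.adj (d + 2)).symm hz
  have t2 := h.nc_of t1 (ha.adj (d + 1))
  have t3 := h.mix _ _ (ha.adj d).symm t2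
  have e0 := key p hp hz
  have e1 : ¬ 𝐙[St μ] ≤ 𝐎[St (p (d + 3))] := fun h0 => hp.notle
    ((h.Z_sup hα (ha.adj 0) h1 hne).ge.trans (sup_le (h.below.le hp.walk 1 (d + 3)) h0))
  have e2 : ∀ ν, μ ~ ν → 𝐙[St ν] ≤ 𝐎[St (p (d + 1))] := fun ν hν => by
    by_contra h0
    exact e1 ((key _ ⟨((hp.walk.cons h1.symm).cons hν.symm).mono (by omega), h0⟩ t2).le.trans
      ((h.Z_le_Z t3 (ha.adj d).symm).trans (h.below.le hp.walk (d + 1) (d + 3))))
  have e3 : ¬ Vv μ ≤ 𝐎[St (p (d + 2))] := fun h0 => by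
    have h2 := h.V_le_O (by omega) μ
    refine h.V_ne_bot μ (h.edge.eq_bot h1 (h2.trans (h.edge.O_le' h1.symm)) (h2.trans (O_le_St _))
      (h.gen hp hz h1 hne.symm (inf_le_right.trans (St_le_V μ))
        (le_normalizer_of_commutator_le le_rfl ?_)) (St_le_V μ))
    exact (h.commutator_le hp hz h0).trans (Z_le_V h1.symm)
  obtain ⟨ν, hν, e4⟩ : ∃ ν, μ ~ ν ∧ ¬ 𝐙[St ν] ≤ 𝐎[St (p (d + 2))] := by
    by_contra! h0
    exact e3 (V_le h0)
  have hq := (ha.cons h1.symm hne.symm).cons hν.symm (show ν ≠ p 0 from by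
    rintro rfl; exact e4 (h.below.le hp.walk 0 (d + 2)))
  obtain ⟨t, ht, htO⟩ := SetLike.not_le_iff_exists.1 e4
  refine h.all_crit' hp (((hq.mono (m := d + 4) (by omega)).rev).mono (by omega))
    ⟨t, fun i hi => ?_, htO⟩ (iff_of_false t1 (not_not.2 hz)) (hq.mono (by omega))
    (h.nc_of hμ hν.symm) (e2 ν hν)
  rcases i with _ | _ | i
  · exact h.edge.O_le' (ha.adj (d + 1)) (e2 ν hν ht)
  · exact O_le_St _ (e2 ν hν ht)
  · exact O_le_St _ ((h.below.le hq.walk 0 (d + 4 - (i + 1 + 1)) :) ht)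

end Mi

/-- hypothesis `H` -/
def HypH (M₁ M₂ : Subgroup G) (c : ℕ) : Prop :=
  ∀ q : ℕ → CosetVertex M₁ M₂, Arc c q → ¬ NC (q 0) → Vv (q c) ⊓ 𝐎[St (q 0)] ≤ 𝐂[Vv (q 0)]

/-- `Z_β` has order two -/
def N1 (M₁ M₂ : Subgroup G) : Prop := ∀ β : CosetVertex M₁ M₂, ¬ NC β → Nat.card 𝐙[St β] = 2

namespace Mi

variable {c : ℕ} (h : Mi M₁ M₂ c) {p : ℕ → CosetVertex M₁ M₂}
  {α β β' γ γ' δ ε μ ν : CosetVertex M₁ M₂} {x : G} {N Y : Subgroup G}
include h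

theorem n1_of (hβ : ¬ NC β) (h1 : Nat.card 𝐙[St β] ≤ 2) : N1 M₁ M₂ := fun ε hε => by
  obtain ⟨g, rfl⟩ := (h.same_of_not hβ hε).exists_smul
  have := card_pos' 𝐙[St β]
  have := mt card_eq_one.1 (h.Z_ne_bot β)
  rw [Z_smul, card_cj]
  omega

theorem two_le (hp : Crit c p) (hz : ¬ NC (p (c + 1))) : 2 ≤ c := by
  have := h.c_ne hp
  by_contra h0
  obtain rfl : c = 1 := by omega
  exact hz (h.nc_of (h.mix _ _ (hp.walk 0 (by omega)) (h.nc_first hp)) (hp.walk 1 (by omega)).symm)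

theorem not_hypH (hp : Crit c p) (hz : ¬ NC (p (c + 1))) (hH : ¬ HypH M₁ M₂ c) :
    c ≤ 3 ∧ (c = 2 → N1 M₁ M₂) := by
  have hc := h.two_le hp hz
  simp only [HypH, not_forall] at hH
  obtain ⟨q, hq, hq0, h1⟩ := hH
  obtain ⟨γ, hγ, h2⟩ : ∃ γ, q 0 ~ γ ∧ ¬ Vv (q c) ⊓ 𝐎[St (q 0)] ≤ 𝐎[St γ] := by
    by_contra! h0
    exact h1 (h.le_C_V h0)
  have hα := h.nc_of hq0 hγ.symm
  have hr := hq.cons hγ.symm (show γ ≠ q 1 from by
    rintro rfl; exact h2 (inf_le_left.trans (h.below.V_le hq.walk c 1)))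
  obtain ⟨y, hy, hyO⟩ := SetLike.not_le_iff_exists.1 h2
  have hm : Mov c (pcons γ q) := ⟨y, fun i hi => by
    rcases i with _ | _ | i
    · exact h.edge.O_le' hγ hy.2
    · exact O_le_St _ hy.2
    · exact O_le_St _ ((h.below.V_le hq.walk c (i + 1) :) hy.1), hyO⟩
  have hcr : Crit c (pcons γ q) := ⟨hr.walk, h.all_crit' hp (hr.mono (by omega)) hm
    (iff_of_true hα hz) hr hα⟩
  have hY : Vv (q c) ⊓ 𝐎[St (q 0)] ≤ St γ ⊓ St (q 0) :=
    (inf_le_right.trans (h.edge.O_le hγ)).trans (inf_comm _ _).le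
  obtain ⟨μ, hμ, hne⟩ := h.edge.exists_ne hγ.symm
  refine ⟨?_, ?_⟩
  · by_contra h0
    obtain ⟨d, rfl⟩ : ∃ d, c = d + 2 := ⟨c - 2, by omega⟩
    have e1 : 𝐙[St (q 0)] ≤ Vv (q (d + 2)) := (h.comm_eq hα hγ.symm hY h2).ge.trans
      ((commutator_mono le_rfl inf_le_left).trans (commutator_le_right_of_le_normalizer
        (((h.Z_first_le hcr).trans inf_le_left).trans (St_le_V _))))
    have hr' := hr.cons hμ.symm hne.symm
    obtain ⟨g, hg⟩ := h.all_crit hp (hr.mono (by omega)) hm (iff_of_true hα hz) (d + 1) (by omega)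
      hq (hr'.mono (by omega)) (h.same_of_not hq0 (h.mix _ _ hμ hα))
    have e2 : 𝐙[St μ] ≤ Vv (q d) := by
      have := cj_mono e1 g
      rwa [← Z_smul, ← V_smul, hg 0 (by omega), hg (d + 2) le_rfl] at this
    exact hcr.notle ((h.Z_sup hα hγ.symm hμ hne).ge.trans (sup_le
      (h.below.le hq.walk 0 (d + 2)) (e2.trans (h.below.V_le hq.walk d (d + 2)))))
  · rintro rfl
    have t1 := h.nc_of hq0 (hq.adj 0).symm
    have t2 := h.mix _ _ (hq.adj 1) t1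
    have e1 : 𝐙[St γ] ⊓ 𝐎[St (q 2)] ≤ 𝐙[St (q 0)] := (le_inf inf_le_left
      (le_centralizer_iff_commutator.2 (le_bot_iff.1 (h.Z_inf t1 (hq.adj 0).symm (hq.adj 1)
        (hq.ne 0 le_rfl) ▸ le_inf ((commutator_mono inf_le_left le_rfl).trans
          (h.comm_le hq0 hγ.symm hY)) (by
            rw [commutator_comm]
            exact (commutator_mono inf_le_left le_rfl).trans (h.comm_V t2 inf_le_right)))))).trans
      (h.inf_C_le hq0 hγ.symm hY h2)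
    have e2 := h.edge.card_le (hq.adj 1).symm (h.Z_first_le hcr)
    have e3 := card_le_of_le' e1
    have e4 := h.card_Z hα hγ.symm
    have e5 := card_pos' 𝐙[St (q 0)]
    change Nat.card 𝐙[St γ] ≤ 2 * Nat.card (𝐙[St γ] ⊓ 𝐎[St (q 2)] :) at e2
    exact h.n1_of hq0 (by nlinarith)

/-- the reversed path is critical -/
theorem crit_rev (hH : HypH M₁ M₂ c) (hp : Crit c p) (hz : ¬ NC (p (c + 1)))
    (h1 : p (c + 1) ~ δ) (hne : δ ≠ p c) : ¬ 𝐙[St δ] ≤ 𝐎[St (p 1)] := fun h0 => by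
  have ha := hp.arc h.below
  have := hH _ (ha.shift 1) (h.mix _ _ (ha.adj 0) (h.nc_first hp))
  rw [add_comm 1 c] at this
  exact hp.notle (h.le_O_of_norm (ha.adj c).symm h1 hne.symm (h.Z_first_le hp)
    (le_normalizer_of_le_centralizer (le_centralizer_iff.1 (((le_inf (Z_le_V h1) h0).trans
      this).trans (centralizer_anti (Z_le_V (ha.adj 0).symm))))))

theorem n1_of_hypH (hH : HypH M₁ M₂ c) (hp : Crit c p) (hz : ¬ NC (p (c + 1))) : N1 M₁ M₂ := by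
  have hc := h.two_le hp hz
  have ha := hp.arc h.below
  obtain ⟨δ, h1, hne⟩ := h.edge.exists_ne (ha.adj c).symm
  have hδ := h.nc_of hz h1.symm
  obtain ⟨a, ha1, haO⟩ := SetLike.not_le_iff_exists.1 hp.notle
  obtain ⟨b1, -, b3⟩ := h.edge.smul_ne (ha.adj c).symm h1 hne (h.Z_first_le hp ha1) haO
  have e1 := hH _ (ha.shift 1) (h.mix _ _ (ha.adj 0) (h.nc_first hp))
  rw [add_comm 1 c] at e1
  have e2 : 𝐙[St δ] ⊓ 𝐎[St (p 1)] ≤ 𝐙[St δ] ⊓ 𝐙[St (a • δ)] := fun v hv => mem_inf.2 ⟨hv.1, by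
    have := e1 ⟨Z_le_V h1 hv.1, hv.2⟩ a (Z_le_V (ha.adj 0).symm ha1)
    rw [Z_smul, mem_cj, mul_assoc, ← this, inv_mul_cancel_left]
    exact hv.1⟩
  have k : ∀ γ, p (c + 1) ~ γ → ∀ K ≤ 𝐙[St γ],
      St (p (c + 1)) ⊓ St γ ≤ centMod K 𝐙[St (p (c + 1))] := fun γ hγ K hK => le_centMod_iff.2
    ⟨inf_le_left.trans (St_le_Z _), (commutator_mono hK le_rfl).trans
      (h.comm_le hz hγ.symm (inf_comm _ _).le)⟩
  have e3 : 𝐑[St (p (c + 1))] ≤ 𝐂[𝐙[St δ] ⊓ 𝐙[St (a • δ)]] := le_centralizer_of_stabilizes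
    (pResidualOf_idem 2 _) (isPGroup_of_isElementaryAbelian (h.isEA_Z _))
    (le_centMod_iff.1 ((pResidualOf_le 2 _).trans (h.edge.le_of_le h1 b1 b3
      (k _ h1 _ inf_le_left) (k _ b1 _ inf_le_right)))).2
    ((pResidualOf_le 2 _).trans (h.St_le_C hz))
  have e4 : 𝐂[𝐑[St (p (c + 1))]].relIndex 𝐙[St δ] ≤ 2 := by
    rw [← inf_relIndex_right]
    refine (relIndex_le_of_le_left (le_inf (e2.trans (le_centralizer_iff.1 e3)) inf_le_left)
      (relIndex_ne_zero _)).trans ?_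
    rw [inf_comm, inf_relIndex_right]
    exact h.edge.relIndex_le (ha.adj 1) (((Z_le_V h1).trans (h.below.V_le hp.walk (c + 1) 2)).trans
      ((h.edge.O_le (ha.adj 1).symm).trans (inf_comm _ _).le))
  have e5 : ∀ ε, δ ~ ε → 𝐂[𝐑[St ε]].relIndex 𝐙[St δ] ≤ 2 := fun ε hε => by
    obtain ⟨g, hg, rfl⟩ := exists_smul_eq_of_adj h1.symm hε
    rwa [← cj_eq_of_mem_normalizer (St_le_Z δ hg), St_smul, ← cj_pResidualOf, ← cj_centralizer,
      relIndex_cj]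
  obtain ⟨ε, ε', a1, a2, n1, n2, n3⟩ := h.edge.exists_two h1.symm
  let F : CosetVertex M₁ M₂ → Subgroup G := fun δ => ⨆ γ, ⨆ (_ : δ ~ γ), 𝐑[St γ]
  have hF : St δ ≤ 𝐍[F δ] := le_normalizer_of_smul (iSup_adj_smul _ fun g δ => by
    rw [St_smul, cj_pResidualOf]) δ
  have e6 : 𝐙[St δ] ⊓ 𝐂[F δ] = ⊥ := by
    have n := le_normalizer_inf (St_le_Z δ) (le_normalizer_centralizer hF)
    exact h.edge.eq_bot h1 (inf_le_left.trans ((h.Z_le h1.symm).trans inf_le_right))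
      (inf_le_left.trans (scc_le 2 _)) ((h.edge.half h1).le_normalizer_of_res
        (le_centralizer_iff.1 (inf_le_right.trans (centralizer_anti (le_iSup₂_of_le
          (f := fun γ (_ : δ ~ γ) => 𝐑[St γ]) _ h1.symm le_rfl)))) (inf_le_right.trans n)) n
  have e7 : 𝐂[F δ].relIndex 𝐙[St δ] ≤ 2 * 2 * 2 := by
    refine le_trans (relIndex_le_of_le_left (H := 𝐂[𝐑[St (p (c + 1))]] ⊓ 𝐂[𝐑[St ε]] ⊓ 𝐂[𝐑[St ε']])
      (le_centralizer_iff.1 (iSup₂_le fun γ hγ => le_centralizer_iff.1 ?_)) (relIndex_ne_zero _))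
      (relIndex_inf_le.trans (Nat.mul_le_mul (relIndex_inf_le.trans (Nat.mul_le_mul e4 (e5 ε a1)))
        (e5 ε' a2)))
    rcases h.edge.three h1.symm a1 a2 n1 n2 n3 hγ with rfl | rfl | rfl
    exacts [inf_le_left.trans inf_le_left, inf_le_left.trans inf_le_right, inf_le_right]
  have e8 := card_le_mul_of_relIndex e7
  rw [e6, card_bot, h.card_Z hδ h1.symm] at e8
  exact h.n1_of hz (by nlinarith)

end Mi

end Cfsg.Agent.H9K
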