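import Cfsg.Agent.H9.Amal8
import Cfsg.Agent.H3.PGroup1

/-! Amalgams of type `(S₃, S₃)`, mixed case: critical distance three. -/

set_option autoImplicit false

namespace Cfsg.Agent.H9K

open Subgroup H24
open scoped commutatorElement

variable {G : Type*} [Group G] {M₁ M₂ : Subgroup G} [Finite G]

theorem relIndex_sup_le_mul {C X Y : Subgroup G} (h1 : C ≤ X) (h2 : C ≤ Y) (h3 : X ≤ 𝐍[Y]) {a b : ℕ}
    (ha : C.relIndex X ≤ a) (hb : C.relIndex Y ≤ b) : C.relIndex (X ⊔ Y) ≤ a * b :=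
  (relIndex_sup_le h1 h2 h3).trans (Nat.mul_le_mul ha hb)

theorem le_sup_of_relIndex_le_two {O B Y : Subgroup G} (h : O.relIndex B ≤ 2) (h1 : Y ≤ B)
    (h2 : ¬ Y ≤ O) : B ≤ Y ⊔ O := by
  have a := relIndex_ne_zero (H := B) O
  have b : O.relIndex B ≠ 1 := fun e => h2 (h1.trans (relIndex_eq_one.1 e))
  exact le_sup_of_relIndex_two (by omega) h1 h2

omit [Finite G] in
theorem commutator_le_of_le_sup {V A B C : Subgroup G} (h : A ≤ B ⊔ C) (hC : C ≤ 𝐂[V])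
    (hn : C ≤ 𝐍[⁅V, B⁆]) : ⁅V, A⁆ ≤ ⁅V, B⁆ :=
  (commutator_mono le_rfl h).trans (commutator_sup_centralizer hC hn).le

/-- `V_ε` has order eight -/
def S8 (M₁ M₂ : Subgroup G) : Prop :=
  ∀ γ ε : CosetVertex M₁ M₂, NC γ → γ ~ ε → ⁅Vv ε, St γ ⊓ St ε⁆ ≤ 𝐙[St γ]

namespace Mi

variable {c : ℕ} (h : Mi M₁ M₂ c) {p : ℕ → CosetVertex M₁ M₂}
  {α β β' γ γ' δ ε ε' μ ν : CosetVertex M₁ M₂} {x : G} {N Y : Subgroup G}
include h

theorem s8_of (hγ : NC γ) (h1 : γ ~ ε) (h2 : ⁅Vv ε, St γ ⊓ St ε⁆ ≤ 𝐙[St γ]) : S8 M₁ M₂ :=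
  fun γ' ε' a b => by
    obtain ⟨g, rfl, rfl⟩ := exists_smul_edge h1 b (h.same_of_nc hγ a)
    rwa [V_smul, Z_smul, St_smul, St_smul, ← cj_inf, ← cj_commutator, cj_le_cj_iff]

theorem isEA_V (hc : 2 ≤ c) (β : CosetVertex M₁ M₂) : IsElementaryAbelian 2 (Vv β) := by
  have : Vv β = ⨆ γ : {γ // β ~ γ}, 𝐙[St γ.1] := by rw [Vv, iSup_subtype']
  rw [this]
  exact isEA_iSup (fun γ => (h.isEA_Z γ.1).2) fun γ γ' => ((h.below 2 (by omega) _
    ((walk_one γ'.2).cons γ.2.symm) :).trans (h.O_le_C _))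

theorem V_le_O' (hc : 2 ≤ c) (h1 : γ ~ ε) : Vv ε ≤ 𝐎[St γ] :=
  (h.below.V_le (walk_one h1) 1 0 :)

theorem V_le_T (hc : 2 ≤ c) (h1 : γ ~ ε) (h2 : γ ~ ε') : Vv ε ≤ St γ ⊓ St ε' :=
  (h.V_le_O' hc h1).trans (h.edge.O_le h2)

theorem not_comm (h1 : ε ~ γ) (hx : x ∈ St ε ⊓ St γ) (hxO : x ∉ 𝐎[St ε]) : x ∉ 𝐂[Vv ε] :=
  fun h0 => by
    obtain ⟨γ', h2, hne⟩ := h.edge.exists_ne h1
    exact hxO (zpowers_le.1 (h.le_O_of_norm h1 h2 hne (zpowers_le.2 hx) (zpowers_le.2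
      (centralizer_le_normalizer' _ (centralizer_anti (Z_le_V h2) h0)))))

theorem card_comm_le (hc : 2 ≤ c) (h1 : δ ~ ε) (h2 : Vv β ≤ St δ ⊓ St ε) (h3 : β ~ γ)
    (h4 : Vv δ ≤ St β ⊓ St γ) (h5 : Vv β ⊓ 𝐎[St δ] ≤ 𝐂[Vv δ]) (h6 : Vv δ ⊓ 𝐎[St β] ≤ 𝐂[Vv β]) :
    Nat.card (⁅Vv β, Vv δ⁆ :) ≤ 2 := by
  by_cases h0 : Vv δ ≤ 𝐎[St β]
  · rw [le_centralizer_iff_commutator'.1 ((le_inf le_rfl h0).trans h6), card_bot]; omega
  obtain ⟨v, hv, hvO⟩ := SetLike.not_le_iff_exists.1 h0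
  have hn := St_le_V β (h4 hv).1
  have e1 := card_le_of_le' (commutator_le_of_le_sup (le_sup_inf_of_relIndex_two
    (h.edge.half h3).idx2 h4 (zpowers_le.2 hv) fun h7 => hvO (zpowers_le.1 h7)) h6
    (le_normalizer_of_le_centralizer (h6.trans (centralizer_anti
      (commutator_le_left_of_le_normalizer (zpowers_le.2 hn))))))
  have e2 := H9.card_commutator_mul_card_centralizer (h.isEA_V hc β) hn
  have e3 := h.edge.card_le h1 h2
  have e4 := card_le_of_le' (le_inf inf_le_left (h5.trans (centralizer_anti (zpowers_le.2 hv))))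
  have e5 := card_pos' (Vv β ⊓ 𝐂[zpowers v])
  nlinarith

variable (hN : N1 M₁ M₂)
include hN

theorem card_Z4 (hα : NC α) : Nat.card 𝐙[St α] = 4 := by
  obtain ⟨β, h1⟩ := exists_adj α
  rw [h.card_Z hα h1, hN β (h.mix _ _ h1 hα)]

theorem relIndex_Z (hα : NC α) (h1 : α ~ β) : 𝐙[St β].relIndex 𝐙[St α] = 2 := by
  have := card_mul_relIndex (h.Z_le_Z (h.mix _ _ h1 hα) h1)
  rw [h.card_Z4 hN hα, hN β (h.mix _ _ h1 hα)] at this
  omega

theorem inf_le_Z (hα : NC α) (h1 : α ~ β) (h2 : 𝐙[St β] ≤ Y) (h3 : ¬ 𝐙[St α] ≤ Y) :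
    𝐙[St α] ⊓ Y ≤ 𝐙[St β] := by
  by_contra h0
  exact h3 ((le_sup_of_relIndex_two (h.relIndex_Z hN hα h1) inf_le_left h0).trans
    (sup_le inf_le_right h2))

theorem Z_inf_Z (hβ : ¬ NC β) (h1 : β ~ γ) (h2 : β ~ γ') (hne : γ ≠ γ') :
    𝐙[St γ] ⊓ 𝐙[St γ'] ≤ 𝐙[St β] := by
  refine h.inf_le_Z hN (h.nc_of hβ h1.symm) h1.symm (h.Z_le_Z hβ h2.symm) fun h0 => ?_
  have e := eq_of_le_of_card_le h0 (by
    rw [h.card_Z4 hN (h.nc_of hβ h1.symm), h.card_Z4 hN (h.nc_of hβ h2.symm)])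
  exact (h.edge.half h1).not_le (h.le_O_of_norm h1 h2 hne le_rfl
    (inf_le_right.trans (e ▸ St_le_Z γ)))

theorem le_Z_of_center (hα : NC α) (h1 : IsElementaryAbelian 2 Y) (h2 : Y ≤ 𝐎[St α])
    (h3 : Y ≤ 𝐂[𝐎[St α]]) : Y ≤ 𝐙[St α] := by
  obtain ⟨β, h4⟩ := exists_adj α
  have hβ := h.mix _ _ h4 hα
  obtain ⟨t, ht, htO⟩ := SetLike.not_le_iff_exists.1 (h.edge.half h4).not_le
  have e1 := card_le_sq_of_invol (isEA_omegaOneCenter 2 𝐎[St α])
    (le_normalizer_omegaOneCenter (St_le_O α) ht.1) (le_centralizer_omegaOneCenter 2 _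
      (sq_mem_of_relIndex_two (h.edge.half h4).idx2 ht))
  have e2 := card_le_of_le' (h.le_Z (Y := 𝛀[𝐎[St α]] ⊓ 𝐂[zpowers t]) hβ h4
    (H9.isEA_of_le (isEA_omegaOneCenter 2 _) inf_le_left)
    (inf_le_left.trans ((omegaOneCenter_le 2 _).trans (h.edge.O_le h4)))
    ((le_centralizer_sup inf_le_right (inf_le_left.trans (omegaOneCenter_le_centralizer 2 _))).trans
      (centralizer_anti ((h.edge.half h4).le_sup (zpowers_le.2 ht)
        fun h0 => htO (zpowers_le.1 h0)))))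
  rw [hN β hβ] at e2
  exact (le_omegaOneCenter h1 h2 h3).trans (eq_of_le_of_card_le (h.char α).scc_le (by
    rw [h.card_Z4 hN hα]; nlinarith)).ge

omit hN in
theorem V_le_sup (h8 : S8 M₁ M₂) (hε : ¬ NC ε) (h1 : ε ~ γ) (h2 : ε ~ γ') (hne : γ ≠ γ') :
    Vv ε ≤ 𝐙[St γ] ⊔ 𝐙[St γ'] := V_le fun δ hδ => by
  obtain ⟨t, ht, htO⟩ := SetLike.not_le_iff_exists.1 (h.edge.half h1).not_le
  obtain ⟨b1, b2, b3⟩ := h.edge.smul_ne h1 h2 hne ht htO
  rcases h.edge.three h1 h2 b1 hne b2 b3 hδ with rfl | rfl | rfl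
  · exact le_sup_left
  · exact le_sup_right
  · rw [Z_smul, sup_comm]
    refine (cj_le_ncl (mem_zpowers t)).trans ?_
    rw [ncl_eq_sup_commutator]
    exact sup_le_sup_left ((commutator_mono (Z_le_V h2) (zpowers_le.2 (mem_inf.2 ⟨ht.2, ht.1⟩))).trans
      (h8 γ ε (h.nc_of hε h1.symm) h1.symm)) _

theorem relIndex_V (hc : 1 ≤ c) (h8 : S8 M₁ M₂) (hε : ¬ NC ε) (h1 : ε ~ γ) :
    𝐙[St γ].relIndex (Vv ε) ≤ 2 := by
  obtain ⟨γ', h2, hne⟩ := h.edge.exists_ne h1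
  refine (relIndex_le_of_le_right (h.V_le_sup h8 hε h1 h2 hne) (relIndex_ne_zero _)).trans ?_
  rw [sup_comm, relIndex_sup_of_le_normalizer (((h.Z_le_O_adj hc h2.symm).trans
    (h.edge.O_le' h1)).trans (St_le_Z γ))]
  exact (relIndex_le_of_le_left (h.Z_le_Z hε h1.symm) (relIndex_ne_zero (H := 𝐙[St γ']) _)).trans
    (h.relIndex_Z hN (h.nc_of hε h2.symm) h2.symm).le

theorem V_le_zp (hc : 1 ≤ c) (h8 : S8 M₁ M₂) (hε : ¬ NC ε) (h1 : ε ~ γ) (hx : x ∈ Vv ε)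
    (hx' : x ∉ 𝐙[St γ]) : Vv ε ≤ zpowers x ⊔ 𝐙[St γ] :=
  le_sup_of_relIndex_le_two (h.relIndex_V hN hc h8 hε h1) (zpowers_le.2 hx)
    fun h0 => hx' (zpowers_le.1 h0)

end Mi

theorem Mi.three (h : Mi M₁ M₂ 2) (hN : N1 M₁ M₂) {p : ℕ → CosetVertex M₁ M₂} (hp : Crit 2 p) :
    Nat.card (M₁ ⊓ M₂ :) ≤ 128 := by
  have ha := hp.arc h.below
  have t1 := h.mix _ _ (ha.adj 0) (h.nc_first hp)
  have hγ := h.nc_of t1 (ha.adj 1).symm
  have k1 : ∀ γ ε ε' : CosetVertex M₁ M₂, NC γ → γ ~ ε → γ ~ ε' → ε ≠ ε' → ¬ Vv ε ≤ 𝐎[St ε'] :=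
    fun γ ε ε' h1 h2 h3 hne h0 => by
      obtain ⟨g, rfl, rfl, rfl⟩ := h.edge.two_trans (ha.adj 1).symm (ha.adj 2) (ha.ne 1 le_rfl) h2
        h3 hne (h.same_of_nc hγ h1)
      exact not_le_smul hp.notle g ((Z_le_V (adj_smul (ha.adj 0).symm g)).trans h0)
  have k2 : ∀ {γ ε ε' : CosetVertex M₁ M₂}, γ ~ ε → γ ~ ε' → Vv ε ≤ St ε' ⊓ St γ :=
    fun h1 h2 => (h.V_le_T le_rfl h1 h2).trans (inf_comm _ _).le
  set γ := p 2
  set β := p 1
  have h1 : γ ~ β := (ha.adj 1).symm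
  obtain ⟨β₁, β₂, a1, a2, n1, n2, n3⟩ := h.edge.exists_two h1
  have hQ := isPGroup_pCoreOf 2 (St γ)
  have h8 : S8 M₁ M₂ := by
    have k : ∀ ε ε', γ ~ ε → γ ~ ε' → ε ≠ ε' → St γ ⊓ St ε ≤ 𝐍[⁅Vv ε, Vv ε'⁆ ⊔ 𝐙[St γ]] ∧
        ⁅Vv ε, St γ ⊓ St ε⁆ ≤ ⁅Vv ε, Vv ε'⁆ ⊔ 𝐙[St γ] ∧
        ⁅⁅Vv ε, Vv ε'⁆ ⊔ 𝐙[St γ], 𝐎[St γ]⁆ ≤ 𝐙[St ε] := fun ε ε' b1 b2 hne => by
      have hε := h.mix _ _ b1 hγ
      have c1 := (h.edge.half b1.symm).le_sup (k2 b2 b1) (k1 γ ε' ε hγ b2 b1 hne.symm)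
      have c2 : ⁅Vv ε, Vv ε'⁆ ≤ Vv ε :=
        commutator_le_left_of_le_normalizer (((k2 b2 b1).trans inf_le_left).trans (St_le_V ε))
      have c3 : ⁅Vv ε, Vv ε'⁆ ≤ Vv ε' :=
        commutator_le_right_of_le_normalizer (((k2 b1 b2).trans inf_le_left).trans (St_le_V ε'))
      have c4 : ⁅Vv ε, Vv ε'⁆ ⊔ 𝐙[St γ] ≤ Vv ε := sup_le c2 (Z_le_V b1.symm)
      have c5 : ⁅Vv ε, St γ ⊓ St ε⁆ ≤ ⁅Vv ε, Vv ε'⁆ ⊔ 𝐙[St γ] := by
        rw [inf_comm]
        refine (commutator_mono le_rfl c1).trans (commutator_sup_right_le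
          (le_normalizer_sup (right_le_normalizer_commutator _ _)
            (((h.V_le_O' le_rfl b2).trans (O_le_St γ)).trans (St_le_Z γ)))
          (le_normalizer_of_commutator_le c4 ?_) le_sup_left ?_) <;>
        exact ((h.comm_V hε le_rfl).trans (h.Z_le_Z hε b1)).trans le_sup_right
      refine ⟨le_normalizer_of_commutator_le c4 c5, c5, (commutator_mono le_rfl
        (((h.edge.O_le b1).trans (inf_comm _ _).le).trans c1)).trans (commutator_sup_right_le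
          (((k2 b2 b1).trans inf_le_left).trans (St_le_Z ε)) ((O_le_St ε).trans (St_le_Z ε)) ?_
          ((commutator_mono c4 le_rfl).trans (h.comm_V hε le_rfl)))⟩
      rw [le_centralizer_iff_commutator.1 ((sup_le c3 (Z_le_V b2.symm)).trans
        (isEA_iff.1 (h.isEA_V le_rfl ε')).1)]
      exact bot_le
    obtain ⟨-, b2, b3⟩ := k β β₁ h1 a1 n1
    obtain ⟨-, -, b4⟩ := k β₁ β a1 h1 n1.symm
    rw [commutator_comm (Vv β₁)] at b4
    have c4 : ⁅Vv β, Vv β₁⁆ ⊔ 𝐙[St γ] ≤ Vv β := sup_le (commutator_le_left_of_le_normalizer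
      (((k2 a1 h1).trans inf_le_left).trans (St_le_V β))) (Z_le_V h1.symm)
    exact h.s8_of hγ h1 (b2.trans (h.le_Z_of_center hN hγ (H9.isEA_of_le (h.isEA_V le_rfl β) c4)
      (c4.trans (h.V_le_O' le_rfl h1)) (le_centralizer_iff_commutator.2
        (le_bot_iff.1 (h.Z_inf hγ h1 a1 n1 ▸ le_inf b3 b4)))))
  have kW : ∀ {γ : CosetVertex M₁ M₂}, Ww γ ≤ 𝐎[St γ] := fun {γ} => W_le fun _ b => h.V_le_O' le_rfl b
  have kZ : ∀ {γ : CosetVertex M₁ M₂}, 𝐙[St γ] ≤ Ww γ := fun {γ} => by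
    obtain ⟨ε, b⟩ := exists_adj γ
    exact (Z_le_V b.symm).trans (V_le_W b)
  have k3 : ∀ {γ : CosetVertex M₁ M₂}, NC γ → ⁅Ww γ, 𝐎[St γ]⁆ ≤ 𝐙[St γ] := fun {γ} b =>
    commutator_iSup_left_le (fun _ => iSup_le fun b1 => ((h.V_le_O' le_rfl b1).trans
      (O_le_St γ)).trans (St_le_Z γ)) fun ε => commutator_iSup_left_le (fun b1 =>
        ((h.V_le_O' le_rfl b1).trans (O_le_St γ)).trans (St_le_Z γ)) fun b1 =>
          (commutator_mono le_rfl (h.edge.O_le b1)).trans (h8 γ ε b b1)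
  -- `W_γ ∩ Q_β` does not centralize `V_β`
  have k4 : ¬ Ww γ ⊓ 𝐎[St β] ≤ 𝐂[Vv β] := fun h0 => by
    have k : ∀ ε, γ ~ ε → Ww γ ⊓ 𝐎[St ε] ≤ 𝐂[Vv ε] := fun ε b => by
      obtain ⟨g, hg, rfl⟩ := exists_smul_eq_of_adj h1 b
      rwa [← cj_eq_of_mem_normalizer (St_le_W γ hg), O_smul, V_smul, ← cj_inf, ← cj_centralizer,
        cj_le_cj_iff]
    have k' : ∀ ε ε', γ ~ ε → γ ~ ε' → ε ≠ ε' → St γ ⊓ St ε ≤ 𝐍[⁅Vv ε, Vv ε'⁆] :=
      fun ε ε' b1 b2 hne => by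
        rw [le_antisymm (commutator_mono le_rfl (V_le_W b2)) (commutator_le_of_le_sup
          (le_sup_inf_of_relIndex_two (h.edge.half b1.symm).idx2 ((kW.trans (h.edge.O_le b1)).trans
            (inf_comm _ _).le) (V_le_W b2) (k1 γ ε' ε hγ b2 b1 hne.symm)) (k ε b1)
          (le_normalizer_of_le_centralizer ((k ε b1).trans (centralizer_anti
            (commutator_le_left_of_le_normalizer (((k2 b2 b1).trans inf_le_left).trans
              (St_le_V ε)))))))]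
        exact le_normalizer_commutator (inf_le_right.trans (St_le_V ε))
          (inf_le_left.trans (St_le_W γ))
    have e1 := h.card_comm_le le_rfl a1.symm (k2 h1 a1) h1.symm (k2 a1 h1)
      ((inf_le_inf_right _ (V_le_W h1)).trans (k _ a1)) ((inf_le_inf_right _ (V_le_W a1)).trans h0)
    have e2 := h.edge.le_of_le h1 a1 n1 (k' _ _ h1 a1 n1) (commutator_comm (Vv β₁) _ ▸
      k' _ _ a1 h1 n1.symm)
    obtain ⟨t, ht, htO⟩ := SetLike.not_le_iff_exists.1 (h.edge.half h1).not_le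
    have e3 := h.eq_bot_of hγ (commutator_le_of_le (h.V_le_O' le_rfl h1) (h.V_le_O' le_rfl a1)) e2
      ht.1 htO (le_centralizer_of_card_le_two e1 e2 ht.1)
    obtain ⟨v, hv, hvO⟩ := SetLike.not_le_iff_exists.1 (k1 γ β₁ β hγ a1 h1 n1.symm)
    exact h.not_comm h1.symm (k2 a1 h1 hv) hvO (le_centralizer_iff_commutator'.2 e3 hv)
  have k5 : ∀ γ' γ'', β ~ γ' → β ~ γ'' → γ' ≠ γ'' → ¬ Ww γ' ⊓ 𝐎[St β] ≤ 𝐎[St γ''] :=
    fun γ' γ'' b1 b2 hne h0 => k4 (h.le_C_V fun δ b3 => by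
      by_cases e : γ = δ
      · exact e ▸ inf_le_left.trans kW
      obtain ⟨g, e1, e2, rfl⟩ := h.edge.two_trans b1 b2 hne h1.symm b3 e rfl
      rwa [← e1, ← e2, W_smul, O_smul, O_smul, ← cj_inf, cj_le_cj_iff])
  obtain ⟨γ', b1, hne⟩ := h.edge.exists_ne h1.symm
  have hγ' := h.nc_of t1 b1.symm
  obtain ⟨j, hj, hjO⟩ := SetLike.not_le_iff_exists.1 (k5 γ' γ b1 h1.symm hne.symm)
  have hjγ : j ∈ St γ := h.edge.O_le' h1.symm hj.2
  have e1 : 𝐑[St γ] ≤ centMod 𝐎[St γ] (Ww γ) := by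
    refine (h.edge.half h1).res_le (le_normalizer_centMod (St_le_O γ) (St_le_W γ)) hjγ
      (zpowers_le.1 (le_centMod_iff.2 ⟨zpowers_le.2 (St_le_W γ hjγ), ?_⟩)) hjO
    have c1 : 𝐎[St γ] ≤ Ww γ ⊔ (𝐎[St β] ⊓ 𝐎[St γ'] ⊓ 𝐎[St γ]) := by
      refine (le_sup_inf_of_relIndex_two (h.edge.half h1.symm).idx2 ((h.edge.O_le h1).trans
        (inf_comm _ _).le) (h.V_le_O' le_rfl a1) (k1 γ β₁ β hγ a1 h1 n1.symm)).trans
        (sup_le ((V_le_W a1).trans le_sup_left) ?_)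
      refine (le_sup_inf_of_relIndex_two (h.edge.half b1.symm).idx2 ((inf_le_right.trans
        (h.edge.O_le b1)).trans (inf_comm _ _).le) (inf_le_inf_right _ kW)
        (k5 γ γ' h1.symm b1 hne)).trans (sup_le_sup inf_le_left ?_)
      exact le_inf (inf_le_inf_right _ inf_le_right) (inf_le_left.trans inf_le_left)
    refine (commutator_mono c1 le_rfl).trans (commutator_sup_left_le le_normalizer
      ((inf_le_right.trans (O_le_St γ)).trans (St_le_W γ))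
      (commutator_le_left_of_le_normalizer (zpowers_le.2 (St_le_W γ hjγ))) ?_)
    rw [commutator_comm]
    exact ((commutator_mono (zpowers_le.2 hj.1) (inf_le_left.trans inf_le_right)).trans
      (k3 hγ')).trans ((Z_le_V b1).trans (V_le_W h1))
  obtain ⟨d, hd, hdo, hdO, -⟩ := (h.edge.half h1).exists_three
  have hdγ : zpowers d ≤ St γ := zpowers_le.2 (pResidualOf_le 2 _ hd)
  have hcop : (Nat.card (zpowers d)).Coprime 2 := by rw [Nat.card_zpowers, hdo]; norm_num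
  have hres := pResidualOf_eq_self_of_coprime hcop
  have sp : ∀ {N V : Subgroup G}, zpowers d ≤ 𝐍[N] → N ≤ V → IsPGroup 2 N → ⁅V, zpowers d⁆ ≤ N →
      V ≤ N ⊔ (V ⊓ 𝐂[zpowers d]) := fun c1 c2 c3 c4 => le_sup_inf_centralizer c1 c2
    (coprime_card_of_isPGroup c3 hcop) (Or.inr (isSolvable_of_isPGroup c3)) c4
  have e2 := sp (hdγ.trans (St_le_W γ)) kW (hQ.to_le kW) ((commutator_mono le_rfl
    (zpowers_le.2 hd)).trans (le_centMod_iff.1 e1).2)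
  set P := 𝐎[St γ] ⊓ 𝐂[zpowers d] with hP
  set K := 𝐎[St γ] ⊓ 𝐂[Ww γ] with hK
  have hKn : St γ ≤ 𝐍[K] := le_normalizer_inf (St_le_O γ) (le_normalizer_centralizer (St_le_W γ))
  have hZK : 𝐙[St γ] ≤ K := le_inf (kZ.trans kW) (le_centralizer_iff.1 (kW.trans (h.O_le_C γ)))
  have i1 : ∀ ε, γ ~ ε → 𝐙[St γ].relIndex (Vv ε) ≤ 2 := fun ε b =>
    h.relIndex_V hN (by omega) h8 (h.mix _ _ b hγ) b.symm
  have i2 : 𝐙[St γ].relIndex (Ww γ) ≤ 2 * (2 * 2) := by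
    have nn : ∀ ε ε', γ ~ ε → γ ~ ε' → Vv ε ≤ 𝐍[Vv ε'] := fun ε ε' c1 c2 =>
      ((k2 c1 c2).trans inf_le_left).trans (St_le_V ε')
    refine (relIndex_le_of_le_right (W_le fun δ c => ?_) (relIndex_ne_zero _)).trans
      (relIndex_sup_le_mul (Z_le_V h1.symm) ((Z_le_V a1.symm).trans le_sup_left)
        (le_normalizer_sup (nn _ _ h1 a1) (nn _ _ h1 a2)) (i1 β h1)
        (relIndex_sup_le_mul (Z_le_V a1.symm) (Z_le_V a2.symm) (nn _ _ a1 a2) (i1 _ a1) (i1 _ a2)))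
    rcases h.edge.three h1 a1 a2 n1 n2 n3 c with rfl | rfl | rfl
    exacts [le_sup_left, le_sup_left.trans le_sup_right, le_sup_right.trans le_sup_right]
  have i3 : 𝐙[St γ].relIndex (K ⊓ Ww γ) ≤ 2 := by
    have c0 : ∀ ε, γ ~ ε → K ≤ 𝐎[St ε] := fun ε b x hx => by
      by_contra h0
      exact h.not_comm b.symm ⟨(h.edge.O_le b hx.1).2, (h.edge.O_le b hx.1).1⟩ h0
        (centralizer_anti (V_le_W b) hx.2)
    have c1 := relIndex_eq_two_of_not_le (h.edge.half h1.symm).idx2 ((kW.trans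
      (h.edge.O_le h1)).trans (inf_comm _ _).le) fun h0 => k1 γ β₁ β hγ a1 h1 n1.symm
        ((V_le_W a1).trans h0)
    have c2 := relIndex_eq_two_of_not_le (Y := 𝐎[St β] ⊓ Ww γ) (h.edge.half a1.symm).idx2
      (((inf_le_right.trans kW).trans (h.edge.O_le a1)).trans (inf_comm _ _).le)
      fun h0 => k1 γ β β₁ hγ h1 a1 n1 ((le_inf (h.V_le_O (by omega) β) (V_le_W h1)).trans h0)
    have c3 := card_inf_mul_relIndex 𝐎[St β] (Ww γ)
    have c4 := card_inf_mul_relIndex 𝐎[St β₁] (𝐎[St β] ⊓ Ww γ)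
    have c5 := card_le_of_le' (le_inf (inf_le_left.trans (c0 β₁ a1))
      (inf_le_inf_right _ (c0 β h1)) : K ⊓ Ww γ ≤ 𝐎[St β₁] ⊓ (𝐎[St β] ⊓ Ww γ))
    have c6 := card_mul_relIndex (kZ (γ := γ))
    have c7 := card_mul_relIndex (le_inf hZK kZ)
    rw [h.card_Z4 hN hγ] at c6 c7
    rw [c1] at c3
    rw [c2] at c4
    omega
  have e3 : K ≤ 𝐙[St γ] ⊔ (K ⊓ 𝐂[zpowers d]) := by
    refine sp (hdγ.trans (St_le_Z γ)) hZK (hQ.to_le (kZ.trans kW)) ?_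
    rw [← commutator_commutator_eq' hres (hQ.to_le inf_le_left) (hdγ.trans hKn)]
    refine (commutator_mono (le_inf (commutator_le_left_of_le_normalizer (hdγ.trans hKn))
      ((commutator_mono inf_le_left (zpowers_le.2 hd)).trans (le_centMod_iff.1 e1).2))
      le_rfl).trans (commutator_le_of_relIndex_le_two i3
        (hdγ.trans (le_normalizer_inf hKn (St_le_W γ))) (hdγ.trans (St_le_Z γ)))
  have bot : ∀ N ≤ K ⊓ 𝐂[zpowers d], St γ ≤ 𝐍[N] → N = ⊥ := fun N c1 c2 =>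
    h.eq_bot_of hγ (c1.trans (inf_le_left.trans inf_le_left)) c2 (hdγ (mem_zpowers d)) hdO
      (zpowers_le.1 (le_centralizer_iff.1 (c1.trans inf_le_right)))
  have e4 : K ≤ 𝐙[St γ] := by
    have c0 : K ⊓ 𝐂[zpowers d] ≤ 𝐂[𝐙[St γ]] := (inf_le_left.trans inf_le_left).trans (h.O_le_C γ)
    refine h.le_Z_of_center hN hγ (isEA_of_sqs (bot _ ?_ (le_normalizer_sqs hKn))) inf_le_left
      (le_centralizer_iff_commutator.2 (bot _ ?_ (le_normalizer_commutator hKn (St_le_O γ))))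
    · rw [sqs_eq_of_le_sup inf_le_left e3 (h.isEA_Z γ) c0]; exact sqs_le _
    · have c1 : P ≤ 𝐍[K ⊓ 𝐂[zpowers d]] := le_normalizer_inf
        ((inf_le_left.trans (O_le_St γ)).trans hKn) (le_normalizer_of_le inf_le_right)
      refine (commutator_mono le_rfl e2).trans (commutator_sup_right_le
        (le_normalizer_of_le_centralizer (le_centralizer_iff.1 (inf_le_left.trans inf_le_right)))
        c1 (by rw [le_centralizer_iff_commutator.1 inf_le_right]; exact bot_le) ?_)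
      refine (commutator_mono e3 le_rfl).trans (commutator_sup_left_le
        (le_normalizer_of_le_centralizer (le_centralizer_iff.1 c0)) le_normalizer ?_
        (commutator_le_left_of_le_normalizer c1))
      rw [le_centralizer_iff_commutator'.1 (inf_le_left.trans (h.O_le_C γ))]
      exact bot_le
  have hdβ : d ∉ St β := fun h0 => hdO (by
    have : d ∈ (St γ ⊓ St β) ⊓ zpowers d := ⟨⟨hdγ (mem_zpowers d), h0⟩, mem_zpowers d⟩
    rw [inf_eq_bot_of_isPGroup_of_coprime (h.pT h1) hcop, mem_bot] at this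
    exact this ▸ one_mem _)
  have e5 : Nat.card P ≤ 4 := by
    obtain ⟨x, hx, hxZ⟩ := SetLike.not_le_iff_exists.1 fun h0 : Vv β ≤ 𝐙[St γ] =>
      k1 γ β β₁ hγ h1 a1 n1 (h0.trans (h.Z_le_O_adj (by omega) a1))
    have c1 := H3.relIndex_centralizer_le (H := P) (N := 𝐙[St γ]) (x := x) fun g hg => by
      rw [← commutatorElement_inv]
      exact inv_mem (k3 hγ (commutator_mem_commutator (V_le_W h1 hx) hg.1))
    have c2 := card_le_mul_of_relIndex c1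
    have c3 : P ⊓ centralizer {x} ≤ 𝐂[Vv β] := (le_centralizer_sup (inf_le_right.trans
      (centralizer_zpowers x).ge) ((inf_le_left.trans inf_le_left).trans (h.O_le_C γ))).trans
      (centralizer_anti (h.V_le_zp hN (by omega) h8 t1 h1.symm hx hxZ))
    have c4 : ∀ n : ℕ, P ⊓ centralizer {x} ≤ 𝐂[Vv (d ^ n • β)] := fun n y hy => by
      rw [V_smul, ← cj_centralizer, mem_cj, mul_assoc, ← hy.1.2 _ (pow_mem (mem_zpowers d) n),
        inv_mul_cancel_left]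
      exact c3 hy
    have c5 : P ⊓ centralizer {x} ≤ 𝐂[Ww γ] := le_centralizer_iff.1 (W_le fun δ b => by
      have d1 : ∀ n : ℕ, γ ~ d ^ n • β := fun n => adj_smul_of_mem h1 (pow_mem (hdγ (mem_zpowers d)) n)
      have d2 : β ≠ d ^ 1 • β := fun e => hdβ (by rw [pow_one] at e; exact e.symm)
      have d3 : β ≠ d ^ 2 • β := fun e => hdβ (mem_of_sq_mem (by rw [hdo]; decide)
        (by rw [← pow_two]; exact e.symm))
      have d4 : d ^ 1 • β ≠ d ^ 2 • β := fun e => d2 (by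
        rw [pow_one, pow_two, mul_smul] at e
        rw [pow_one]; exact smul_left_cancel d e)
      rcases h.edge.three h1 (d1 1) (d1 2) d2 d3 d4 b with rfl | rfl | rfl
      exacts [le_centralizer_iff.1 c3, le_centralizer_iff.1 (c4 1), le_centralizer_iff.1 (c4 2)])
    have c6 : P ⊓ centralizer {x} ≤ ⊥ := by
      refine (le_inf ((le_inf (inf_le_left.trans inf_le_left) c5).trans e4)
        (inf_le_left.trans inf_le_right)).trans ?_
      have d2 : 𝐎[St γ] ≤ 𝐂[𝐙[St γ] ⊓ 𝐂[zpowers d]] := (h.O_le_C γ).trans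
        (centralizer_anti inf_le_left)
      refine (h.inf_res hγ).le.trans' (le_inf (inf_le_left.trans (kZ.trans kW))
        (le_centralizer_iff.1 ((le_sup_of_index_three (le_normalizer_pCoreOf 2 _)
          (h.edge.half h1).idx_res.2 hd fun h0 => hdO ((h.edge.half h1).idx_res.1.le h0).1).trans
          (sup_le (((h.edge.half h1).idx_res.1.le.trans inf_le_left).trans d2)
            (le_centralizer_iff.1 inf_le_right)))))
    rwa [le_bot_iff.1 c6, card_bot, h.card_Z4 hN hγ] at c2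
  have e6 := card_sup_mul_card_inf (A := P) (B := Ww γ) ((inf_le_left.trans (O_le_St γ)).trans
    (St_le_W γ))
  rw [sup_comm, ← le_antisymm e2 (sup_le kW inf_le_left)] at e6
  have e7 := card_mul_relIndex (kZ (γ := γ))
  rw [h.card_Z4 hN hγ] at e7
  rw [h.edge.card_T γ]
  have e8 := card_pos' (P ⊓ Ww γ)
  by_cases h0 : Nat.card (P ⊓ Ww γ :) = 1
  · haveI : Fact (Nat.Prime 3) := ⟨Nat.prime_three⟩
    have c1 := H2.card_modEq_card_inf_centralizer (q := 3) (IsPGroup.of_card (n := 1)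
      (by rw [Nat.card_zpowers, hdo]; rfl)) (hdγ.trans (St_le_W γ))
    have c2 := card_le_of_le' (le_inf (inf_le_inf_right _ kW) inf_le_left :
      Ww γ ⊓ 𝐂[zpowers d] ≤ P ⊓ Ww γ)
    have c3 := card_pos' (Ww γ ⊓ 𝐂[zpowers d])
    obtain ⟨n, hn⟩ := exists_card_eq_pow (hQ.to_le (kW (γ := γ)))
    have c4 : Nat.card (Ww γ) ≤ 16 := by
      rw [show Nat.card (Ww γ ⊓ 𝐂[zpowers d] :) = 1 by omega, Nat.ModEq] at c1
      have : Nat.card (Ww γ) ≤ 32 := by omega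
      rcases n with _ | _ | _ | _ | _ | _ | n <;> simp only [hn, pow_succ] at * <;> omega
    nlinarith
  · have : Nat.card (Ww γ) ≤ 32 := by omega
    have : 2 ≤ Nat.card (P ⊓ Ww γ :) := by omega
    nlinarith

end Cfsg.Agent.H9K
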