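import Cfsg.Agent.H9.JC9
import Cfsg.Agent.H24.Misc1

/-! The two maximal `2`-local subgroups inside `O²(G)`. -/

set_option autoImplicit false

namespace Cfsg.Agent.H9K

open Subgroup H24
open H9 (maxEA mem_maxEA)
open scoped commutatorElement

variable {G : Type*} [Group G]

theorem relIndex_eq_two_of {T A : Subgroup G} {a : G} (ha : a ∈ A) (haT : a ∉ T)
    (h : ∀ y ∈ A, y ∉ T → a⁻¹ * y ∈ T) : T.relIndex A = 2 := by
  refine index_eq_two_iff'.2 ⟨⟨a, ha⟩⁻¹, fun b => ?_⟩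
  by_cases hb : (b : G) ∈ T
  · exact Or.inr ⟨hb, fun h0 => haT (inv_mem_iff.1 ((mul_mem_cancel_right hb).1 h0))⟩
  · exact Or.inl ⟨h b b.2 hb, hb⟩

theorem mem_or_of_mem_sup_zpowers {D : Subgroup G} {s y : G} (hs : s ∈ 𝐍[D]) (h2 : s * s ∈ D)
    (hy : y ∈ D ⊔ zpowers s) : y ∈ D ∨ y * s⁻¹ ∈ D := by
  obtain ⟨d, hd, _, ⟨k, rfl⟩, rfl⟩ := (mem_sup_of_le_normalizer_left (zpowers_le.2 hs)).1 hy
  have h3 : ∀ j : ℤ, s ^ (2 * j) ∈ D := fun j => by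
    rw [zpow_mul, zpow_two]; exact zpow_mem h2 j
  rcases Int.even_or_odd' k with ⟨j, rfl | rfl⟩
  · exact Or.inl (mul_mem hd (h3 j))
  · refine Or.inr ?_
    simp only [zpow_add, zpow_one, mul_assoc, mul_inv_cancel, mul_one]
    exact mul_mem hd (h3 j)

variable [Finite G]

namespace PE

variable {T K L K₂ L₂ A S : Subgroup G} (h : PE T K L) (h₂ : PE T K₂ L₂) (hne : L₂ ≠ L)
include h

theorem compl {a : G} (ha : a ∈ T) (ha2 : a * a = 1) (hac : a ∉ 𝐂[wOf K]) :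
    K ⊔ zpowers a ⊔ (𝐎[L] ⊓ 𝐂[K]) = L ∧ (K ⊔ zpowers a) ⊓ (𝐎[L] ⊓ 𝐂[K]) = ⊥ ∧
    Nonempty ((K ⊔ zpowers a :) ≃* Equiv.Perm (Fin 4)) := by
  have haT : zpowers a ≤ T := zpowers_le.2 ha
  have hP : K ⊔ zpowers a ≤ L := (sup_le_sup_left haT K).trans h.sup_le
  have h1 : K ⊔ zpowers a ⊔ (𝐎[L] ⊓ 𝐂[K]) = L := by
    refine le_antisymm (_root_.sup_le hP (inf_le_left.trans (pCoreOf_le 2 L)))
      (h.eq_sup.ge.trans (_root_.sup_le (le_sup_left.trans le_sup_left)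
        ((h.half'.le_sup haT fun h0 => hac (h.lset.O_le_centralizer_W h.toComp h.K_le
          (zpowers_le.1 h0))).trans (_root_.sup_le (le_sup_right.trans le_sup_left) ?_))))
    exact h.decomp.ge.trans (sup_le_sup_right ((wOf_le K).trans le_sup_left) _)
  have ha1 : a ≠ 1 := fun e => hac (e ▸ one_mem _)
  have hao : orderOf a = 2 := orderOf_eq_prime (by rw [pow_two, ha2]) ha1
  have h2 : Nat.card (K ⊔ zpowers a :) = 24 := by
    have e1 := card_sup_mul_card_inf' (A := K) (B := zpowers a) (haT.trans h.T_le_normalizer)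
    have e2 : K ⊓ zpowers a = ⊥ := by
      refine (eq_bot_iff_forall _).2 fun y hy => ?_
      rcases mem_zpowers_of_sq ha2 hy.2 with e | e
      · exact e
      · exact absurd (O_le_centralizer_wOf K (h.inf_eq.le ⟨e ▸ hy.1, haT (mem_zpowers a)⟩)) hac
    have e3 := card_mul_relIndex (pCoreOf_le 2 K)
    rw [h.idx, h.OK_eq, h.four.card] at e3
    rw [e2, card_bot, Nat.card_zpowers, hao, ← e3] at e1
    omega
  have h3 : (K ⊔ zpowers a) ⊓ (𝐎[L] ⊓ 𝐂[K]) = ⊥ := by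
    have e1 := card_sup_mul_card_inf (A := K ⊔ zpowers a) (B := 𝐎[L] ⊓ 𝐂[K])
      (le_normalizer_of_le_centralizer (h.le_centralizer hP))
    have e2 := card_mul_relIndex h.half'.le
    rw [h.half'.idx3, h.card_T] at e2
    rw [h1, h2, ← e2] at e1
    have := card_pos' (𝐎[L] ⊓ 𝐂[K])
    refine card_eq_one.1 (Nat.eq_of_mul_eq_mul_left (Nat.mul_pos (by norm_num : 0 < 24) this) ?_)
    linarith
  refine ⟨h1, h3, H12.NoCyclicNormal.equiv_perm4 (H12.noCyclicNormal_of_prime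
    fun p x hp hx hn _ => ?_) h2⟩
  have hx1 : (x : G) ≠ 1 := fun e => hp.ne_one (by
    rw [← hx, orderOf_eq_one_iff]; exact Subtype.ext e)
  have hn1 : K ⊔ zpowers a ≤ 𝐍[zpowers (x : G)] := by
    have := map_subtype_le_normalizer (zpowers x)
    rwa [MonoidHom.map_zpowers] at this
  have hxL : zpowers (x : G) ≤ L := zpowers_le.2 (hP x.2)
  have hn2 : L ≤ 𝐍[zpowers (x : G)] := h1.ge.trans (_root_.sup_le hn1
    (le_normalizer_of_le_centralizer (le_centralizer_iff.1 (h.le_centralizer hxL))))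
  have hc : Nat.card (zpowers (x : G)) = p := by rw [Nat.card_zpowers, orderOf_coe, hx]
  by_cases hp2 : p = 2
  · have h4 : (x : G) ∈ 𝐎[L] ⊓ 𝐂[K] := ⟨zpowers_le.1 (le_pCoreOf hxL
      (IsPGroup.of_card (n := 1) (by rw [hc, hp2, pow_one])) hn2), zpowers_le.1 (le_centralizer_iff.1
        (le_centralizer_of_card_le_two (by omega) (h.K_le.trans hn2)))⟩
    exact hx1 (mem_bot.1 (h3 ▸ ⟨x.2, h4⟩))
  · exact hx1 (zpowers_eq_bot.1 (h.lset.charP.eq_bot_of_coprime hxL hn2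
      (hc ▸ (Nat.coprime_primes hp Nat.prime_two).2 hp2)))

theorem W_le_T : wOf K ≤ T := h.W_le.trans h.lset.O_le

theorem inf_C : T ⊓ 𝐂[wOf K] = 𝐎[L] := h.O_eq.symm.trans h.O_eq'

theorem res_eq : 𝐑[L] = K := by
  rw [← h.eq_sup, sup_comm, pResidualOf_sup_of_isPGroup h.pT h.T_le_normalizer, h.res]

theorem mem_of_centralizes {v s : G} (hv : v ∈ 𝐎[L] ⊓ 𝐂[K]) (hv1 : v ≠ 1) (hs : v * s = s * v) :
    s ∈ L := by
  have h1 : 𝐍[zpowers v] = L := h.max.2 _ (isTwoLocal_normalizer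
    (isPGroup_zpowers_of_mem (isPGroup_pCoreOf 2 L) hv.1) fun e => hv1 (zpowers_eq_bot.1 e))
    (le_normalizer_of_le_centralizer ((h.le_centralizer le_rfl).trans
      (centralizer_anti (zpowers_le.2 hv))))
  exact h1 ▸ centralizer_le_normalizer' _ (mem_centralizer_zpowers_iff.2 hs)

theorem normalizer_W : 𝐍[wOf K] = L :=
  h.max.2 _ h.isTwoLocal (h.le_normalizer.trans (normalizer_le_normalizer_wOf K))

include h₂ hne

theorem W_not_le : ¬ wOf K₂ ≤ 𝐂[wOf K] := fun h0 => h₂.T_not_le ((h.T_le_sup h₂ hne).trans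
  (_root_.sup_le (le_centralizer_iff.1 (h₂.W_le.trans h₂.ab))
    (le_centralizer_iff.1 (((le_inf h₂.W_le_T h0).trans h.inf_C.le).trans h.ab))))

theorem W_inf : wOf K ⊓ 𝐂[wOf K₂] = wOf K ⊓ wOf K₂ ∧ Nat.card (wOf K ⊓ wOf K₂ :) = 2 := by
  have hn := h₂.W_le_T.trans h.T_le_normalizer_W
  obtain ⟨z, hz, hz1, a, b⟩ := h.four.exists_zpowers_of_pGrpMod hn
    (pGrpMod_of_isPGroup h₂.four.isPGroup _) (h.W_not_le h₂ hne)
  have e : wOf K ⊓ 𝐂[wOf K₂] = wOf K ⊓ wOf K₂ := le_antisymm (le_inf inf_le_left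
    ((a.trans b.symm).le.trans (commutator_le_right_of_le_normalizer
      (h.W_le_T.trans h₂.T_le_normalizer_W)))) (inf_le_inf_left _ h₂.four.le_centralizer)
  exact ⟨e, by rw [← e, a, h.four.card_zpowers hz hz1]⟩

theorem card_D : Nat.card (wOf K ⊔ wOf K₂ :) = 8 := by
  have := card_sup_mul_card_inf (h.W_le_T.trans h₂.T_le_normalizer_W)
  rw [(h.W_inf h₂ hne).2, h.four.card, h₂.four.card] at this
  omega

theorem compl' : K ⊔ wOf K₂ ⊔ (𝐎[L] ⊓ 𝐂[K]) = L ∧ (K ⊔ wOf K₂) ⊓ (𝐎[L] ⊓ 𝐂[K]) = ⊥ ∧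
    Nonempty ((K ⊔ wOf K₂ :) ≃* Equiv.Perm (Fin 4)) := by
  obtain ⟨a, ha, hac⟩ := SetLike.not_le_iff_exists.1 (h.W_not_le h₂ hne)
  have e : K ⊔ zpowers a = K ⊔ wOf K₂ := by
    refine le_antisymm (sup_le_sup_left (zpowers_le.2 ha) K) (_root_.sup_le le_sup_left
      ((le_sup_inf_of_relIndex_two h.half'.idx2 h₂.W_le_T (zpowers_le.2 ha) fun h0 =>
        hac (h.lset.O_le_centralizer_W h.toComp h.K_le (zpowers_le.1 h0))).trans
        (_root_.sup_le le_sup_right (le_trans ?_ ((wOf_le K).trans le_sup_left)))))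
    exact ((inf_le_inf_left _ (h.lset.O_le_centralizer_W h.toComp h.K_le)).trans
      (h₂.W_inf h hne.symm).1.le).trans inf_le_right
  exact e ▸ h.compl (h₂.W_le_T ha) (h₂.four.sq a ha) hac

theorem D_le : wOf K ⊔ wOf K₂ ≤ T := _root_.sup_le h.W_le_T h₂.W_le_T

theorem T_le_D_sup : T ≤ wOf K ⊔ wOf K₂ ⊔ (𝐎[L] ⊓ 𝐂[K]) :=
  (h.half'.le_sup h₂.W_le_T fun h0 => h.W_not_le h₂ hne
    (h0.trans (h.lset.O_le_centralizer_W h.toComp h.K_le))).trans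
    (_root_.sup_le (le_sup_right.trans le_sup_left)
      (h.decomp.ge.trans (sup_le_sup_right le_sup_left _)))

theorem T_le_normalizer_D : T ≤ 𝐍[wOf K ⊔ wOf K₂] :=
  le_normalizer_sup h.T_le_normalizer_W h₂.T_le_normalizer_W

theorem inf_T : T ⊓ (K ⊔ wOf K₂) = wOf K ⊔ wOf K₂ := by
  have h1 : wOf K ⊔ wOf K₂ ≤ K ⊔ wOf K₂ := sup_le_sup_right (wOf_le K) _
  refine le_antisymm ((inf_le_inf_right _ (h.T_le_D_sup h₂ hne)).trans ?_)
    (le_inf (h.D_le h₂ hne) h1)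
  rw [sup_inf_of_le_normalizer_left ((inf_le_left.trans h.lset.O_le).trans
    (h.T_le_normalizer_D h₂ hne)) h1, inf_comm (𝐎[L] ⊓ 𝐂[K]), (h.compl' h₂ hne).2.1, sup_bot_eq]

theorem cj_le (hS : IsPGroup 2 S) {s : G} (hs : s ∈ S) (h1 : s ∈ 𝐍[T]) (h2 : s ∉ T) :
    cj 𝐎[L] s ≤ 𝐎[L₂] :=
  (h.le_or h₂ hne (isEA_cj h.ea' s) (cj_le_of_mem_normalizer h.lset.O_le h1)).resolve_left
    fun e => h2 (h.mem_of hS hs h1 (mem_normalizer_of_cj_le e))

theorem cj_W (hS : IsPGroup 2 S) {s : G} (hs : s ∈ S) (h1 : s ∈ 𝐍[T]) (h2 : s ∉ T) :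
    cj (wOf K) s = wOf K₂ := by
  have e : cj 𝐎[L] s = 𝐎[L₂] := le_antisymm (h.cj_le h₂ hne hS hs h1 h2) (le_cj_iff.2
    (h₂.cj_le h hne.symm hS (inv_mem hs) (inv_mem h1) (fun h0 => h2 (inv_mem_iff.1 h0))))
  rw [cj_wOf, ← h.res_eq, cj_pResidualOf, ← normalizer_O_of_max h.max, cj_normalizer, e,
    normalizer_O_of_max h₂.max, h₂.res_eq]

theorem inv_mul_mem (hS : IsPGroup 2 S) (hn : S ≤ 𝐍[T]) {s t : G} (hs : s ∈ S) (ht : t ∈ S)
    (h1 : s ∉ T) (h2 : t ∉ T) : s⁻¹ * t ∈ T := by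
  refine h.mem_of hS (mul_mem (inv_mem hs) ht) (hn (mul_mem (inv_mem hs) ht))
    (mem_normalizer_of_cj_le ?_)
  rw [← cj_cj]
  exact (cj_mono (h.cj_le h₂ hne hS ht (hn ht) h2) _).trans
    (h₂.cj_le h hne.symm hS (inv_mem hs) (inv_mem (hn hs)) (fun h0 => h1 (inv_mem_iff.1 h0)))

theorem U_le : 𝐎[L] ⊓ 𝐂[K] ≤ 𝐎[L₂] := (le_centralizer_iff.1
  (h.le_centralizer (h₂.lset.O_le.trans h.lset.syl.le))).trans h₂.cent

theorem le_of_card (hS : IsPGroup 2 S) (hn : S ≤ 𝐍[T]) (hT : Nat.card T = 16)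
    (hA : IsElementaryAbelian 2 A) (hAS : A ≤ S) (hc : 8 ≤ Nat.card A) : A ≤ T := by
  by_contra h0
  obtain ⟨a, ha, haT⟩ := SetLike.not_le_iff_exists.1 h0
  have h1 := card_inf_mul_relIndex T A
  rw [relIndex_eq_two_of ha haT fun y hy hyT =>
    h.inv_mul_mem h₂ hne hS hn (hAS ha) (hAS hy) haT hyT] at h1
  have hc' : cj (T ⊓ A) a = T ⊓ A := cj_eq_of_mem_normalizer
    (centralizer_le_normalizer' _ (centralizer_anti inf_le_right ((isEA_iff.1 hA).1 ha)))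
  have h2 : T ⊓ A ≤ 𝐎[L₂] ⊓ 𝐎[L] := by
    rcases h.le_or h₂ hne (H9.isEA_of_le hA inf_le_right) (inf_le_left : T ⊓ A ≤ T) with e | e
    · exact le_inf ((hc'.ge.trans (cj_mono e a)).trans
        (h.cj_le h₂ hne hS (hAS ha) (hn (hAS ha)) haT)) e
    · exact le_inf e ((hc'.ge.trans (cj_mono e a)).trans
        (h₂.cj_le h hne.symm hS (hAS ha) (hn (hAS ha)) haT))
  have h3 := card_inf_mul_relIndex 𝐎[L₂] 𝐎[L]
  rw [relIndex_eq_two_of_not_le h₂.half'.idx2 h.lset.O_le (h₂.O_not_le h hne.symm)] at h3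
  have h4 := h.card'
  have h5 := eq_of_le_of_card_le h2 (by omega)
  have h6 := h.card_T
  obtain ⟨v, hv, hv1⟩ := exists_mem_ne_one (U := 𝐎[L] ⊓ 𝐂[K]) fun e => by
    rw [e, card_bot] at h6; omega
  exact haT (h.mem_of hS (hAS ha) (hn (hAS ha)) (le_normalizer_pCoreOf 2 L
    (h.mem_of_centralizes hv hv1 ((isEA_iff.1 hA).1 ha v (h5.ge ⟨h.U_le h₂ hne hv, hv.1⟩).2))))

theorem mem_normalizer_of_cj (hS : IsPGroup 2 S) (hn : S ≤ 𝐍[T]) (hT : Nat.card T = 16) {x : G}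
    (hx : cj T x ≤ S) : x ∈ 𝐍[T] := by
  have key : ∀ {K L}, PE T K L → cj 𝐎[L] x ≤ T := fun {K L} p =>
    h.le_of_card h₂ hne hS hn hT (isEA_cj p.ea' x) ((cj_mono p.lset.O_le x).trans hx) (by
      have := p.card_T
      have := p.card_O
      rw [card_cj]; omega)
  refine mem_normalizer_of_cj_le ((cj_mono (h.T_le_sup h₂ hne) x).trans ?_)
  rw [cj_sup]
  exact _root_.sup_le (key h₂) (key h)

theorem le_normalizer_T (hS : IsPGroup 2 S) (hTS : T ≤ S) (hT : Nat.card T = 16) : S ≤ 𝐍[T] := by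
  by_contra h0
  obtain ⟨x, hx, hx'⟩ := SetLike.exists_of_lt (lt_inf_normalizer hS
    (lt_of_le_of_ne (inf_le_left : S ⊓ 𝐍[T] ≤ S) fun e => h0 (e.ge.trans inf_le_right)))
  exact hx' ⟨hx.1, h.mem_normalizer_of_cj h₂ hne (hS.to_le inf_le_left) inf_le_right hT
    (cj_le_of_mem_normalizer (le_inf hTS Subgroup.le_normalizer) hx.2)⟩

theorem exists_sq (hS : IsPGroup 2 S) (hn : S ≤ 𝐍[T]) (hTS : T < S) :
    ∃ s ∈ S, s ∉ T ∧ s * s ∈ wOf K ⊔ wOf K₂ := by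
  have hsq : ∀ s ∈ S, s ∉ T → s * s ∈ T := fun s hs hsT => by
    simpa using h.inv_mul_mem h₂ hne hS hn (inv_mem hs) hs (fun h0 => hsT (inv_mem_iff.1 h0)) hsT
  obtain ⟨s, hs, hsT, hs2⟩ : ∃ s ∈ S, s ∉ T ∧ s * s ∈ 𝐎[L] := by
    obtain ⟨s, hs, hsT⟩ := SetLike.exists_of_lt hTS
    by_cases hs2 : s * s ∈ 𝐎[L]
    · exact ⟨s, hs, hsT, hs2⟩
    obtain ⟨b, hb, hbc⟩ := SetLike.not_le_iff_exists.1 (h.W_not_le h₂ hne)
    have hbT := h₂.W_le_T hb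
    refine ⟨s * b, mul_mem hs (hTS.le hbT), fun h0 => hsT ((mul_mem_cancel_right hbT).1 h0), ?_⟩
    have h1 : s⁻¹ * b * s ∈ 𝐎[L] := h.W_le (mem_cj.1 (h.cj_W h₂ hne hS hs (hn hs) hsT ▸ hb))
    have h2 := mul_mem_of_relIndex_two h.half'.idx2 (mul_mem (hsq s hs hsT) (h.lset.O_le h1)) hbT
      (fun h0 => hs2 ((mul_mem_cancel_right h1).1 h0))
      (fun h0 => hbc (h.lset.O_le_centralizer_W h.toComp h.K_le h0))
    convert h2 using 1; group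
  refine ⟨s, hs, hsT, ?_⟩
  obtain ⟨w, hw, v, hv, e⟩ := (mem_sup_of_le_normalizer_left ((inf_le_left.trans h.lset.O_le).trans
    h.T_le_normalizer_W)).1 (h.decomp.ge hs2)
  by_cases hv1 : v = 1
  · rw [e, hv1, mul_one]; exact mem_sup_left hw
  exfalso
  have h1 : s * s ∈ 𝐎[L₂] := h.cj_le h₂ hne hS hs (hn hs) hsT (mem_cj.2 (by simpa using hs2))
  have h2 : w ∈ wOf K ⊓ wOf K₂ := (h.W_inf h₂ hne).1.le ⟨hw, h₂.lset.O_le_centralizer_W h₂.toComp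
    h₂.K_le ((mul_mem_cancel_right (h.U_le h₂ hne hv)).1 (e ▸ h1))⟩
  have h3 : s ∈ 𝐂[wOf K ⊓ wOf K₂] := zpowers_le.1 (le_centralizer_of_card_le_two
    (h.W_inf h₂ hne).2.le (zpowers_le.2 (cj_eq_self_iff.1 (by
      rw [cj_inf, h.cj_W h₂ hne hS hs (hn hs) hsT, h₂.cj_W h hne.symm hS hs (hn hs) hsT,
        inf_comm]))))
  refine hsT (h.mem_of hS hs (hn hs) (le_normalizer_pCoreOf 2 L (h.mem_of_centralizes hv hv1 ?_)))
  have h4 := h3 w h2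
  have h5 : v = w⁻¹ * (s * s) := by rw [e, inv_mul_cancel_left]
  rw [h5, ← mul_assoc s w⁻¹, ← (Commute.inv_left h4).eq]
  simp only [mul_assoc]

theorem exists_index_two (hS : IsPGroup 2 S) (hTS : T ≤ S) (hT : Nat.card T = 16) :
    ∃ M ≤ S, M.relIndex S = 2 ∧ M ⊓ T ≤ wOf K ⊔ wOf K₂ := by
  have hD := card_mul_relIndex (h.D_le h₂ hne)
  rw [h.card_D h₂ hne, hT] at hD
  rcases hTS.eq_or_lt with rfl | hlt
  · exact ⟨_, h.D_le h₂ hne, by omega, inf_le_left⟩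
  have hn := h.le_normalizer_T h₂ hne hS hTS hT
  obtain ⟨s, hs, hsT, hs2⟩ := h.exists_sq h₂ hne hS hn hlt
  have hsD : s ∈ 𝐍[wOf K ⊔ wOf K₂] := cj_eq_self_iff.1 (by
    rw [cj_sup, h.cj_W h₂ hne hS hs (hn hs) hsT, h₂.cj_W h hne.symm hS hs (hn hs) hsT, sup_comm])
  have h1 : wOf K ⊔ wOf K₂ ⊔ zpowers s ≤ S :=
    _root_.sup_le ((h.D_le h₂ hne).trans hTS) (zpowers_le.2 hs)
  have h2 : (wOf K ⊔ wOf K₂ ⊔ zpowers s) ⊓ T ≤ wOf K ⊔ wOf K₂ := fun y hy =>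
    (mem_or_of_mem_sup_zpowers hsD hs2 hy.1).resolve_right fun h0 =>
      hsT (inv_mem_iff.1 ((mul_mem_cancel_left (mem_inf.1 hy).2).1 (h.D_le h₂ hne h0)))
  refine ⟨_, h1, ?_, h2⟩
  have h3 := relIndex_mul_relIndex _ _ _ (h.D_le h₂ hne) hTS
  rw [relIndex_eq_two_of hs hsT fun y hy hyT => h.inv_mul_mem h₂ hne hS hn hs hy hsT hyT] at h3
  have h4 := relIndex_mul_relIndex _ _ _ (le_sup_left : wOf K ⊔ wOf K₂ ≤ _) h1
  have h5 : (wOf K ⊔ wOf K₂).relIndex (wOf K ⊔ wOf K₂ ⊔ zpowers s) = 2 :=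
    relIndex_eq_two_of (a := s) (mem_sup_right (mem_zpowers s)) (fun h0 => hsT (h.D_le h₂ hne h0))
      fun y hy hy' => by
        have := conj_mem_of_mem_normalizer' hsD
          ((mem_or_of_mem_sup_zpowers hsD hs2 hy).resolve_left hy')
        simpa only [mul_assoc, inv_mul_cancel, mul_one] using this
  rw [h5] at h4
  omega

theorem U_inf_res : (𝐎[L] ⊓ 𝐂[K]) ⊓ 𝐑[(⊤ : Subgroup G)] = ⊥ := by
  refine (eq_bot_iff_forall _).2 fun u hu => ?_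
  by_contra hu1
  have hT : Nat.card T = 16 := by
    have a := h.card_T
    have b := h.card_O
    have c := h.card'
    have d := (one_lt_card_iff_ne_bot (𝐎[L] ⊓ 𝐂[K])).2 fun e => hu1 (mem_bot.1 (e ▸ hu.1))
    omega
  obtain ⟨S, hS, hTS⟩ := exists_sylIn_le h.pT (le_top : T ≤ ⊤)
  obtain ⟨M, hM, hM2, hMT⟩ := h.exists_index_two h₂ hne hS.pgrp hTS hT
  have huT : T ≤ 𝐂[zpowers u] :=
    (h.le_centralizer h.lset.syl.le).trans (centralizer_anti (zpowers_le.2 hu.1))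
  obtain ⟨g, hg, hgT⟩ := thompson_transfer_extremal hS hM hM2 (u := u)
    (by rw [← pow_two]; exact (isEA_iff.1 h.ea').2 u hu.1.1)
    (fun N hN => (pGrpMod_of_relIndex (k := 1) (D := ⊤) (by
      haveI := normal_of_index_eq_two hN
      exact top_le_normalizer N) (by rw [relIndex_top_right, hN, pow_one])).pResidualOf_le hu.2)
    h.pT (centralizer_zpowers u ▸ huT)
  have hgN := h.mem_normalizer_of_cj h₂ hne hS.pgrp (h.le_normalizer_T h₂ hne hS.pgrp hTS hT) hT hgT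
  have h1 : g * u * g⁻¹ ∈ wOf K ⊔ wOf K₂ :=
    hMT ⟨hg, conj_mem_of_mem_normalizer hgN (h.lset.O_le hu.1.1)⟩
  have h2 : g * u * g⁻¹ ∈ 𝐂[T] := conj_mem_of_mem_normalizer
    (normalizer_le_normalizer_centralizer T hgN) (zpowers_le_centralizer_iff.1 huT)
  have h3 : g * u * g⁻¹ ∈ wOf K := by
    have := sup_inf_of_le_normalizer_left (h₂.W_le_T.trans h.T_le_normalizer_W)
      h.four.le_centralizer
    rw [(h₂.W_inf h hne.symm).1, sup_eq_left.2 (inf_le_right : wOf K₂ ⊓ wOf K ≤ _)] at this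
    exact this.le ⟨h1, centralizer_anti h.W_le_T h2⟩
  obtain ⟨z, -, -, a, b⟩ := h.four.exists_zpowers_of_pGrpMod h.T_le_normalizer_W
    (pGrpMod_of_isPGroup h.pT _) h.T_not_le
  have h4 : u ∈ ⁅T, T⁆ := by
    have := conj_mem_of_mem_normalizer' (le_normalizer_commutator le_rfl le_rfl hgN)
      (commutator_mono h.W_le_T le_rfl ((a.trans b.symm).le ⟨h3, h2⟩))
    simpa only [mul_assoc, inv_mul_cancel_left, inv_mul_cancel, mul_one] using this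
  have h5 : ⁅T, T⁆ ≤ wOf K ⊔ wOf K₂ := (commutator_mono (h.T_le_D_sup h₂ hne) le_rfl).trans
    (commutator_sup_left_le Subgroup.le_normalizer ((inf_le_left.trans h.lset.O_le).trans
      (h.T_le_normalizer_D h₂ hne)) (commutator_le_left_of_le_normalizer (h.T_le_normalizer_D h₂ hne))
      ((le_centralizer_iff_commutator'.1 (h.le_centralizer h.lset.syl.le)).le.trans bot_le))
  exact hu1 (mem_bot.1 ((h.compl' h₂ hne).2.1 ▸ ⟨sup_le_sup_right (wOf_le K) _ (h5 h4), hu.1⟩))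

theorem M_le : K ⊔ wOf K₂ ≤ 𝐑[(⊤ : Subgroup G)] :=
  _root_.sup_le (h.res.ge.trans (pResidualOf_mono le_top))
    ((wOf_le K₂).trans (h₂.res.ge.trans (pResidualOf_mono le_top)))

theorem inf_res : 𝐍[wOf K] ⊓ 𝐑[(⊤ : Subgroup G)] = K ⊔ wOf K₂ := by
  obtain ⟨a, -, -⟩ := h.compl' h₂ hne
  rw [h.normalizer_W]
  conv_lhs => rw [← a]
  rw [sup_inf_of_le_normalizer_right (le_normalizer_of_le_centralizer
    (h.le_centralizer (le_sup_left.trans a.le))) (h.M_le h₂ hne), h.U_inf_res h₂ hne, sup_bot_eq]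

theorem eq_W {R : Subgroup G} (hR : IsPGroup 2 R) (h0 : R ≠ ⊥) (h1 : R ≤ 𝐑[(⊤ : Subgroup G)])
    (h2 : K ⊔ wOf K₂ ≤ 𝐍[R]) : R = wOf K := by
  obtain ⟨a, b, -⟩ := h.compl' h₂ hne
  have hML := le_sup_left.trans a.le
  have h3 : R ⊓ 𝐍[wOf K] ≤ K ⊔ wOf K₂ :=
    (le_inf inf_le_right (inf_le_left.trans h1)).trans (h.inf_res h₂ hne).le
  have h4 : K ⊔ wOf K₂ ≤ 𝐍[R ⊓ 𝐍[wOf K]] :=
    le_normalizer_inf h2 (le_normalizer_of_le (hML.trans h.normalizer_W.ge))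
  have h5 : R ⊓ 𝐍[wOf K] ≤ 𝐎[L] := le_pCoreOf (h3.trans hML) (hR.to_le inf_le_left)
    (a.ge.trans (_root_.sup_le h4 (le_normalizer_of_le_centralizer
      (le_centralizer_iff.1 (h.le_centralizer (h3.trans hML))))))
  have h6 : R ⊓ 𝐍[wOf K] ≤ wOf K := by
    have := sup_inf_of_le_normalizer_left ((inf_le_left.trans h.lset.O_le).trans
      h.T_le_normalizer_W : 𝐎[L] ⊓ 𝐂[K] ≤ _) ((wOf_le K).trans le_sup_left : _ ≤ K ⊔ wOf K₂)
    rw [h.decomp, inf_comm (𝐎[L] ⊓ 𝐂[K]), b, sup_bot_eq] at this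
    exact (le_inf h5 h3).trans this.le
  have h7 := (h.eq_bot_or_eq h6 (le_sup_left.trans h4)).resolve_left fun e =>
    inf_centralizer_ne_bot_of_dvd (dvd_card_of_ne_bot hR h0) h.four.isPGroup
      (((wOf_le K).trans le_sup_left).trans h2)
      (le_bot_iff.1 (e ▸ inf_le_inf_left _ (centralizer_le_normalizer' _)))
  by_contra h8
  exact (lt_inf_normalizer hR (lt_of_le_of_ne (h7.ge.trans inf_le_left) (Ne.symm h8))).ne h7.symm

theorem isMax : IsMaximalTwoLocal ((K ⊔ wOf K₂).subgroupOf 𝐑[(⊤ : Subgroup G)]) := by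
  have hW := ((wOf_le K).trans le_sup_left).trans (h.M_le h₂ hne)
  have e : 𝐍[(wOf K).subgroupOf 𝐑[(⊤ : Subgroup G)]] = (K ⊔ wOf K₂).subgroupOf 𝐑[⊤] := by
    rw [← map_subtype_inj', map_subtype_normalizer, map_subgroupOf_eq_of_le hW,
      map_subgroupOf_eq_of_le (h.M_le h₂ hne), inf_comm, h.inf_res h₂ hne]
  refine ⟨⟨(wOf K).subgroupOf _, h.four.isPGroup.comap_subtype, fun h0 => h.four.ne_bot ?_, e.symm⟩,
    ?_⟩
  · rw [← map_subgroupOf_eq_of_le hW, h0, Subgroup.map_bot]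
  · rintro _ ⟨R, a, b, rfl⟩ c
    have := h.eq_W h₂ hne (a.map _) (fun h0 => b (map_subtype_eq_bot_iff.1 h0)) (map_subtype_le R)
      ((map_subgroupOf_eq_of_le (h.M_le h₂ hne)).ge.trans ((map_mono c).trans
        ((map_subtype_normalizer R).le.trans inf_le_right)))
    rw [← e, ← this, subgroupOf_map_subtype']

theorem card_inf : Nat.card ((K ⊔ wOf K₂) ⊓ (K₂ ⊔ wOf K) :) = 8 := by
  rw [← h.card_D h₂ hne]
  congr 2
  refine le_antisymm (le_trans (le_inf ?_ inf_le_left) (h.inf_T h₂ hne).le)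
    (le_inf (sup_le_sup_right (wOf_le K) _) (_root_.sup_le le_sup_right
      ((wOf_le K₂).trans le_sup_left)))
  exact (inf_le_inf (sup_le_sup_left h₂.W_le_T _) (sup_le_sup_left h.W_le_T _)).trans
    (h₂.inf_sup h.toPS hne.symm).le

end PE

end Cfsg.Agent.H9K
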