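import Cfsg.Agent.H9.JC8
import Cfsg.Agent.H11.StrEmb

/-! The hypothesis `NU` always holds; KS 12.3.5 - 12.3.8. -/

set_option autoImplicit false

namespace Cfsg.Agent.H9K

open Subgroup H24
open H9 (maxEA mem_maxEA)
open scoped commutatorElement

variable {G : Type*} [Group G] [Finite G]

theorem normalizer_O_of_max {L : Subgroup G} (h : IsMaximalTwoLocal L) : 𝐍[𝐎[L]] = L :=
  h.2 _ (isTwoLocal_O (O_ne_bot_of_local h.1)) (le_normalizer_pCoreOf 2 L)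

theorem PS.pe {T K L K₂ L₂ : Subgroup G} (h : PS T K L) (h₂ : PS T K₂ L₂) (hne : L₂ ≠ L) :
    PE T K L := ⟨h, (h.amalgam h₂ hne).1, (h.amalgam h₂ hne).2⟩

namespace PE

variable {T K L K₂ L₂ A S : Subgroup G} (h : PE T K L) (h₂ : PE T K₂ L₂) (hne : L₂ ≠ L)
include h

theorem mem_of (hS : IsPGroup 2 S) {s : G} (hs : s ∈ S) (h1 : s ∈ 𝐍[T]) (h2 : s ∈ 𝐍[𝐎[L]]) :
    s ∈ T := zpowers_le.1 (h.lset.syl.le_of_le_normalizer (isPGroup_zpowers_of_mem hS hs)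
      (zpowers_le.2 (normalizer_O_of_max h.max ▸ h2)) (zpowers_le.2 h1))

include h₂ hne

theorem O_not_le : ¬ 𝐎[L₂] ≤ 𝐎[L] := fun h0 => hne (by
  rw [← normalizer_O_of_max h.max, ← normalizer_O_of_max h₂.max,
    le_antisymm h0 ((h.ab.trans (centralizer_anti h0)).trans h₂.cent)])

theorem T_le_sup : T ≤ 𝐎[L₂] ⊔ 𝐎[L] := h.half'.le_sup h₂.lset.O_le (h.O_not_le h₂ hne)

theorem mem_or {c : G} (hc : c ∈ T) (h2 : c * c = 1) : c ∈ 𝐎[L] ∨ c ∈ 𝐎[L₂] := by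
  by_contra h0
  obtain ⟨n1, n2⟩ := not_or.1 h0
  obtain ⟨a, ha, b, hb, rfl⟩ := (mem_sup_of_le_normalizer_right ((h₂.lset.O_le.trans
    h.lset.syl.le).trans (le_normalizer_pCoreOf 2 L))).1 (h.T_le_sup h₂ hne hc)
  have ea : a⁻¹ = a := inv_eq_of_mul_eq_one_left (by rw [← pow_two]; exact (isEA_iff.1 h₂.ea').2 a ha)
  have eb : b⁻¹ = b := inv_eq_of_mul_eq_one_left (by rw [← pow_two]; exact (isEA_iff.1 h.ea').2 b hb)
  have e : b * a = a * b := by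
    rw [← inv_eq_of_mul_eq_one_left h2, mul_inv_rev, ea, eb]
  have h3 := le_sup_inf_of_relIndex_two h₂.half'.idx2 h.lset.O_le (zpowers_le.2 hb)
    fun h0 => n2 (mul_mem ha (zpowers_le.1 h0))
  refine n1 (mul_mem (h.cent (centralizer_anti h3 ?_)) hb)
  rw [centralizer_sup]
  exact ⟨mem_centralizer_zpowers_iff.2 e, centralizer_anti inf_le_right (h₂.ab ha)⟩

theorem le_or (hA : IsElementaryAbelian 2 A) (h1 : A ≤ T) : A ≤ 𝐎[L] ∨ A ≤ 𝐎[L₂] := by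
  have k : ∀ c ∈ A, c ∈ 𝐎[L] ∨ c ∈ 𝐎[L₂] := fun c hc =>
    h.mem_or h₂ hne (h1 hc) (by rw [← pow_two]; exact (isEA_iff.1 hA).2 c hc)
  by_contra h0
  obtain ⟨n1, n2⟩ := not_or.1 h0
  obtain ⟨a, ha, ha'⟩ := SetLike.not_le_iff_exists.1 n1
  obtain ⟨b, hb, hb'⟩ := SetLike.not_le_iff_exists.1 n2
  rcases k _ (mul_mem ha hb) with e | e
  · exact ha' ((mul_mem_cancel_right ((k b hb).resolve_right hb')).1 e)
  · exact hb' ((mul_mem_cancel_left ((k a ha).resolve_left ha')).1 e)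

omit h₂ hne in
theorem inf_le_of {V : Subgroup G} (hV : IsPGroup 2 V) (hn : T ≤ 𝐍[V]) (h1 : V ⊓ T ≤ 𝐎[L]) :
    V ⊓ 𝐍[T] ≤ T := fun v hv => by
  refine h.mem_of hV hv.1 hv.2 (mem_normalizer_of_conj_mem fun q hq => ?_)
  have hqT := h.lset.O_le hq
  have hvV : v ∈ V := hv.1
  have : v * q * v⁻¹ * q⁻¹ ∈ V ⊓ T := mem_inf.2 ⟨by
    have := mul_mem hvV (conj_mem_of_mem_normalizer (hn hqT) (inv_mem hvV))
    simpa only [mul_assoc] using this, mul_mem (conj_mem_of_mem_normalizer hv.2 hqT) (inv_mem hqT)⟩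
  exact (mul_mem_cancel_right (inv_mem hq)).1 (h1 this)

theorem le_of_normal {V : Subgroup G} (hS : IsPGroup 2 S) (hTS : T ≤ S) (hVS : V ≤ S)
    (hV : IsElementaryAbelian 2 V) (hn : S ≤ 𝐍[V]) : V ≤ T := by
  by_contra h0
  obtain ⟨y, hy, hyT⟩ := SetLike.exists_of_lt (lt_inf_normalizer (hS.to_le (_root_.sup_le hVS hTS))
    (lt_of_le_of_ne (le_sup_right : T ≤ V ⊔ T) fun e => h0 (le_sup_left.trans e.ge)))
  obtain ⟨v, hv, t, ht, rfl⟩ := (mem_sup_of_le_normalizer_left (hTS.trans hn)).1 hy.1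
  have h1 : v ∈ V ⊓ 𝐍[T] := 
    mem_inf.2 ⟨hv, (mul_mem_cancel_right (Subgroup.le_normalizer ht)).1 (mem_inf.1 hy).2⟩
  refine hyT (mul_mem ?_ ht)
  rcases h.le_or h₂ hne (H9.isEA_of_le hV inf_le_left) (inf_le_right : V ⊓ T ≤ T) with e | e
  · exact h.inf_le_of (hS.to_le hVS) (hTS.trans hn) e h1
  · exact h₂.inf_le_of (hS.to_le hVS) (hTS.trans hn) e h1

theorem le_of_le_O {V : Subgroup G} (hS : IsPGroup 2 S) (hTS : T < S) (hn : S ≤ 𝐍[V])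
    (h1 : V ≤ 𝐎[L]) : V ≤ 𝐎[L₂] := by
  obtain ⟨s, hs, hsT⟩ := SetLike.exists_of_lt (lt_inf_normalizer hS hTS)
  rcases h.le_or h₂ hne (isEA_cj h.ea' s) (cj_le_of_mem_normalizer h.lset.O_le hs.2) with e | e
  · exact absurd (h.mem_of hS hs.1 hs.2 (mem_normalizer_of_cj_le e)) hsT
  · exact ((cj_eq_of_mem_normalizer (hn hs.1)).ge.trans (cj_mono h1 s)).trans e

theorem le_omega {V : Subgroup G} (hS : IsPGroup 2 S) (hTS : T < S) (hVS : V ≤ S)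
    (hV : IsElementaryAbelian 2 V) (hn : S ≤ 𝐍[V]) : V ≤ 𝛀[T] := by
  have h1 := h.le_of_normal h₂ hne hS hTS.le hVS hV hn
  have h2 : V ≤ 𝐎[L] ∧ V ≤ 𝐎[L₂] := by
    rcases h.le_or h₂ hne hV h1 with e | e
    · exact ⟨e, h.le_of_le_O h₂ hne hS hTS hn e⟩
    · exact ⟨h₂.le_of_le_O h hne.symm hS hTS hn e, e⟩
  exact le_omegaOneCenter hV h1 ((le_centralizer_sup (h2.2.trans h₂.ab) (h2.1.trans h.ab)).trans
    (centralizer_anti (h.T_le_sup h₂ hne)))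

end PE

namespace MSet

variable {S M T L K : Subgroup G} (h : MSet S M)
include h

theorem ps (hTS : T ≤ S) (hK : UP T K L) (hL : LSet T L) (hU : NU T) : PS T K L :=
  ⟨hK, hL, h.omega_eq hTS hK hL.syl hU, h.zn.cent_local hK.max.1⟩

theorem exists_pair_aux (hT : WMax M T) (hTS : T ≤ S) (hU : NU T) :
    ∃ K₁ L₁ K₂ L₂, PE T K₁ L₁ ∧ PE T K₂ L₂ ∧ L₂ ≠ L₁ := by
  obtain ⟨K₁, hK₁⟩ := h.exists_out hT
  obtain ⟨L₁, a, b⟩ := h.exists_up hT hK₁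
  obtain ⟨K₂, L₂, c, d, e⟩ := h.second' hT hTS a hK₁.notle b hU
  have p1 := h.ps hTS a b hU
  have p2 := h.ps hTS c d hU
  exact ⟨_, _, _, _, p1.pe p2 e, p2.pe p1 e.symm, e⟩

end MSet

theorem ZN.J_le_O (h : ZN G) (hO : pCore 2 G = ⊥) {S L : Subgroup G} (hS : SylIn 2 S ⊤)
    (hL : IsTwoLocal L) (hSL : S ≤ L) (hu : ∀ L', IsTwoLocal L' → S ≤ L' → L' ≤ L) :
    𝐉[S] ≤ 𝐎[L] := by
  by_contra hJ
  have hS1 : S ≠ ⊥ := fun e => hJ ((H9.thompsonOf_le _ _).trans (e ▸ bot_le))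
  have hM : MSet S L := ⟨h, hO, hS, hL,
    hu _ (isTwoLocal_J hS.pgrp hS1) (le_normalizer_thompsonOf le_normalizer)⟩
  have hl : LSet S L := h.lset_local hL (hS.of_le hSL le_top) hJ
  obtain ⟨K, hK, hKL⟩ := hl.nonempty
  have hW := hl.W_le_Z hK hKL
  by_cases hex : ∀ T, ¬ Str L T
  · have hse := hM.stronglyEmbedded_iff.2 hex
    obtain ⟨z, hz, hz1⟩ := exists_mem_ne_one hK.four.ne_bot
    refine hJ (H9.thompsonOf_le_iff.2 fun A hA a ha => ?_)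
    by_cases ha1 : a = 1
    · exact ha1 ▸ one_mem _
    obtain ⟨g, hg, rfl⟩ := H11.SE.exists_conj_eq hse (hKL (wOf_le K hz))
      (orderOf_eq_prime (by rw [pow_two]; exact hK.four.sq z hz) hz1) (hSL (hA.1 ha))
      (orderOf_eq_prime ((isEA_iff.1 hA.2.1).2 a ha) ha1)
    exact conj_mem_of_mem_normalizer (le_normalizer_pCoreOf 2 L hg)
      (hl.charP.scc_le_pCoreOf (hW hz))
  push Not at hex
  obtain ⟨T₁, hT₁⟩ := hex
  obtain ⟨T₀, hT₀⟩ := exists_wMax hT₁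
  obtain ⟨g, hg, hgT⟩ := hM.exists_le hT₀.pgrp hT₀.le
  have hT := hT₀.cj g⁻¹
  rw [cj_eq_of_mem (inv_mem hg)] at hT
  have hTS := le_cj_iff.1 hgT
  generalize cj T₀ g⁻¹ = T at hT hTS
  have hne : T ≠ S := fun e => by
    obtain ⟨L', a, b, c⟩ := hT.ex
    exact c (hu L' a (e ▸ b))
  obtain ⟨K₁, L₁, K₂, L₂, p1, p2, e⟩ := hM.exists_pair_aux hT hTS fun h0 =>
    absurd (le_antisymm hTS (h0.le_of_le hS.pgrp hTS le_top)) hne
  have h1 : wOf K ≤ 𝛀[𝐉[T]] := (hW.trans (p1.le_omega p2 e hS.pgrp (lt_of_le_of_ne hTS hne) hl.Z_le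
    hl.charP.isEA_scc (hSL.trans (le_normalizer_scc 2 L)))).trans p1.om.le
  have h2 := card_le_of_le' h1
  rw [hK.four.card] at h2
  rcases h.cases hS hTS p1.toUP p1.lset.syl p2.toUP e with ⟨-, a⟩ | ⟨-, -, a⟩ | ⟨-, a, -, b⟩
  · omega
  · exact hne a
  · obtain ⟨x, hx, -, -, hx2⟩ := hK.exists_odd'
    rw [← eq_of_le_of_card_le h1 (by rw [a, hK.four.card])] at b
    exact hx2 (sq_mem_of_relIndex_two b (hK.le_normalizer_W hx))

namespace MSet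

variable {S M T L K : Subgroup G} (h : MSet S M)
include h

theorem nu (hT : WMax M T) : NU T := fun hS L hL hTL => by
  by_contra h0
  push Not at h0
  obtain ⟨L', a, b, c⟩ := hT.ex
  exact c (((h0 L' a b).trans (le_normalizer_J_of_le (hS.of_le hTL le_top)
    (h.zn.J_le_O h.core hS hL.1 hTL h0))).trans (h.normalizer_J_le hT))

theorem exists_pair (hT : WMax M T) : ∃ K₁ L₁ K₂ L₂, PE T K₁ L₁ ∧ PE T K₂ L₂ ∧ L₂ ≠ L₁ := by
  obtain ⟨g, hg, hgT⟩ := h.exists_le hT.pgrp hT.le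
  exact (h.cj_of_mem hg).exists_pair_aux hT hgT (h.nu hT)

theorem T_le_normalizer (hT : WMax M T) (hK : Out M T K) : T ≤ 𝐍[K] := by
  obtain ⟨g, hg, hgT⟩ := h.exists_le hT.pgrp hT.le
  obtain ⟨L, a, b⟩ := h.exists_up hT hK
  exact ((h.cj_of_mem hg).ps hgT a b (h.nu hT)).T_le_normalizer

end MSet

end Cfsg.Agent.H9K
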