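import Mathlib

/-! The normaliser of a Clifford span in characteristic two. -/

set_option autoImplicit false

namespace Cfsg.Agent.H9.Spin

open scoped commutatorElement

variable {F R G : Type*} [Field F] [Ring R] [Algebra F R] [Group G]

/-- The elements normalising a subspace. -/
def nrm (φ : G →* R) (U : Submodule F R) : Subgroup G where
  carrier := {g | ∀ x ∈ U, φ g * x * φ g⁻¹ ∈ U ∧ φ g⁻¹ * x * φ g ∈ U}
  one_mem' x hx := by simpa using hx
  mul_mem' {a b} ha hb x hx := by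
    have h1 := (ha _ (hb x hx).1).1
    have h2 := (hb _ (ha x hx).2).2
    simp only [mul_inv_rev, map_mul, mul_assoc] at h1 h2 ⊢
    exact ⟨h1, h2⟩
  inv_mem' {a} ha x hx := by simpa using (ha x hx).symm

theorem inv_eq (φ : G →* R) (h2 : (2 : R) = 0) {g : G} {N : R} (hg : φ g = 1 + N) (hN : N * N = 0) :
    φ g⁻¹ = 1 + N := by
  have : φ g * (1 + N) = 1 := by
    rw [hg]
    calc _ = 1 + 2 * N + N * N := by noncomm_ring
      _ = 1 := by rw [h2, hN]; simp
  calc _ = φ g⁻¹ * (φ g * (1 + N)) := by rw [this, mul_one]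
    _ = _ := by rw [← mul_assoc, ← map_mul, inv_mul_cancel, map_one, one_mul]

theorem comm_eq (φ : G →* R) (h2 : (2 : R) = 0) {a b : G} {A B C : R} (ha : φ a = 1 + A)
    (hb : φ b = 1 + B) (hC : A * B + B * A = C) (h3 : C * A = 0) (h4 : C * B = 0) :
    φ ⁅a, b⁆ = 1 + C := by
  have h1 : φ ⁅a, b⁆ * φ (b * a) = (1 + C) * φ (b * a) := by
    rw [← map_mul, show ⁅a, b⁆ * (b * a) = a * b by simp [commutatorElement_def], map_mul, map_mul,
      ha, hb]
    calc _ = (1 + B) * (1 + A) + (A * B + B * A) - 2 * (B * A) := by noncomm_ring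
      _ = (1 + B) * (1 + A) + C + C * A + C * B * (1 + A) := by rw [hC, h2, h3, h4]; simp
      _ = _ := by noncomm_ring
  have := congrArg (· * φ (b * a)⁻¹) h1
  simpa only [mul_assoc, ← map_mul, mul_inv_cancel, map_one, mul_one] using this

theorem span_scalar {X : Set R} (hX : ∀ x ∈ X, ∀ y ∈ X, ∃ c : F, x * y + y * x = c • 1)
    {x y : R} (hx : x ∈ Submodule.span F X) (hy : y ∈ Submodule.span F X) :
    ∃ c : F, x * y + y * x = c • 1 := by
  induction hx, hy using Submodule.span_induction₂ with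
  | mem_mem x y hx hy => exact hX x hx y hy
  | zero_left => exact ⟨0, by simp⟩
  | zero_right => exact ⟨0, by simp⟩
  | add_left x y z _ _ _ a b =>
    obtain ⟨a, ha⟩ := a
    obtain ⟨b, hb⟩ := b
    exact ⟨a + b, by rw [add_smul, ← ha, ← hb]; noncomm_ring⟩
  | add_right x y z _ _ _ a b =>
    obtain ⟨a, ha⟩ := a
    obtain ⟨b, hb⟩ := b
    exact ⟨a + b, by rw [add_smul, ← ha, ← hb]; noncomm_ring⟩
  | smul_left r x y _ _ a =>
    obtain ⟨a, ha⟩ := a
    exact ⟨r * a, by rw [mul_smul, ← ha]; simp⟩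
  | smul_right r x y _ _ a =>
    obtain ⟨a, ha⟩ := a
    exact ⟨r * a, by rw [mul_smul, ← ha]; simp⟩

/-- A Clifford system with four slots. -/
structure Cl (e f : Fin 4 → R) : Prop where
  ee : ∀ a b, e a * e b = e b * e a
  ff : ∀ a b, f a * f b = f b * f a
  fe : ∀ a b, a ≠ b → f a * e b = e b * f a
  e0 : ∀ a, e a * e a = 0
  f0 : ∀ a, f a * f a = 0
  ef : ∀ a, f a * e a = 1 - e a * f a

theorem core [Nontrivial R] (h2 : (2 : R) = 0) (φ : G →* R) {X : Set R}
    (hX : ∀ x ∈ X, ∀ y ∈ X, ∃ c : F, x * y + y * x = c • 1) (S : Subgroup G)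
    (hS : ∀ g ∈ S, ∀ x ∈ X, φ g * x * φ g⁻¹ ∈ X) {e f : Fin 4 → R} (h : Cl e f)
    (he : ∀ a, e a ∈ X) (hf : ∀ a, f a ∈ X)
    (hS' : ∀ g ∈ S, Commute (φ g * f 0 * φ g⁻¹) (e 0) ∨ Commute (φ g * f 0 * φ g⁻¹) (f 2))
    (a1 : ∃ g, φ g = 1 + e 2 * f 3) (a2 : ∃ g, φ g = 1 + e 0 * e 3)
    (a3 : ∃ g, φ g = 1 + e 0 * e 1 * e 3) :
    ∃ K : Subgroup G, S ≤ K ∧ ¬ commutator G ≤ K ∧ ∃ g ∈ commutator G, g ∈ K ∧ g ∉ S := by
  obtain ⟨a1, b1⟩ := a1
  obtain ⟨a2, b2⟩ := a2
  obtain ⟨a3, b3⟩ := a3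
  have ce : ∀ a b, Commute (e a) (e b) := h.ee
  have cf : ∀ a b, a ≠ b → Commute (f a) (e b) := h.fe
  have z : ∀ (x : R) a, e a * (e a * x) = 0 := fun x a => by rw [← mul_assoc, h.e0, zero_mul]
  have n2 : ∀ x : R, x + x = 0 := fun x => by rw [← two_mul, h2, zero_mul]
  have k : ∀ N : R, Commute N (e 2) → Commute N (e 3) → Commute N (f 3) → N * N = 0 → ∀ a,
      φ a = 1 + N * e 3 → φ ⁅a, a1⁆ = 1 + N * e 2 := fun N c1 c2 c3 c4 a ha => by
    refine comm_eq φ h2 ha b1 ?_ ?_ ?_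
    · rw [mul_assoc (e 2), ← mul_assoc (f 3), ← c3.eq, mul_assoc N (f 3), h.ef, ← mul_assoc (e 2) N,
        ← c1.eq, mul_assoc N, ← mul_assoc (e 3), (ce 3 2).eq]
      noncomm_ring
    · rw [mul_assoc, ← mul_assoc (e 2), ← c1.eq, ← mul_assoc, ← mul_assoc, c4]; simp
    · rw [mul_assoc, z, mul_zero]
  have s0 : e 0 * e 1 * (e 0 * e 1) = 0 := by
    rw [mul_assoc, ← mul_assoc (e 1), (ce 1 0).eq, mul_assoc, z]
  have g1 := k _ (ce 0 2) (ce 0 3) (cf 3 0 (by decide)).symm (h.e0 0) a2 b2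
  have g2 := k _ ((ce 0 2).mul_left (ce 1 2)) ((ce 0 3).mul_left (ce 1 3))
    ((cf 3 0 (by decide)).symm.mul_left (cf 3 1 (by decide)).symm) s0 a3 b3
  have cj : ∀ M : R, Commute M (e 0) → Commute M (f 0) → ∀ a, φ a = 1 + e 0 * M →
      φ a⁻¹ = φ a ∧ (M * M = 0 → φ a * f 0 * φ a⁻¹ = f 0 + M) := fun M c1 c2 a ha => by
    have := inv_eq φ h2 ha (by rw [mul_assoc, ← mul_assoc M, c1.eq, mul_assoc, z])
    refine ⟨this.trans ha.symm, fun c3 => ?_⟩
    rw [this, ha]
    have d1 : e 0 * M * f 0 + f 0 * (e 0 * M) = M := by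
      rw [← mul_assoc, h.ef, mul_assoc, c2.eq]; noncomm_ring
    have d2 : e 0 * M * f 0 * (e 0 * M) = 0 := by
      calc _ = e 0 * (M * (f 0 * e 0)) * M := by noncomm_ring
        _ = e 0 * (f 0 * e 0) * (M * M) := by rw [(c2.mul_right c1).eq]; noncomm_ring
        _ = 0 := by rw [c3, mul_zero]
    calc _ = f 0 + (e 0 * M * f 0 + f 0 * (e 0 * M)) + e 0 * M * f 0 * (e 0 * M) := by noncomm_ring
      _ = _ := by rw [d1, d2, add_zero]
  have one : ∀ a, ¬ Commute (f a) (e a) := fun a c => by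
    have := h.ef a
    rw [c.eq, eq_sub_iff_add_eq, n2] at this
    exact zero_ne_one this
  have mem := fun x (hx : x ∈ X) => Submodule.subset_span (R := F) hx
  refine ⟨nrm φ (Submodule.span F X), fun g hg x hx => ?_, fun c => ?_, _,
    Subgroup.commutator_mem_commutator (Subgroup.mem_top a2) (Subgroup.mem_top a1), fun x hx => ?_,
    fun c => ?_⟩
  · have : ∀ g ∈ S, φ g * x * φ g⁻¹ ∈ Submodule.span F X := fun g hg => by
      induction hx using Submodule.span_induction with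
      | mem x hx => exact mem _ (hS g hg x hx)
      | zero => simp
      | add x y _ _ a b => simpa [mul_add, add_mul] using add_mem a b
      | smul r x _ a => simpa using Submodule.smul_mem _ r a
    exact ⟨this g hg, by simpa using this g⁻¹ (S.inv_mem hg)⟩
  · have d := (c (Subgroup.commutator_mem_commutator (Subgroup.mem_top a3) (Subgroup.mem_top a1))
      _ (mem _ (hf 0))).1
    rw [(cj (e 1 * e 2) ((ce 1 0).mul_left (ce 2 0)) ((cf 0 1 (by decide)).symm.mul_left
      (cf 0 2 (by decide)).symm) _ (by rw [g2, mul_assoc])).2 (by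
        rw [mul_assoc, ← mul_assoc (e 2), (ce 2 1).eq, mul_assoc, z])] at d
    obtain ⟨r, hr⟩ := span_scalar hX d (mem _ (hf 1))
    have d1 : e 2 = r • 1 := by
      rw [← hr, add_mul, mul_add, h.ff 1 0, ← mul_assoc, h.ef, mul_assoc,
        ← (cf 1 2 (by decide)).eq, add_add_add_comm, n2]
      noncomm_ring
    exact one 2 (by rw [d1]; exact (Commute.one_right _).smul_right r)
  · have d := (cj (e 2) (ce 2 0) (cf 0 2 (by decide)).symm _ g1).1
    rw [d, and_self, g1]
    obtain ⟨r, hr⟩ := span_scalar hX hx (mem _ (he 0))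
    obtain ⟨s, hs⟩ := span_scalar hX hx (mem _ (he 2))
    have d0 : ∀ a (t : F), x * e a + e a * x = t • 1 → e a * x = x * e a + t • 1 := fun a t ht => by
      rw [← ht, ← add_assoc, n2, zero_add]
    have d1 : e 0 * e 2 * x = x * (e 0 * e 2) + (r • e 2 + s • e 0) := by
      rw [mul_assoc, d0 _ _ hs, mul_add, ← mul_assoc, d0 _ _ hr]
      simp [add_mul, mul_assoc, add_assoc]
    have d2 : e 0 * e 2 * x * (e 0 * e 2) = 0 := by
      rw [d1]
      simp only [add_mul, smul_mul_assoc, mul_assoc, z]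
      rw [(ce 0 2).eq, z]
      simp [← mul_assoc (e 0), (ce 0 2).eq, mul_assoc, z]
    have : (1 + e 0 * e 2) * x * (1 + e 0 * e 2) = x + (r • e 2 + s • e 0) := by
      calc _ = x + (e 0 * e 2 * x + x * (e 0 * e 2)) + e 0 * e 2 * x * (e 0 * e 2) := by noncomm_ring
        _ = _ := by rw [d2, d1, add_zero, add_right_comm (x * _), n2, zero_add]
    rw [this]
    exact add_mem hx (add_mem (Submodule.smul_mem _ _ (mem _ (he 2)))
      (Submodule.smul_mem _ _ (mem _ (he 0))))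
  · have d := hS' _ c
    rw [(cj (e 2) (ce 2 0) (cf 0 2 (by decide)).symm _ g1).2 (h.e0 2)] at d
    rcases d with d | d
    · exact one 0 (by simpa using d.sub_left (ce 2 0))
    · exact one 2 (by simpa using (d.sub_left (show Commute (f 0) (f 2) from h.ff 0 2)).symm)

/-- Quadratic elements with scalar squares have a scalar anticommutator. -/
theorem anti (h2 : (2 : R) = 0) {a b : R} {c d s p : F} (ha : a * a = c • 1) (hb : b * b = d • 1)
    (h : (a + b) * (a + b) = s • (a + b) + p • 1) : ∃ r : F, a * b + b * a = r • 1 := by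
  have h1 : a * b + b * a = s • (a + b) + (p - c - d) • 1 := by
    rw [sub_smul, sub_smul, ← ha, ← hb, ← add_sub_assoc, ← add_sub_assoc, ← h]; noncomm_ring
  by_cases hs : s = 0
  · exact ⟨_, by rw [h1, hs, zero_smul, zero_add]⟩
  have h3 : a * (a * b + b * a) = (a * b + b * a) * a := by
    rw [mul_add, add_mul, ← mul_assoc, mul_assoc b, ha, mul_assoc]; simp [add_comm]
  rw [h1] at h3
  simp only [mul_add, add_mul, mul_smul_comm, smul_mul_assoc, mul_one, one_mul, add_left_inj,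
    smul_add, add_right_inj] at h3
  exact ⟨0, by rw [smul_right_injective R hs h3, ← two_mul, h2]; simp⟩

end Cfsg.Agent.H9.Spin
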