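import Cfsg.Agent.H9.Spin1
import Cfsg.Agent.H18.SwD
import Cfsg.Agent.H18.NmB

/-! Tensor powers of small symplectic spaces in characteristic two: the spin overgroup. -/

set_option autoImplicit false

namespace Cfsg.Agent.H9.Spin

open Module QuadraticMap H13 H12 H18 Function Matrix Cfsg.Geo

section
variable {F V U W : Type*} [Field F] [AddCommGroup V] [Module F V] [AddCommGroup U] [Module F U]
  [AddCommGroup W] [Module F W] {Q : QuadraticForm F V} {β : W →ₗ[F] W →ₗ[F] F} {κ : Type*}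
  [Fintype κ] [DecidableEq κ] {T : κ → TS F U W V} {pv : (κ → W) → V} {ζ : F}

/-- Adjoint pairs. -/
def Adj (β : W →ₗ[F] W →ₗ[F] F) (a a' : End F W) : Prop := ∀ u v, β (a u) v = β u (a' v)

theorem Adj.mul {a a' b b' : End F W} (h : Adj β a a') (h' : Adj β b b') : Adj β (a * b) (b' * a') :=
  fun u v => (h _ _).trans (h' _ _)

/-- The natural representation. -/
def rep (Q : QuadraticForm F V) : OG Q →* End F V :=
  LinearEquiv.automorphismGroup.toLinearMapMonoidHom.comp (OG Q).subtype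

theorem rep_apply (g : OG Q) (v : V) : rep Q g v = g.1 v := rfl

variable (H : PV (polarBilin Q) β T pv ζ)
include H

theorem adj_i {a a' : End F W} (h : Adj β a a') (l : κ) :
    Adj (polarBilin Q) ((T l).i a) ((T l).i a') := fun u v => by
  refine gv_ind H (p := fun u => polarBilin Q ((T l).i a u) v = polarBilin Q u ((T l).i a' v))
    (fun c x => ?_) (fun _ _ a b => by simp only [map_add, LinearMap.add_apply, a, b]) u
  refine gv_ind H (p := fun v => polarBilin Q ((T l).i a (c • pv x)) v =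
    polarBilin Q (c • pv x) ((T l).i a' v)) (fun d y => ?_)
    (fun _ _ a b => by simp only [map_add, a, b]) v
  simp only [map_smul, LinearMap.smul_apply, H.i_pv, gv_map H _ _ l, update_self, h _ _]
  congr 4
  exact Finset.prod_congr rfl fun m hm => by simp [Finset.ne_of_mem_erase hm]

theorem ev_upd {y y' : W} (hy : β y y' = 1) (l : κ) (u v : W) :
    polarBilin Q (pv (update (fun _ => y) l u)) (pv (update (fun _ => y') l v)) = ζ * β u v := by
  rw [gv_map H _ _ l, Finset.prod_eq_one fun m hm => by simp [Finset.ne_of_mem_erase hm, hy]]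
  simp

theorem exists_iso (h2 : (2 : F) = 0) (h0 : ∀ x, Q (pv x) = 0) {N : End F V}
    (ha : Adj (polarBilin Q) N N) (hN : N * N = 0)
    (hp : ∀ x, ∃ z, N (pv x) = pv z ∧ polarBilin Q (pv x) (pv z) = 0) : ∃ g, rep Q g = 1 + N := by
  have a1 : ∀ v, N (N v) = 0 := fun v => LinearMap.congr_fun hN v
  have a2 : ∀ v : V, v + v = 0 := fun v => by rw [← two_smul F, h2, zero_smul]
  refine ⟨⟨LinearEquiv.ofInvolutive (1 + N) fun v => by simp [a1, add_assoc, a2], fun v => ?_⟩, rfl⟩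
  refine gv_ind H (p := fun v => Q (v + N v) = Q v) (fun c x => ?_) (fun u w a b => ?_) v
  · obtain ⟨z, h3, h4⟩ := hp x
    rw [map_smul, h3, ← smul_add, Q_smul, Q_smul, Q_add, h0, h0]
    simpa using .inr h4
  · rw [map_add N, add_add_add_comm, Q_add, a, b, Q_add]
    have b1 := ha u w
    have b2 := ha u (N w)
    simp only [polarBilin_apply_apply, a1, polar_zero_right] at b1 b2
    rw [polar_add_left, polar_add_right, polar_add_right, b1, b2]
    linear_combination polar Q u (N w) * h2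

theorem spin_abs [Nontrivial V] (h2 : (2 : F) = 0) (h0 : ∀ x, Q (pv x) = 0) (hW : Wr T)
    (E : EF β (-1)) {y y' : W} (hy : β y y' = 1) (p : Prop)
    (hq : ∀ a : End F W, (p → ∀ u, β (a u) u = 0) → ∃ s r : F, a * a = s • a + r • 1)
    (l : Fin 4 → κ) (a b : Fin 4 → End F W)
    (r1 : ∀ i j, l i = l j → a i * a j = a j * a i ∧ b i * b j = b j * b i ∧
      (i ≠ j → b i * a j = a j * b i))
    (r2 : ∀ i, a i * a i = 0 ∧ b i * b i = 0 ∧ b i * a i = 1 - a i * b i)
    (r3 : ∀ i, Adj β (a i) (a i) ∧ Adj β (b i) (b i))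
    (r4 : p → ∀ i, (∃ c c', a i = c' + c ∧ Adj β c' c ∧ Adj β c c') ∧
      ∃ c c', b i = c' + c ∧ Adj β c' c ∧ Adj β c c')
    (l02 : l 0 ≠ l 2) (l03 : l 0 ≠ l 3) (l12 : l 1 ≠ l 2) (l13 : l 1 ≠ l 3) (l23 : p ∨ l 2 ≠ l 3)
    (S : Subgroup (OG Q)) (hS : ∀ g ∈ S, PW T g.1) :
    ∃ K : Subgroup (OG Q), S ≤ K ∧ ¬ Om Q ≤ K ∧ ∃ g ∈ Om Q, g ∈ K ∧ g ∉ S := by
  have h2' : (2 : End F V) = 0 := by rw [← map_ofNat (algebraMap F (End F V)) 2, h2, map_zero]
  have cm : ∀ {i j} {c d : End F W}, (i = j → c * d = d * c) →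
      (T i).i c * (T j).i d = (T j).i d * (T i).i c := fun {i j c d} h => by
    by_cases e : i = j
    · subst e; rw [← map_mul, h rfl, map_mul]
    · exact hW.cm i j e c d
  have h : Cl (fun i => (T (l i)).i (a i)) fun i => (T (l i)).i (b i) :=
    ⟨fun i j => cm fun e => (r1 i j e).1, fun i j => cm fun e => (r1 i j e).2.1,
      fun i j c => cm fun e => (r1 i j e).2.2 c, fun i => by rw [← map_mul, (r2 i).1, map_zero],
      fun i => by rw [← map_mul, (r2 i).2.1, map_zero],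
      fun i => by rw [← map_mul, (r2 i).2.2, map_sub, map_one, map_mul]⟩
  have cj : ∀ g ∈ S, ∀ m, ∃ m', ∀ c, ∃ c', rep Q g * (T m).i c * rep Q g⁻¹ = (T m').i c' :=
    fun g hg m => by
      obtain ⟨π, hπ⟩ := hS g hg
      refine ⟨π m, fun c => ?_⟩
      obtain ⟨c', e⟩ := hπ m c
      exact ⟨c', e ▸ LinearMap.ext fun v => (TS.act_i ..).symm⟩
  have alt : ∀ {x c c' : End F W}, x = c' + c → Adj β c' c → ∀ u, β u (x u) = 0 :=
    fun {x c c'} e1 e2 u => by
      rw [e1, LinearMap.add_apply, map_add, ← e2, E.symm u]; simp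
  let X : Set (End F V) := {x | ∃ m c, x = (T m).i c ∧ (∃ r : F, x * x = r • 1) ∧ (p → ∃ d, ∀ u v,
    polarBilin Q (x u) v = polarBilin Q ((T m).i d u) v + polarBilin Q u ((T m).i d v))}
  have mem : ∀ m (x : End F W), x * x = 0 → (p → ∃ c c', x = c' + c ∧ Adj β c' c ∧ Adj β c c') →
      (T m).i x ∈ X := fun m x e1 e2 => ⟨m, x, rfl, ⟨0, by rw [← map_mul, e1]; simp⟩, fun hp => by
    obtain ⟨c, c', rfl, e3, -⟩ := e2 hp
    exact ⟨c, fun u v => by rw [map_add, LinearMap.add_apply, map_add, LinearMap.add_apply,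
      adj_i H e3, add_comm]⟩⟩
  have sa := fun i => adj_i H (r3 i).1 (l i)
  refine core (F := F) h2' (rep Q) (X := X) ?_ S ?_ h (fun i => mem _ _ (r2 i).1 fun c => (r4 c i).1)
    (fun i => mem _ _ (r2 i).2.1 fun c => (r4 c i).2) (fun g hg => ?_) ?_ ?_ ?_
  · rintro _ ⟨m, c, rfl, ⟨r, hr⟩, hc⟩ _ ⟨m', c', rfl, ⟨r', hr'⟩, hc'⟩
    by_cases e : m = m'
    · subst e
      have k : ∀ c : End F W, (∃ d, ∀ u v, polarBilin Q ((T m).i c u) v =
          polarBilin Q ((T m).i d u) v + polarBilin Q u ((T m).i d v)) → ∀ u, β (c u) u = 0 := by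
        rintro c ⟨d, hd⟩ u
        have := hd (pv (update (fun _ => y) m u)) (pv (update (fun _ => y') m u))
        simp only [H.i_pv, update_self, update_idem, ev_upd H hy] at this
        rw [E.symm u, ← mul_add, mul_right_inj' H.ne] at this
        simpa using this
      obtain ⟨s, t, ht⟩ := hq (c + c') fun hp u => by simp [k c (hc hp), k c' (hc' hp)]
      exact anti h2' hr hr' (s := s) (p := t) (by simpa using congrArg (T m).i ht)
    · exact ⟨0, by rw [(hW.cm m m' e c c').eq, ← two_mul, h2']; simp⟩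
  · rintro g hg _ ⟨m, c, rfl, ⟨r, hr⟩, hc⟩
    obtain ⟨m', hm⟩ := cj g hg m
    obtain ⟨c', e⟩ := hm c
    refine ⟨m', c', e, ⟨r, ?_⟩, fun hp => ?_⟩
    · calc _ = rep Q g * ((T m).i c * (rep Q g⁻¹ * rep Q g) * (T m).i c) * rep Q g⁻¹ := by noncomm_ring
        _ = _ := by rw [← map_mul, inv_mul_cancel, map_one, mul_one, hr]; simp [← map_mul]
    · obtain ⟨d, hd⟩ := hc hp
      obtain ⟨d', e'⟩ := hm d
      refine ⟨d', fun u v => ?_⟩
      have := hd ((g⁻¹).1 u) ((g⁻¹).1 v)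
      rw [← e']
      simpa only [polarBilin_apply_apply, End.mul_apply, rep_apply, OG_polar_left, OG_polar_right g u]
        using this
  · obtain ⟨m', hm⟩ := cj g hg (l 0)
    obtain ⟨c', e⟩ := hm (b 0)
    simp only [e]
    by_cases e : m' = l 0
    · exact .inr (hW.cm _ _ (e ▸ l02) _ _)
    · exact .inl (hW.cm _ _ e _ _)
  · refine exists_iso H h2 h0 ?_ ?_ fun x => ⟨_, by rw [End.mul_apply, H.i_pv, H.i_pv],
      gv_zero H (l 0) (by simp [l02, l03, E.alt])⟩
    · have := (sa 2).mul (adj_i H (r3 3).2 (l 3))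
      rwa [h.fe 3 2 (by decide)] at this
    · rw [mul_assoc, ← mul_assoc ((T (l 3)).i _), h.fe 3 2 (by decide), ← mul_assoc, ← mul_assoc, h.e0 2]
      simp
  · refine exists_iso H h2 h0 ?_ ?_ fun x => ⟨_, by rw [End.mul_apply, H.i_pv, H.i_pv], ?_⟩
    · have := (sa 0).mul (sa 3)
      rwa [h.ee 3 0] at this
    · rw [mul_assoc, ← mul_assoc ((T (l 3)).i _), h.ee 3 0, ← mul_assoc, ← mul_assoc, h.e0 0]
      simp
    · rcases l23 with c | c
      · obtain ⟨_, _, e1, e2, -⟩ := (r4 c 3).1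
        exact gv_zero H (l 3) (by simp [l03.symm, alt e1 e2])
      · exact gv_zero H (l 2) (by simp [l02.symm, c, E.alt])
  · refine exists_iso H h2 h0 ?_ ?_ fun x => ⟨_, by
      rw [End.mul_apply, End.mul_apply, H.i_pv, H.i_pv, H.i_pv], ?_⟩
    · have := ((sa 0).mul (sa 1)).mul (sa 3)
      rwa [h.ee 1 0, (Commute.mul_right (h.ee 3 0) (h.ee 3 1)).eq] at this
    · rw [mul_assoc, ← mul_assoc ((T (l 3)).i _), (Commute.mul_right (h.ee 3 0) (h.ee 3 1)).eq,
        mul_assoc _ ((T (l 3)).i _), h.e0 3]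
      simp
    · rcases l23 with c | c
      · obtain ⟨_, _, e1, e2, -⟩ := (r4 c 3).1
        exact gv_zero H (l 3) (by simp [l03.symm, l13.symm, alt e1 e2])
      · exact gv_zero H (l 2) (by simp [l02.symm, l12.symm, c, E.alt])

end

end Cfsg.Agent.H9.Spin
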