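import Cfsg.Agent.H9.Spin2

/-! The spin overgroup: the concrete Clifford systems. -/

set_option autoImplicit false

namespace Cfsg.Agent.H9.Spin

open Module QuadraticMap H13 H12 H18 Function Matrix Cfsg.Geo

section
variable {F W : Type*} [Field F] [AddCommGroup W] [Module F W] {β : W →ₗ[F] W →ₗ[F] F}

theorem exists_basis {n : ℕ} [NeZero n] (hn : finrank F W = n) (v f : Fin n → W)
    (h1 : Pairwise fun i j => β (f i) (v j) = 0) (h2 : ∀ i, β (f i) (v i) = 1) :
    ∃ B : Basis (Fin n) F W, (∀ i, B i = v i) ∧ ∀ w i, B.repr w i = β (f i) w := by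
  let B := basisOfLinearIndependentOfCardEqFinrank
    (LinearIndependent.of_pairwise_dual_eq_zero_one v (fun i => β (f i)) h1 h2) (by simp [hn])
  have hB : ∀ i, B i = v i := fun i => by simp [B]
  refine ⟨B, hB, fun w i => LinearMap.congr_fun (f := B.coord i) (B.ext fun j => ?_) w⟩
  by_cases e : i = j
  · subst e; rw [hB, h2, ← hB]; simp
  · rw [hB, h1 e, ← hB]; simp [Ne.symm e]

theorem quad_two (B : Basis (Fin 2) F W) (a : End F W) : ∃ s r : F, a * a = s • a + r • 1 := by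
  obtain ⟨A, rfl⟩ := (Matrix.toLinAlgEquiv B).surjective a
  refine ⟨A 0 0 + A 1 1, A 0 1 * A 1 0 - A 0 0 * A 1 1, ?_⟩
  rw [← map_mul, ← map_one (Matrix.toLinAlgEquiv B), ← map_smul, ← map_smul, ← map_add]
  congr 1
  ext i j
  fin_cases i <;> fin_cases j <;> simp [Matrix.mul_apply, Fin.sum_univ_two] <;> ring

theorem quad_mat (h2 : (2 : F) = 0) (S : Fin 4 → Fin 4 → F) (h0 : ∀ i, S i i = 0)
    (hs : ∀ i j, S i j = S j i) (A : Matrix (Fin 4) (Fin 4) F) (hA : ∀ i j, A i j = S i.rev j) :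
    ∃ s r : F, A * A = s • A + r • 1 := by
  obtain rfl : A = !![S 0 3, S 1 3, S 2 3, 0; S 0 2, S 1 2, 0, S 2 3; S 0 1, 0, S 1 2, S 1 3;
      0, S 0 1, S 0 2, S 0 3] := by
    ext i j
    rw [hA]
    fin_cases i <;> fin_cases j <;> first | exact h0 _ | rfl | exact hs _ _
  refine ⟨S 0 3 + S 1 2, S 0 3 * S 1 2 + S 1 3 * S 0 2 + S 2 3 * S 0 1, ?_⟩
  ext i j
  fin_cases i <;> fin_cases j <;> simp [Matrix.mul_apply, Fin.sum_univ_four] <;> grind

/-- The data needed on one factor. -/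
structure Slots (β : W →ₗ[F] W →ₗ[F] F) (p : Prop) (a b : Fin 2 → End F W) : Prop where
  hq : ∀ a : End F W, (p → ∀ u, β (a u) u = 0) → ∃ s r : F, a * a = s • a + r • 1
  r1 : p → ∀ i j, a i * a j = a j * a i ∧ b i * b j = b j * b i ∧ (i ≠ j → b i * a j = a j * b i)
  r2 : ∀ i, a i * a i = 0 ∧ b i * b i = 0 ∧ b i * a i = 1 - a i * b i
  r3 : ∀ i, Adj β (a i) (a i) ∧ Adj β (b i) (b i)
  r4 : p → ∀ i, (∃ c c', a i = c' + c ∧ Adj β c' c ∧ Adj β c c') ∧
      ∃ c c', b i = c' + c ∧ Adj β c' c ∧ Adj β c c'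

variable (h2 : (2 : F) = 0) (E : EF β (-1)) {y y' : W} (hy : β y y' = 1)
include h2 E

theorem sym (u v : W) : β u v = β v u := by
  rw [E.symm]; linear_combination (-β v u) * h2

theorem adj_rk (z s : W) : Adj β ((β s).smulRight z) ((β z).smulRight s) := fun u v => by
  simp [sym h2 E u, mul_comm]

include hy

theorem slots_two (hn : finrank F W = 2) : ∃ a b, Slots β False a b := by
  have hy' : β y' y = 1 := (sym h2 E ..).trans hy
  obtain ⟨B, h1, -⟩ := exists_basis (β := β) hn ![y, y'] ![y', y]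
    (fun i j h => by fin_cases i <;> fin_cases j <;> simp_all [E.alt])
    fun i => by fin_cases i <;> simp [hy, hy']
  refine ⟨fun _ => (β y).smulRight y, fun _ => (β y').smulRight y', fun a _ => quad_two B a,
    nofun, fun _ => ⟨?_, ?_, ?_⟩, fun _ => ⟨adj_rk h2 E _ _, adj_rk h2 E _ _⟩, nofun⟩ <;>
  refine B.ext fun i => ?_ <;> rw [h1] <;> fin_cases i <;> simp [hy, hy', E.alt]

theorem slots_four [FiniteDimensional F W] (hn : finrank F W = 4) : ∃ a b, Slots β True a b := by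
  have hy' : β y' y = 1 := (sym h2 E ..).trans hy
  obtain ⟨z, z0, c1, c2⟩ : ∃ z, z ≠ 0 ∧ β y z = 0 ∧ β y' z = 0 := by
    by_contra! H
    have := LinearMap.finrank_le_finrank_of_injective (f := (β y).prod (β y'))
      ((injective_iff_map_eq_zero _).mpr fun z hz => by_contra fun c =>
        H z c (congrArg Prod.fst hz) (congrArg Prod.snd hz))
    simp [hn] at this
  obtain ⟨z', c3, c4, c5⟩ : ∃ z', β z z' = 1 ∧ β y z' = 0 ∧ β y' z' = 0 := by
    obtain ⟨w, hw⟩ := E.exists_one z0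
    exact ⟨w - β y' w • y - β y w • y', by simp [hw, E.comm0 c1, E.comm0 c2],
      by simp [hy, E.alt], by simp [hy', E.alt]⟩
  have c6 : β z' z = 1 := (sym h2 E ..).trans c3
  have d1 := E.comm0 c1
  have d2 := E.comm0 c2
  have d4 := E.comm0 c4
  have d5 := E.comm0 c5
  obtain ⟨B, h1, h3⟩ := exists_basis (β := β) hn ![y, z, z', y'] ![y', z', z, y]
    (fun i j h => by fin_cases i <;> fin_cases j <;> simp_all [E.alt])
    fun i => by fin_cases i <;> simp [*]
  let sh := fun z s => (β s).smulRight z + (β z).smulRight s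
  have a1 : ∀ z s, Adj β (sh z s) (sh z s) := fun z s u v => by
    simp only [sh, LinearMap.add_apply, map_add, adj_rk h2 E _ _ u v, add_comm]
  have a2 : ∀ z s, ∃ c c', sh z s = c' + c ∧ Adj β c' c ∧ Adj β c c' := fun z s =>
    ⟨_, _, rfl, adj_rk h2 E _ _, adj_rk h2 E _ _⟩
  refine ⟨![sh y z, sh y z'], ![sh z' y', sh z y'], fun a ha => ?_, fun _ i j => ⟨?_, ?_, fun h => ?_⟩,
    fun i => ⟨?_, ?_, ?_⟩, fun i => by fin_cases i <;> exact ⟨a1 _ _, a1 _ _⟩,
    fun _ i => by fin_cases i <;> exact ⟨a2 _ _, a2 _ _⟩⟩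
  · have b0 : ∀ u, β u (a u) = 0 := fun u => E.comm0 (ha trivial u)
    obtain ⟨s, r, h⟩ := quad_mat h2 (fun i j => β (B i) (a (B j))) (fun i => b0 _) (fun i j => by
      have := b0 (B i + B j)
      simp only [map_add, LinearMap.add_apply, b0] at this
      linear_combination this - β (B j) (a (B i)) * h2) (LinearMap.toMatrixAlgEquiv B a) fun i j => by
        rw [LinearMap.toMatrixAlgEquiv_apply, h3, h1 i.rev]
        fin_cases i <;> rfl
    exact ⟨s, r, (LinearMap.toMatrixAlgEquiv B).injective (by simpa using h)⟩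
  all_goals refine B.ext fun k => ?_; rw [h1]
  · fin_cases i <;> fin_cases j <;> fin_cases k <;> simp [*, sh, E.alt]
  · fin_cases i <;> fin_cases j <;> fin_cases k <;> simp [*, sh, E.alt]
  · fin_cases i <;> fin_cases j <;> (try exact absurd rfl h) <;> fin_cases k <;> simp [*, sh, E.alt]
  all_goals fin_cases i <;> fin_cases k <;> simp [*, sh, E.alt]

end

variable {ι : Type} [Fintype ι] [DecidableEq ι] {F : Type*} [Field F] {m : ℕ} {P : GL ι F}

theorem pw_of_mem {s : ℕ} {e : ι ≃ (Fin (s + 1) → Fin m)} {g : GL ι F}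
    (h : g ∈ tensorWreathSubgroup m (s + 1) e P) : PW (wT e P) (glEq ι F g) := by
  obtain ⟨s', hs, h⟩ := (mem_map_trans e P _ g).mp h
  obtain ⟨a, π, rfl⟩ := exists_eq_of_mem_wreath hs
  refine ⟨π, fun i X => ?_⟩
  obtain ⟨X, rfl⟩ := toLin'.surjective X
  exact ⟨toLin' (cj (a (π i)) X), by rw [act_wT_i, cj_trans h, cj_wreath_embT, wT_i]⟩

theorem nm_spin [Fintype F] {Q : (ι → F) → F} (hQ : IsNondegenerateQuadraticForm Q)
    (hn : 13 ≤ Fintype.card ι) (hc : ¬ Odd (Fintype.card F)) {t : ℕ} (ht : 2 ≤ t) (hm : m ≤ 4)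
    {e : ι ≃ (Fin t → Fin m)} {f₁ : (Fin m → F) → (Fin m → F) → F} (hf₁ : IsSymplecticForm f₁)
    (hT : IsTensorPowerFormStructure id (polar Q) f₁ e P) (h0 : ∀ x, Q (P.1 *ᵥ (pureV x ∘ e)) = 0) :
    ∃ L, tensorWreathSubgroup m t e P ⊓ omegaGL Q < L ∧ L < omegaGL Q := by
  obtain ⟨s, rfl⟩ : ∃ s, t = s + 1 := ⟨t - 1, by omega⟩
  have a1 := Fintype.card_congr e
  obtain ⟨r, a2⟩ := even_card_of_symplectic hf₁
  simp only [Fintype.card_fun, Fintype.card_fin] at a1 a2
  have a3 : 2 ≤ m := by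
    by_contra h; obtain rfl : m = 0 := by omega
    simp at a1; omega
  have : NeZero m := ⟨by omega⟩
  have : Nonempty ι := Fintype.card_pos_iff.mp (by omega)
  have h2 : (2 : F) = 0 := by_contra fun c => hc (two_ne_zero_iff_odd.mp c)
  have g1 := hform_of_symplectic hf₁
  obtain ⟨β, rfl⟩ : ∃ β : (Fin m → F) →ₗ[F] (Fin m → F) →ₗ[F] F, f₁ = (β · ·) :=
    ⟨g1.toSesq.toMap.flip, rfl⟩
  have E : EF β (-1) := ⟨g1.herm, g1.nondeg', by simp, fun s => ⟨0, (hf₁.alternating s).trans (by simp)⟩⟩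
  obtain ⟨ζ, H, -⟩ := pv_bil (B := polarBilin (mkQ hQ)) hT
  obtain ⟨y, y0⟩ := exists_ne (0 : Fin m → F)
  obtain ⟨y', hy⟩ := E.exists_one y0
  have a7 : ∀ g, glEq ι F (ofOG hQ g) = g.1 := fun g => LinearEquiv.ext (ofOG_mulVec hQ g)
  obtain ⟨K, b1, b2, b3⟩ : ∃ K : Subgroup (OG (mkQ hQ)),
      (tensorWreathSubgroup m (s + 1) e P).comap (jO hQ) ≤ K ∧ ¬ H13.Om _ ≤ K ∧ ∃ g ∈ H13.Om _, g ∈ K ∧
        g ∉ (tensorWreathSubgroup m (s + 1) e P).comap (jO hQ) := by
    obtain rfl | rfl : m = 2 ∨ m = 4 := by omega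
    · obtain ⟨a, b, h⟩ := slots_two h2 E hy (by simp)
      have : 4 ≤ s + 1 := by
        by_contra c
        obtain rfl | rfl : s = 1 ∨ s = 2 := by omega
        all_goals omega
      have hl := Fin.castLE_injective this
      exact spin_abs H h2 h0 wr_wT E hy False h.hq (Fin.castLE this) (fun _ => a 0) (fun _ => b 0)
        (fun i j c => ⟨rfl, rfl, fun d => absurd (hl c) d⟩) (fun _ => h.r2 0) (fun _ => h.r3 0) nofun
        (hl.ne (by decide)) (hl.ne (by decide)) (hl.ne (by decide)) (hl.ne (by decide))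
        (.inr (hl.ne (by decide))) _ fun g hg => a7 g ▸ pw_of_mem hg
    · obtain ⟨a, b, h⟩ := slots_four h2 E hy (by simp)
      have hl := Fin.castLE_injective ht
      exact spin_abs H h2 h0 wr_wT E hy True h.hq (fun i => Fin.castLE ht (![0, 0, 1, 1] i))
        (fun i => a (![0, 1, 0, 1] i)) (fun i => b (![0, 1, 0, 1] i))
        (fun i j c => ⟨(h.r1 trivial _ _).1, (h.r1 trivial _ _).2.1, fun d => (h.r1 trivial _ _).2.2 (by
          have := hl c
          clear c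
          revert i j; decide)⟩) (fun _ => h.r2 _) (fun _ => h.r3 _) (fun c _ => h.r4 c _)
        (hl.ne (by decide)) (hl.ne (by decide)) (hl.ne (by decide)) (hl.ne (by decide))
        (.inl trivial) _ fun g hg => a7 g ▸ pw_of_mem hg
  exact nm_of hQ K (fun g _ hg => b1 hg) b2 b3

end Cfsg.Agent.H9.Spin
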