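import Cfsg.Agent.H9.Offender
import Cfsg.Agent.H9.NPC

/-! The characteristic subgroup `W(S)` of Stellmacher. -/

set_option autoImplicit false

namespace Cfsg.Agent.H9

open Subgroup
open scoped commutatorElement

universe u

variable {p : ℕ}

theorem center_eq_top_inf (S : Type*) [Group S] :
    center S = ⊤ ⊓ centralizer ((⊤ : Subgroup S) : Set S) := by
  rw [top_inf_eq, coe_top, centralizer_univ]

theorem map_omegaCenterThompson {S H : Type*} [Group S] [Group H] {τ : S →* H}
    (hτ : Function.Injective τ) : (omegaCenterThompson p S).map τ =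
      omegaOne p ((thompsonSubgroup p S).map τ ⊓
        centralizer (((thompsonSubgroup p S).map τ : Subgroup H) : Set H)) := by
  rw [omegaCenterThompson, map_omegaOne hτ, map_inf_centralizer hτ]

theorem omegaOne_center_le_W (S : Type u) [Group S] :
    omegaOne p (center S) ≤ stableNormalClosure p S := le_sInf fun _ h => h.1

theorem omegaOne_center_le_omegaCenterThompson (S : Type*) [Group S] [Finite S] :
    omegaOne p (center S) ≤ omegaCenterThompson p S := by
  rw [omegaCenterThompson_eq, center_eq_top_inf]; exact omegaOne_center_le p ⊤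

theorem normal_map_omegaCenterThompson {S H : Type u} [Group S] [Group H] {τ : S →* H}
    (h : IsStableEmbedding p τ) : ((omegaCenterThompson p S).map τ).Normal := by
  rw [map_omegaCenterThompson h.1]
  have := h.2.2.2.2.1
  exact omegaOne_normal _ _

theorem W_le_omegaCenterThompson (S : Type u) [Group S] [Finite S] :
    stableNormalClosure p S ≤ omegaCenterThompson p S :=
  sInf_le ⟨omegaOne_center_le_omegaCenterThompson S, fun _ _ _ h => normal_map_omegaCenterThompson h⟩

theorem isEA_omegaCenterThompson (S : Type*) [Group S] :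
    IsElementaryAbelian p (omegaCenterThompson p S) := isEA_omegaZ _

theorem isEA_W (S : Type u) [Group S] [Finite S] : IsElementaryAbelian p (stableNormalClosure p S) :=
  isEA_of_le (isEA_omegaCenterThompson S) (W_le_omegaCenterThompson S)

theorem normal_map_W {S H : Type u} [Group S] [Finite S] [Group H] {τ : S →* H}
    (h : IsStableEmbedding p τ) : ((stableNormalClosure p S).map τ).Normal := by
  constructor
  rintro _ ⟨x, hx, rfl⟩ g
  obtain ⟨y, -, hy⟩ := (normal_map_omegaCenterThompson h).conj_mem _
    (mem_map_of_mem τ (W_le_omegaCenterThompson S hx)) g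
  refine ⟨y, mem_sInf.mpr fun W hW => ?_, hy⟩
  obtain ⟨z, hz, hz'⟩ := (hW.2 H τ h).conj_mem _ (mem_map_of_mem τ (mem_sInf.mp hx W hW)) g
  rwa [← h.1 (hz'.trans hy.symm)]

theorem map_omegaCenterThompson_equiv {S S' : Type*} [Group S] [Group S'] (η : S ≃* S') :
    (omegaCenterThompson p S).map η.toMonoidHom = omegaCenterThompson p S' := by
  rw [map_omegaCenterThompson η.injective, map_thompson_equiv, omegaCenterThompson]

theorem isStableEmbedding_comp_equiv {S S' H : Type u} [Group S] [Group S'] [Group H] {τ : S →* H}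
    (h : IsStableEmbedding p τ) (η : S' ≃* S) : IsStableEmbedding p (τ.comp η.toMonoidHom) := by
  obtain ⟨h1, h2, ⟨P, h3⟩, h4, h5, h6⟩ := h
  refine ⟨h1.comp η.injective, h2, ⟨P, ?_⟩, h4, ?_, fun V _ hV => h6 V ?_⟩
  · rw [h3, MonoidHom.range_comp, (MonoidHom.range_eq_top.mpr η.surjective :
      η.toMonoidHom.range = ⊤), MonoidHom.range_eq_map]
  · rwa [← map_map, map_thompson_equiv]
  · rwa [← map_map, map_omegaCenterThompson_equiv] at hV

theorem map_W_le {S S' : Type u} [Group S] [Group S'] (η : S ≃* S') :
    (stableNormalClosure p S).map η.toMonoidHom ≤ stableNormalClosure p S' := by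
  refine le_sInf fun W hW => map_le_iff_le_comap.mpr (sInf_le ⟨?_, fun H _ τ hτ => ?_⟩)
  · rw [← map_le_iff_le_comap, map_omegaOne η.injective]
    refine le_trans (omegaOne_mono _ ?_) hW.1
    rintro _ ⟨x, hx, rfl⟩
    replace hx := mem_center_iff.mp hx
    rw [mem_center_iff]
    intro g
    obtain ⟨g, rfl⟩ := η.surjective g
    show η g * η x = η x * η g
    rw [← map_mul, ← map_mul, hx g]
  · have := hW.2 H _ (isStableEmbedding_comp_equiv hτ η.symm)
    rwa [← map_map, map_equiv_eq_comap_symm'] at this

theorem map_W_equiv {S S' : Type u} [Group S] [Group S'] (η : S ≃* S') :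
    (stableNormalClosure p S).map η.toMonoidHom = stableNormalClosure p S' :=
  H1.map_eq_of_map_le_of_map_symm_le (map_W_le η) (map_W_le η.symm)

theorem W_characteristic (S : Type u) [Group S] : (stableNormalClosure p S).Characteristic :=
  characteristic_iff_map_eq.mpr map_W_equiv

theorem W_ne_bot [Fact p.Prime] {S : Type u} [Group S] [Finite S] [Nontrivial S]
    (hS : IsPGroup p S) : stableNormalClosure p S ≠ ⊥ := fun h => by
  have := omegaOne_center_le_W (p := p) S
  rw [h, le_bot_iff, center_eq_top_inf] at this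
  exact omegaZ_ne_bot (hS.to_subgroup ⊤) top_ne_bot this

/-- If all conjugates of `x` centralize `W`, then `x` centralizes the normal closure. -/
theorem mem_centralizer_normalClosure {G : Type*} [Group G] {W : Subgroup G} {x : G}
    (h : ∀ g : G, g * x * g⁻¹ ∈ centralizer (W : Set G)) :
    x ∈ centralizer (normalClosure (W : Set G) : Set G) := by
  have h1 : normalClosure ({x} : Set G) ≤ centralizer (W : Set G) := by
    rw [normalClosure, closure_le]
    intro y hy
    obtain ⟨z, hz, hzy⟩ := Group.mem_conjugatesOfSet_iff.mp hy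
    rw [Set.mem_singleton_iff.mp hz] at hzy
    obtain ⟨g, rfl⟩ := isConj_iff.mp hzy
    exact h g
  have h2 : normalClosure (W : Set G) ≤ centralizer (normalClosure ({x} : Set G) : Set G) :=
    normalClosure_le_normal (le_centralizer_iff.mp h1)
  exact le_centralizer_iff.mp h2 (subset_normalClosure rfl)

theorem quadratic_conj {G : Type*} [Group G] {V : Subgroup G} [V.Normal] {x : G}
    (h : ⁅⁅V, zpowers x⁆, zpowers x⁆ = ⊥) (g : G) :
    ⁅⁅V, zpowers (g * x * g⁻¹)⁆, zpowers (g * x * g⁻¹)⁆ = ⊥ := by
  have := congrArg (map (MulAut.conj g).toMonoidHom) h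
  rwa [map_commutator, map_commutator, MonoidHom.map_zpowers, Subgroup.map_bot,
    map_conj_eq_iff.mpr (by rw [normalizer_eq_top]; trivial)] at this

theorem quadratic_of_mul {G : Type*} [Group G] {V : Subgroup G} [V.Normal] {c s : G}
    (hc : c ∈ centralizer (V : Set G)) (h : ⁅⁅V, zpowers (c * s)⁆, zpowers (c * s)⁆ = ⊥) :
    ⁅⁅V, zpowers s⁆, zpowers s⁆ = ⊥ := by
  have key : ∀ X : Subgroup G, X ≤ V → ⁅X, zpowers s⁆ ≤ ⁅X, zpowers (c * s)⁆ := by
    intro X hX
    rw [commutator_comm, commutator_comm X]
    refine H1.commutator_le_of_forall_mul fun k hk => ?_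
    have : zpowers s ≤ zpowers (c * s) ⊔ centralizer (V : Set G) := by
      rw [zpowers_le, sup_comm]
      have := mul_mem (mem_sup_left (inv_mem hc)) (mem_sup_right (mem_zpowers (c * s)))
      rwa [inv_mul_cancel_left] at this
    obtain ⟨a, ha, b, hb, e⟩ := (mem_sup_of_le_normalizer_right
      (by rw [normalizer_eq_top]; exact le_top)).mp (this hk)
    exact ⟨a, ha, b, centralizer_anti hX hb, e⟩
  rw [eq_bot_iff, ← h]
  exact (key _ (commutator_le_left _ _)).trans (commutator_mono (key _ le_rfl) le_rfl)

/-- The basic step: quadratic elements centralize a normal closure. -/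
theorem mem_centralizer_normalClosure_of_stable {G : Type*} [Group G] [Finite G] [Fact p.Prime]
    (S : Sylow p G) {W : Subgroup G} (hst : IsPStableOn p (normalClosure (W : Set G)))
    (hW : ∀ s ∈ (S : Subgroup G), ⁅⁅W, zpowers s⁆, zpowers s⁆ = ⊥ → s ∈ centralizer (W : Set G))
    {x : G} (hx : ⁅⁅normalClosure (W : Set G), zpowers x⁆, zpowers x⁆ = ⊥) :
    x ∈ centralizer (normalClosure (W : Set G) : Set G) := by
  refine mem_centralizer_normalClosure fun g => ?_
  have h1 := quadratic_conj hx g
  obtain ⟨c, hc, s, hs, e⟩ := (mem_sup_of_le_normalizer_left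
    (by rw [normalizer_eq_top]; exact le_top)).mp
    (opMod_le_sup_sylow _ S (isPStableOn_iff.mp hst _ h1))
  rw [← e] at h1 ⊢
  refine mul_mem (centralizer_anti le_normalClosure hc) (hW s hs ?_)
  rw [eq_bot_iff, ← quadratic_of_mul hc h1]
  exact commutator_mono (commutator_mono le_normalClosure le_rfl) le_rfl

theorem W_quadratic [Fact p.Prime] {S : Type u} [Group S] [Finite S] (x : S)
    (hq : ⁅⁅stableNormalClosure p S, zpowers x⁆, zpowers x⁆ = ⊥) :
    x ∈ centralizer (stableNormalClosure p S : Set S) := by
  obtain ⟨W, ⟨h1, h2, h3⟩, hmax⟩ := Set.Finite.exists_maximal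
    (s := {W : Subgroup S | omegaOne p (center S) ≤ W ∧ W ≤ stableNormalClosure p S ∧
      ∀ x : S, ⁅⁅W, zpowers x⁆, zpowers x⁆ = ⊥ → x ∈ centralizer (W : Set S)}) (Set.toFinite _)
    ⟨omegaOne p (center S), le_rfl, omegaOne_center_le_W S, fun x _ y hy =>
      (mem_center_iff.mp (omegaOne_le _ _ hy) x).symm⟩
  have : stableNormalClosure p S = W := by
    refine le_antisymm (sInf_le ⟨h1, fun H _ τ hτ => ?_⟩) h2
    have := normal_map_W hτ
    have := hτ.2.1
    have k1 : normalClosure (W.map τ : Set H) ≤ (stableNormalClosure p S).map τ :=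
      normalClosure_le_normal (map_mono h2)
    have k2 : ((normalClosure (W.map τ : Set H)).comap τ).map τ = normalClosure (W.map τ : Set H) :=
      map_comap_eq_self (k1.trans (map_le_range _ _))
    have k3 : W ≤ (normalClosure (W.map τ : Set H)).comap τ :=
      map_le_iff_le_comap.mp le_normalClosure
    have k4 := hmax (y := (normalClosure (W.map τ : Set H)).comap τ) ⟨h1.trans k3,
      (comap_mono k1).trans (comap_map_eq_self_of_injective hτ.1 _).le, fun x hx => ?_⟩ k3
    · rw [le_antisymm k3 k4, k2]; infer_instance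
    · obtain ⟨P, hP⟩ := hτ.2.2.1
      have := mem_centralizer_normalClosure_of_stable P (W := W.map τ)
        (hτ.2.2.2.2.2 _ (k1.trans (map_mono (W_le_omegaCenterThompson S)))) (fun s hs hq => by
          rw [hP] at hs
          obtain ⟨s, rfl⟩ := hs
          rw [← MonoidHom.map_zpowers, ← map_commutator, ← map_commutator,
            map_eq_bot_iff_of_injective _ hτ.1] at hq
          rintro _ ⟨y, hy, rfl⟩
          rw [← map_mul, ← map_mul, h3 s hq y hy]) (x := τ x)
        (by rw [← k2, ← MonoidHom.map_zpowers, ← map_commutator, ← map_commutator, hx,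
          Subgroup.map_bot])
      intro y hy
      apply hτ.1
      rw [map_mul, map_mul]
      exact this _ hy
  rw [this] at hq ⊢
  exact h3 x hq

variable {G : Type u} [Group G]

/-- `W(P)` as a subgroup of the ambient group -/
def WOf (p : ℕ) (P : Subgroup G) : Subgroup G := (stableNormalClosure p P).map P.subtype

theorem WOf_le (P : Subgroup G) : WOf p P ≤ P := map_subtype_le _

theorem WOf_ne_bot [Fact p.Prime] [Finite G] {P : Subgroup G} (hP : IsPGroup p P) (h : P ≠ ⊥) :
    WOf p P ≠ ⊥ := by
  have := (nontrivial_iff_ne_bot P).mpr h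
  rw [WOf, Ne, map_eq_bot_iff_of_injective _ P.subtype_injective]
  exact W_ne_bot hP

theorem map_WOf_of_disjoint {G' : Type u} [Group G'] {f : G →* G'} {P : Subgroup G}
    (h : P ⊓ f.ker = ⊥) : (WOf p P).map f = WOf p (P.map f) := by
  let η : P ≃* P.map f := MulEquiv.ofBijective (f.subgroupMap P)
    ⟨fun x y hxy => injective_comp_subtype h (congrArg Subtype.val hxy),
      f.subgroupMap_surjective P⟩
  rw [WOf, WOf, ← map_W_equiv η, map_map, map_map]
  rfl

theorem WOf_le_omega [Finite G] (P : Subgroup G) : WOf p P ≤ omegaOne p (centerThompsonOf p P) := by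
  rw [← map_omegaCenterThompson_subtype]; exact map_mono (W_le_omegaCenterThompson P)

theorem isEA_WOf [Finite G] (P : Subgroup G) : IsElementaryAbelian p (WOf p P) :=
  isEA_map (isEA_W P) _

theorem normalizer_le_normalizer_WOf (P : Subgroup G) :
    normalizer (P : Set G) ≤ normalizer (WOf p P : Set G) := by
  have := W_characteristic (p := p) P
  exact H1.normalizer_le_normalizer_map_subtype_of_characteristic _ _

theorem WOf_quadratic [Fact p.Prime] [Finite G] {P : Subgroup G} {s : G} (hs : s ∈ P)
    (hq : ⁅⁅WOf p P, zpowers s⁆, zpowers s⁆ = ⊥) : s ∈ centralizer (WOf p P : Set G) := by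
  have e : zpowers s = (zpowers (⟨s, hs⟩ : P)).map P.subtype := by rw [MonoidHom.map_zpowers]; rfl
  rw [e, WOf, ← map_commutator, ← map_commutator,
    map_eq_bot_iff_of_injective _ P.subtype_injective] at hq
  rintro _ ⟨y, hy, rfl⟩
  exact congrArg Subtype.val (W_quadratic _ hq y hy)

theorem normalizer_thompsonOf_le_normalizer_WOf [Fact p.Prime] [Finite G]
    (hst : IsActionPStable p G) (hc : CharPGrp p G) (S : Sylow p G) :
    normalizer (thompsonSubgroupOf p (S : Subgroup G) : Set G) ≤
      normalizer (WOf p (S : Subgroup G) : Set G) := by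
  set N := normalizer (thompsonSubgroupOf p (S : Subgroup G) : Set G) with hN
  have hSN : (S : Subgroup G) ≤ N := le_normalizer.trans (normalizer_le_normalizer_thompsonOf _ _)
  have key : ∀ X : Subgroup (S : Subgroup G),
      X.map (inclusion hSN) = (X.map (S : Subgroup G).subtype).subgroupOf N := fun X => by
    apply map_injective N.subtype_injective
    rw [map_map, map_subgroupOf_eq_of_le ((map_subtype_le _).trans hSN)]; rfl
  have h : IsStableEmbedding p (inclusion hSN) := by
    refine ⟨inclusion_injective _, inferInstance, ⟨S.subtype hSN, by rw [inclusion_range]; rfl⟩,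
      hc.of_pCore_le ((H1.pCore_le_sylow S).trans hSN), ?_, fun V _ hV => hst.2.2 S V ?_⟩
    · rw [key]; exact normal_in_normalizer
    · rw [key] at hV; exact map_le_iff_le_comap.mpr hV
  have := normal_map_W h
  rw [key] at this
  exact (normal_subgroupOf_iff_le_normalizer ((map_subtype_le _).trans hSN)).mp this

theorem le_pCore_of_quadratic_on_pCore [Fact p.Prime] [Finite G] (hc : CharPGrp p G)
    (hst : IsPStableOnSection p (pCore p G) ((frattini ↥(pCore p G)).map (pCore p G).subtype))
    {a : G} (ha : ⁅⁅pCore p G, zpowers a⁆, zpowers a⁆ = ⊥) : a ∈ pCore p G := by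
  obtain ⟨D, hD, -, h2, h3⟩ := hst a (ha.le.trans bot_le)
  have hn : (sectionKernel (pCore p G) ((frattini ↥(pCore p G)).map (pCore p G).subtype)).Normal := by
    have : ((pCore p G).map (QuotientGroup.mk' ((frattini ↥(pCore p G)).map
      (pCore p G).subtype))).Normal := Normal.map inferInstance _ (QuotientGroup.mk'_surjective _)
    unfold sectionKernel; infer_instance
  rw [exists_relIndex_eq_pow_iff] at h2
  rw [← opMod_eq_pCore (H1.isPGroup_pCore p G)]
  refine le_opMod_of_forall (fun x hx => ?_) h3
  obtain ⟨k, hk⟩ := h2 x hx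
  obtain ⟨j, hj⟩ := exists_pow_mem_centralizer_of_commutator_le_phiOf (H1.isPGroup_pCore p G)
    (g := x ^ p ^ k) (by rw [normalizer_eq_top]; trivial) (by
      rw [phiOf_eq_frattini (H1.isPGroup_pCore p G)]
      exact commutator_zpowers_le_of_mem_centralizer_map hk)
  exact ⟨k + j, by rw [pow_add, pow_mul]; exact hc hj⟩

theorem WOf_normal [Fact p.Prime] [Finite G] (hst : IsActionPStable p G) (hc : CharPGrp p G)
    (S : Sylow p G) : (WOf p (S : Subgroup G)).Normal := by
  set W := WOf p (S : Subgroup G) with hW
  have hWe : IsElementaryAbelian p W := isEA_WOf _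
  have hSW : (S : Subgroup G) ≤ normalizer (W : Set G) :=
    le_normalizer.trans (normalizer_le_normalizer_WOf _)
  have hOW : pCore p G ≤ normalizer (W : Set G) := (H1.pCore_le_sylow S).trans hSW
  have hq : ∀ X : Subgroup G, X ≤ normalizer (W : Set G) → ∀ a ∈ W,
      ⁅⁅X, zpowers a⁆, zpowers a⁆ = ⊥ := by
    intro X hX a ha
    rw [← zpowers_le] at ha
    rw [commutator_eq_bot_iff_le_centralizer, commutator_comm]
    exact le_centralizer_of_le_of_comm hWe.1
      ((commutator_mono ha le_rfl).trans (commutator_le_of_le_normalizer hX)) ha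
  have hWO : W ≤ pCore p G := fun a ha => le_pCore_of_quadratic_on_pCore hc hst.2.1 (hq _ hOW a ha)
  set V := normalClosure (W : Set G) with hV
  have hVO : V ≤ pCore p G := normalClosure_le_normal hWO
  have hWV : W ≤ centralizer (V : Set G) := by
    intro a ha
    refine mem_centralizer_normalClosure fun g => WOf_quadratic
      (H1.pCore_le_sylow S ((inferInstance : (pCore p G).Normal).conj_mem _ (hWO ha) g)) ?_
    rw [eq_bot_iff, ← quadratic_conj (hq _ hOW a ha) g]
    exact commutator_mono (commutator_mono hWO le_rfl) le_rfl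
  have hVc : V ≤ centralizer (V : Set G) := normalClosure_le_normal hWV
  have hVe : IsElementaryAbelian p V := by
    have h1 : IsMulCommutative V := isMulCommutative_iff'.mpr (le_centralizer_iff'.mp hVc)
    have := omegaOne_normal p V
    exact isEA_of_le (isEA_omegaOne h1)
      (normalClosure_le_normal (le_omegaOne_of_isEA hWe le_normalClosure))
  have hJ : thompsonSubgroupOf p (S : Subgroup G) ≤ centralizer (V : Set G) := by
    by_contra h
    obtain ⟨A, -, h2, h3⟩ := exists_quadratic_mem_maxEA hVe (hVO.trans (H1.pCore_le_sylow S))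
      (by rw [normalizer_eq_top]; exact le_top) h
    apply h3
    rw [commutator_comm, commutator_eq_bot_iff_le_centralizer]
    intro a ha
    refine mem_centralizer_normalClosure_of_stable S (hst.1 V hVe)
      (fun s hs hq => WOf_quadratic hs hq) ?_
    rw [← zpowers_le] at ha
    rw [eq_bot_iff, ← h2]
    exact commutator_mono (commutator_mono le_rfl ha) ha
  rw [← normalizer_eq_top_iff, eq_top_iff]
  intro g _
  obtain ⟨c, hc', m, hm, rfl⟩ := exists_mul_normalizer_thompsonOf S hJ g
  exact mul_mem (centralizer_le_normalizer _ (centralizer_anti le_normalClosure hc'))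
    (normalizer_thompsonOf_le_normalizer_WOf hst hc S hm)

end Cfsg.Agent.H9
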