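import Cfsg.Agent.H11.SFc
import Cfsg.Agent.H11.Fus
import Cfsg.Agent.H11.TwoGp
import Cfsg.Agent.H11.StrEmb

/-!
# Cores of solvable involution centralizers: tools
-/

set_option autoImplicit false
set_option linter.style.haveILetI false

namespace Cfsg.Agent.H9Z

open Subgroup Cfsg.Agent.H11

variable {G : Type*} [Group G] [Finite G]

/-- the core of the centralizer of `t` -/
abbrev th (t : G) : Subgroup G := H10.OqOf 2 (centralizer ({t} : Set G))

/-- all involution centralizers are solvable -/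
def SC (G : Type*) [Group G] : Prop :=
  ∀ t : G, orderOf t = 2 → Group.IsSolvable (centralizer ({t} : Set G))

instance : Fact (Nat.Prime 2) := ⟨Nat.prime_two⟩

theorem odd_th (t : G) : Odd (Nat.card (th t)) := Nat.coprime_two_right.1 H10.OqOf_coprime

theorem SC.bal (hC : SC G) {a b : G} (ha : a * a = 1) (hb : orderOf b = 2) (h : a * b = b * a) :
    th a ⊓ centralizer {b} ≤ th b :=
  H10.OqOf_centralizer_inf_le_of_PLayOf (by rw [pow_two, ha]) h
    (H10.PLayOf_eq_bot_of_solvable (hC b hb))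

theorem SC.le_Wc (hC : SC G) {V : Subgroup G} (hV : IsKleinFour V) {t : G} (ht : t * t = 1)
    (h : ∀ v ∈ V, v * t = t * v) : th t ≤ Wc V :=
  H10.le_of_forall_point (p := 2) (isElementaryAbelian_of_sq fun _ ha => klein_sq hV ha)
    hV.card_four.ge (H10.le_normalizer_OqOf (le_trans (fun v hv => mem_cent1.2 (h v hv))
      le_normalizer)) H10.OqOf_coprime fun a ha h1 =>
    (hC.bal ht (klein_orderOf hV ha h1) (h a ha).symm).trans (H11.le_Wc ha h1)

omit [Finite G] in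
theorem Wc_le {V D : Subgroup G} (h : ∀ v ∈ V, v ≠ 1 → th v ≤ D) : Wc V ≤ D :=
  iSup_le fun b => h b b.2.1 b.2.2

theorem SC.Wc_eq (hC : SC G) {U V : Subgroup G} (hU : IsKleinFour U) (hV : IsKleinFour V)
    (h : ∀ u ∈ U, ∀ v ∈ V, u * v = v * u) : Wc U = Wc V :=
  le_antisymm (Wc_le fun u hu _ => hC.le_Wc hV (klein_sq hU hu) fun v hv => (h u hu v hv).symm)
    (Wc_le fun v hv _ => hC.le_Wc hU (klein_sq hV hv) fun u hu => h u hu v hv)

theorem SC.odd_Wc (hC : SC G) {U : Subgroup G} (hU : IsKleinFour U) {y : G} (hy : y * y = 1)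
    (hyU : y ∉ U) (h : ∀ u ∈ U, y * u = u * y) : Odd (Nat.card (Wc U)) := by
  obtain ⟨h8, h2⟩ := card_klein_sup_zpowers hU hy hyU h
  exact Odd.of_dvd_nat (sft_Wc h2 h8.ge fun a ha h1 =>
    H10.PLayOf_eq_bot_of_solvable (hC a (orderOf_two_of h1 (h2 a ha)))).1
    (card_dvd_of_le (Wc_mono le_sup_left))

theorem cj_Wc_le (g : G) (V : Subgroup G) : cj g (Wc V) ≤ Wc (cj g V) := by
  rw [cj, Subgroup.map_iSup]
  refine iSup_le fun b => ?_
  have := cj_OqOf_cent (p := 2) g b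
  rw [cj] at this
  rw [this]
  exact H11.le_Wc (conj_mem_map_conj g b.2.1) (by simpa using b.2.2)

theorem mem_N_Wc {g : G} {V : Subgroup G} (h : Wc (cj g V) ≤ Wc V) :
    g ∈ normalizer (Wc V : Set G) := mem_normalizer_of_cj_le ((cj_Wc_le g V).trans h)

/-- Frattini argument modulo the core, in a solvable group. -/
theorem exists_Q_top (hs : Group.IsSolvable G) {T : Subgroup G} (hT : IsSylIn 2 T ⊤) :
    ∃ Q ≤ T, (∀ y ∈ T, (∀ s ∈ T, s * y = y * s) → y ∈ Q) ∧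
      ∀ M : Subgroup G, pPrimeCore 2 G ≤ M → normalizer (Q : Set G) ≤ M → M = ⊤ := by
  haveI : (pPrimePCore 2 G).Normal := H9.opMod_normal 2 _
  have hQ := hT.inf_of_normalized (N := pPrimePCore 2 G) le_top le_normalizer_of_normal
  have hQ' : H3.SylowIn 2 (T ⊓ pPrimePCore 2 G) (pPrimePCore 2 G) :=
    ⟨hQ.le, hQ.pg, hQ.not_dvd_relIndex⟩
  have hm := H9.map_eq_pCore_of_sylowIn (p := 2) hQ'
  refine ⟨_, inf_le_left, fun y hy h => ⟨hy, (H9.centralizer_le_pPrimePCore_iff hQ').2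
    (H9.isPConstrained_iff.1 (H9.isPConstrained_of_isPSolvable (H9.isPSolvable_of_isSolvable hs)))
    fun s hs => h s hs.1⟩, fun M hO h1 => eq_top_iff.2 fun g _ => ?_⟩
  obtain ⟨n, hn, hg⟩ := hQ.frattini (g := g) (le_normalizer_of_normal (mem_top g))
  rw [← inv_mul_cancel_left n g]
  refine mul_mem (inv_mem ?_) (h1 hg)
  have : n ∈ ((T ⊓ pPrimePCore 2 G).map (QuotientGroup.mk' (pPrimeCore 2 G))).comap
    (QuotientGroup.mk' _) := hm ▸ hn
  rw [comap_map_eq, QuotientGroup.ker_mk'] at this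
  exact sup_le (le_normalizer.trans h1) hO this

theorem exists_Q {X T : Subgroup G} (hs : Group.IsSolvable X) (hT : IsSylIn 2 T X) :
    ∃ Q ≤ T, (∀ y ∈ T, (∀ s ∈ T, s * y = y * s) → y ∈ Q) ∧
      ∀ M : Subgroup G, H10.OqOf 2 X ≤ M → normalizer (Q : Set G) ≤ M → X ≤ M := by
  obtain ⟨P, hP⟩ := hT.exists_sylow'
  obtain ⟨Q, h1, h2, h3⟩ := exists_Q_top hs (isSylIn_top P)
  refine ⟨Q.map X.subtype, hP ▸ map_mono h1, fun y hy h => ?_, fun M hO hN => ?_⟩
  · rw [← hP] at hy h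
    obtain ⟨y, hy, rfl⟩ := hy
    exact mem_map_of_mem _ (h2 y hy fun s hs => Subtype.ext (h _ (mem_map_of_mem _ hs)))
  · refine subgroupOf_eq_top.1 (h3 _ (fun x hx => hO (mem_map_of_mem _ hx)) fun n hn => hN ?_)
    refine mem_normalizer_of_forall ?_
    rintro _ ⟨q, hq, rfl⟩
    exact mem_map_of_mem X.subtype (conj_mem_of_mem_normalizer hn hq)

/-- Thompson transfer inside `O²(G)`. -/
theorem transfer (S : Sylow 2 G) {X : Subgroup G} (hi : X.relIndex S ≤ 2) {t : G}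
    (ht : orderOf t = 2) (htH : t ∈ pResidual 2 G) :
    ∃ g : G, g * t * g⁻¹ ∈ (S : Subgroup G) ⊓ X := by
  haveI := H3.pResidual_normal (p := 2) (G := G)
  obtain ⟨P, hP⟩ := (isSylIn_inf_normal S (pResidual 2 G)).exists_sylow
  have h1 : X.relIndex (pResidual 2 G ⊓ S) ≤ 2 :=
    (relIndex_le_of_le_right inf_le_right FiniteIndex.index_ne_zero).trans hi
  have h0 : X.relIndex (pResidual 2 G ⊓ S) ≠ 0 := FiniteIndex.index_ne_zero
  by_cases h2 : X.relIndex (pResidual 2 G ⊓ S) = 1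
  · obtain ⟨g, hg⟩ := exists_conj_invol_mem_sylow S ht
    exact ⟨g, hg, relIndex_eq_one.1 h2 ⟨Normal.conj_mem inferInstance t htH g, hg⟩⟩
  obtain ⟨g, hg⟩ := thompson_transfer_sylow no_index_two_pResidual P
    (T := (X ⊓ (pResidual 2 G ⊓ S)).subgroupOf (pResidual 2 G))
    (hP ▸ comap_mono inf_le_right) (by
      rw [hP, relIndex_subgroupOf inf_le_left, inf_relIndex_right]; omega)
    (u := ⟨t, htH⟩) (Subtype.ext (mul_self_of_orderOf_two ht))
  exact ⟨g, hg.2.2, hg.1⟩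

section endgame

variable {S : Sylow 2 G} {Y M : Subgroup G} (hY : ∀ y ∈ Y, y ∈ (S : Subgroup G) ∧
  ∀ s ∈ (S : Subgroup G), s * y = y * s) (hF : ∀ g : G, cj g Y ≤ S → g ∈ M)
include hY hF

theorem cent_le (hC : SC G) {t : G} (ht : orderOf t = 2) (htS : t ∈ (S : Subgroup G))
    (h : th t ≤ M) : centralizer {t} ≤ M := by
  obtain ⟨T, hT, h1⟩ := exists_isSylIn_le (Q := (S : Subgroup G) ⊓ centralizer {t})
    (S.2.to_le inf_le_left) inf_le_right
  obtain ⟨g, -, hg⟩ := (isSylIn_top S).exists_cj_le hT.pg le_top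
  have hYT : Y ≤ T := fun y hy => h1 ⟨(hY y hy).1, mem_cent1.2 ((hY y hy).2 t htS).symm⟩
  have hgM := hF g ((cj_mono g hYT).trans hg)
  obtain ⟨Q, hQ, h2, h3⟩ := exists_Q (hC t ht) hT
  refine h3 M h fun n hn => ?_
  have h4 : ∀ y ∈ Y, ∀ s ∈ T, s * (g⁻¹ * y * g) = g⁻¹ * y * g * s := fun y hy s hs => by
    have := (hY y hy).2 _ (cj_le_iff.1 hg s hs)
    calc _ = g⁻¹ * (g * s * g⁻¹ * y) * g := by group
      _ = _ := by rw [this]; group
  have h5 : ∀ y ∈ Y, g⁻¹ * y * g ∈ Q := fun y hy => by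
    refine h2 _ ?_ (h4 y hy)
    obtain ⟨k, hk⟩ := IsPGroup.iff_orderOf.1 S.2 ⟨y, (hY y hy).1⟩
    refine hT.mem_of_commute (k := k) ?_ (mem_cent1.2 (h4 y hy t
      (h1 ⟨htS, mem_cent1.2 rfl⟩)).symm) (h4 y hy)
    rw [← hk, orderOf_mk, ← orderOf_conj g⁻¹ y, inv_inv]
  have h6 := hF (g * n * g⁻¹) (cj_le_iff.2 fun y hy => by
    have := cj_le_iff.1 hg _ (hQ (conj_mem_of_mem_normalizer hn (h5 y hy)))
    convert this using 1; group)
  simpa [mul_assoc] using M.mul_mem (M.mul_mem (M.inv_mem hgM) h6) hgM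

omit [Finite G] in
theorem S_le : (S : Subgroup G) ≤ M := fun s hs => hF s (cj_le_iff.2 fun y hy =>
  (S : Subgroup G).mul_mem ((S : Subgroup G).mul_mem hs (hY y hy).1) ((S : Subgroup G).inv_mem hs))

theorem mem_of_conj {t g : G} (h : centralizer {t} ≤ M) (hg : g * t * g⁻¹ ∈ (S : Subgroup G)) :
    g ∈ M := by
  obtain ⟨m, hm, h1⟩ := (isSylIn_of_sylow_le S (S_le hY hF)).exists_cj_le (Q := cj g⁻¹ Y)
    (IsPGroup_cj (S.2.to_le fun y hy => (hY y hy).1) _) (cj_le_iff.2 fun y hy => h (mem_cent1.2 (by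
      have := (hY y hy).2 _ hg
      calc _ = g⁻¹ * (y * (g * t * g⁻¹)) * g := by group
        _ = _ := by rw [← this]; group)))
  rw [← cj_mul] at h1
  simpa using M.mul_mem (M.inv_mem (hF _ h1)) hm

theorem se (hC : SC G) {X : Subgroup G} (hi : X.relIndex S ≤ 2)
    (h : ∀ t ∈ (S : Subgroup G) ⊓ X, t ∈ pResidual 2 G → orderOf t = 2 → th t ≤ M)
    (hM : ¬ pResidual 2 G ≤ M) (he : Even (Nat.card (pResidual 2 G))) :
    IsStronglyEmbedded (M.subgroupOf (pResidual 2 G)) := by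
  have hn := H3.pResidual_normal (p := 2) (G := G)
  have hSM := isSylIn_of_sylow_le S (S_le hY hF)
  have h1 : ∀ t ∈ (S : Subgroup G), t ∈ pResidual 2 G → orderOf t = 2 → centralizer {t} ≤ M := by
    intro t htS htH ht
    obtain ⟨g, hg⟩ := transfer S hi ht htH
    have h2 := cent_le hY hF hC ((orderOf_conj g t).trans ht) hg.1
      (h _ hg (hn.conj_mem t htH g) ((orderOf_conj g t).trans ht))
    have h3 := mem_of_conj hY hF (g := g⁻¹) h2 (by simpa [mul_assoc] using htS)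
    rw [← cj_cent1, cj_le_iff', cj_eq_of_mem h3] at h2
    exact h2
  refine isStronglyEmbedded_iff.2 ⟨fun e => hM (subgroupOf_eq_top.1 e), ?_, fun t htM ht g hg => ?_⟩
  · obtain ⟨t, htH, ht⟩ := exists_invol_of_even he
    obtain ⟨g, hg⟩ := exists_conj_invol_mem_sylow S ht
    exact even_card_of_invol (t := ⟨_, hn.conj_mem t htH g⟩) (S_le hY hF hg)
      (by rw [orderOf_mk, orderOf_conj, ht])
  · rw [← orderOf_coe] at ht
    obtain ⟨a, ha, h2⟩ := hSM.exists_conj_invol_mem ht htM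
    obtain ⟨b, hb, h3⟩ := hSM.exists_conj_invol_mem ((orderOf_conj (g : G) t).trans ht) hg
    have h4 := mem_of_conj hY hF (g := b * g * a⁻¹) (h1 _ h2 (hn.conj_mem _ t.2 a)
      ((orderOf_conj a t).trans ht)) (by convert h3 using 1; group)
    exact mem_subgroupOf.2 (by simpa [mul_assoc] using M.mul_mem (M.mul_mem (M.inv_mem hb) h4) ha)

end endgame

end Cfsg.Agent.H9Z
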