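import Cfsg.Agent.H9.ZC1

/-!
# The reduction of `ZC`-groups to local characteristic `2`
-/

set_option autoImplicit false
set_option linter.style.haveILetI false

namespace Cfsg.Agent.H9Z

open Subgroup Cfsg.Agent.H11

variable {G : Type*} [Group G] [Finite G]

/-- `O²(G)` has a strongly embedded subgroup or its involutions have core-free centralizers -/
def Out (G : Type*) [Group G] : Prop :=
  (∃ M : Subgroup (pResidual 2 G), IsStronglyEmbedded M) ∨
    ∀ t ∈ pResidual 2 G, orderOf t = 2 → th t = ⊥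

theorem le_res {W : Subgroup G} (hW : Odd (Nat.card W)) : W ≤ pResidual 2 G := fun _ hx =>
  subset_closure (Nat.coprime_two_right.2 (odd_orderOf_of_odd_card hW hx))

theorem not_le_N (hO : pPrimeCore 2 G = ⊥) {W : Subgroup G} (hW : Odd (Nat.card W)) (h : W ≠ ⊥) :
    ¬ pResidual 2 G ≤ normalizer (W : Set G) := fun h1 => by
  haveI := H3.pResidual_normal (p := 2) (G := G)
  haveI : (H10.OqOf 2 (pResidual 2 G)).Normal := normalizer_eq_top_iff.1
    (top_le_iff.1 (H10.le_normalizer_OqOf le_normalizer_of_normal))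
  exact h (le_bot_iff.1 (((H10.le_OqOf (le_res hW) h1 (Nat.coprime_two_right.2 hW)).trans
    (H10.le_pPrimeCore H10.OqOf_coprime)).trans hO.le))

theorem out (hC : SC G) (hO : pPrimeCore 2 G = ⊥) (he : Even (Nat.card (pResidual 2 G)))
    {S : Sylow 2 G} {Y W X : Subgroup G} (hY : ∀ y ∈ Y, y ∈ (S : Subgroup G) ∧
      ∀ s ∈ (S : Subgroup G), s * y = y * s) (hW : Odd (Nat.card W))
    (hF : ∀ g : G, cj g Y ≤ S → g ∈ normalizer (W : Set G)) (hi : X.relIndex S ≤ 2)
    (h : ∀ t ∈ (S : Subgroup G) ⊓ X, orderOf t = 2 → th t ≤ W) : Out G := by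
  by_cases h0 : W = ⊥
  · refine .inr fun t htH ht => ?_
    obtain ⟨g, hg⟩ := transfer S hi ht htH
    have := h _ hg ((orderOf_conj g t).trans ht)
    rwa [h0, le_bot_iff, th, ← cj_OqOf_cent, cj_eq_bot_iff] at this
  · exact .inl ⟨_, se hY hF hC hi (fun t a _ b => (h t a b).trans le_normalizer)
      (not_le_N hO hW h0) he⟩

/-- the setting in which the centre of `S` has a unique involution -/
structure One (S : Sylow 2 G) (z : G) : Prop where
  sc : SC G
  core : pPrimeCore 2 G = ⊥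
  even : Even (Nat.card (pResidual 2 G))
  ord : orderOf z = 2
  mem : z ∈ (S : Subgroup G)
  comm : ∀ s ∈ (S : Subgroup G), s * z = z * s
  uniq : ∀ y ∈ (S : Subgroup G), orderOf y = 2 → (∀ s ∈ (S : Subgroup G), s * y = y * s) → y = z
  norm : centralizer {z} ≤ normalizer ((S : Subgroup G) : Set G)

namespace One

variable {S : Sylow 2 G} {z : G} (h : One S z)
include h

theorem zz : z * z = 1 := mul_self_of_orderOf_two h.ord

theorem z1 : z ≠ 1 := ne_one_of_orderOf_two h.ord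

theorem mem_S {x : G} {k : ℕ} (hx : orderOf x = 2 ^ k) (hc : x * z = z * x) :
    x ∈ (S : Subgroup G) :=
  (isSylIn_top S).mem_of_normalizes hx (mem_top x) (h.norm (mem_cent1.2 hc))

theorem D_cent {s : G} (hs : s ∈ (S : Subgroup G)) : th z ≤ centralizer {s} := fun d hd => by
  have h1 : d * s * d⁻¹ * s⁻¹ ∈ (S : Subgroup G) ⊓ th z :=
    mem_inf.2 ⟨mul_mem (conj_mem_of_mem_normalizer (h.norm (H10.OqOf_le hd)) hs) (inv_mem hs), by
      have := mul_mem hd (conj_mem_of_mem_normalizer (H10.le_normalizer_OqOf le_normalizer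
        (mem_cent1.2 (h.comm s hs))) (inv_mem hd))
      convert this using 1; group⟩
  rw [H10.disjoint_of_isPGroup_of_coprime S.2 H10.OqOf_coprime, mem_bot, mul_inv_eq_one,
    mul_inv_eq_iff_eq_mul] at h1
  exact mem_cent1.2 h1

theorem th_conj {g : G} (hg : g * z * g⁻¹ ∈ (S : Subgroup G)) : cj g (th z) = th z := by
  refine (eq_of_le_of_card_ge ?_ (card_cj g _).le).symm
  rw [cj_OqOf_cent]
  exact (le_inf le_rfl (h.D_cent hg)).trans
    (h.sc.bal h.zz ((orderOf_conj g z).trans h.ord) (h.comm _ hg).symm)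

theorem out' {W X : Subgroup G} (hW : Odd (Nat.card W))
    (hF : ∀ g : G, g * z * g⁻¹ ∈ (S : Subgroup G) → g ∈ normalizer (W : Set G))
    (hi : X.relIndex S ≤ 2) (h1 : ∀ t ∈ (S : Subgroup G) ⊓ X, orderOf t = 2 → th t ≤ W) :
    Out G :=
  out h.sc h.core h.even (Y := zpowers z) (fun y hy => ⟨zpowers_le.2 h.mem hy, fun s hs => by
    obtain ⟨k, rfl⟩ := hy
    exact (Commute.zpow_right (h.comm s hs) k)⟩) hW
    (fun g hg => hF g (cj_le_iff.1 hg z (mem_zpowers z))) hi h1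

theorem Dcase {X : Subgroup G} (hi : X.relIndex S ≤ 2)
    (h1 : ∀ t ∈ (S : Subgroup G) ⊓ X, orderOf t = 2 → th t ≤ th z) : Out G :=
  h.out' (odd_th z) (fun _ hg => cj_eq_iff.1 (h.th_conj hg)) hi h1

theorem Dnormal {U : Subgroup G} (hU : IsKleinFour U) (hn : (S : Subgroup G) ≤ normalizer (U : Set G))
    (h1 : Wc U ≤ th z) : Out G :=
  h.Dcase (relIndex_centralizer_klein_le S.2 hU hn) fun _ ht ho =>
    (h.sc.le_Wc hU (mul_self_of_orderOf_two ho) ht.2).trans h1

theorem no_klein (h1 : ∀ V : Subgroup S, V.Normal → ¬ IsKleinFour V) : Out G := by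
  rcases isCyclic_or_MC_of_no_normal_klein S.2 h1 with h2 | ⟨n, e, f, X, Y, h2⟩
  · refine h.Dcase (X := S) (by simp) fun t ht ho => ?_
    rw [invol_unique_of_isCyclic h2 ho h.ord ht.1 h.mem]
  · have h3 := h2.map _ (S : Subgroup G).subtype_injective
    rw [← MonoidHom.range_eq_map, range_subtype] at h3
    refine h.Dcase h3.relIndex_zpowers.le fun t ht ho => ?_
    obtain ⟨a, rfl⟩ := h3.mem_zpowers_X.1 ht.2
    rw [h.uniq _ ht.1 ho fun s hs => by rw [h3.orderOf_X_two.1 ho]; exact h3.z_comm hs]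

theorem klein {x : G} (hx : orderOf x = 2) (hS : x ∈ (S : Subgroup G)) (hne : x ≠ z) :
    IsKleinFour (closure ({z, x} : Set G)) :=
  isKleinFour_closure h.ord hx hne.symm (h.comm x hS).symm

theorem mem4 {x y : G} (hx : orderOf x = 2) (hS : x ∈ (S : Subgroup G)) :
    y ∈ closure ({z, x} : Set G) ↔ y = 1 ∨ y = z ∨ y = x ∨ y = z * x :=
  mem_four_iff h.zz (mul_self_of_orderOf_two hx) (h.comm x hS).symm

theorem pure {g s : G} (hg : g * z * g⁻¹ ∈ (S : Subgroup G)) (hs : s ∈ (S : Subgroup G))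
    (e : s * (g * z * g⁻¹) * s⁻¹ = z * (g * z * g⁻¹)) :
    Wc (closure ({z, g * z * g⁻¹} : Set G)) ≤ th z := by
  refine Wc_le fun v hv h1 => ?_
  rcases (h.mem4 ((orderOf_conj g z).trans h.ord) hg).1 hv with rfl | rfl | rfl | rfl
  · exact absurd rfl h1
  · exact le_rfl
  · rw [th, ← cj_OqOf_cent, h.th_conj hg]
  · have e' : z * (g * z * g⁻¹) = s * g * z * (s * g)⁻¹ := by rw [← e]; group
    rw [e', th, ← cj_OqOf_cent, h.th_conj (e' ▸ mul_mem h.mem hg)]

section
variable {U : Subgroup G} (hU : IsKleinFour U) (hUS : U ≤ S)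
  (hn : (S : Subgroup G) ≤ normalizer (U : Set G))
include hU hUS hn

theorem z_mem : z ∈ U := by
  obtain ⟨y, hy, ho, hc⟩ := exists_orderOf_eq_centralizer_of_normalized S.2 (klein_isPGroup hU)
    (by rintro rfl; simpa using hU.card_four) hn
  exact h.uniq y (hUS hy) ho hc ▸ hy

theorem mem_C {u s : G} (hu : u ∈ U) (u1 : u ≠ 1) (uz : u ≠ z) (hs : s ∈ (S : Subgroup G))
    (e : s * u = u * s) : s ∈ centralizer (U : Set G) := by
  rw [klein_eq_closure hU (h.z_mem hU hUS hn) hu h.z1 u1 uz.symm]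
  exact mem_centralizer_closure_pair.2 ⟨h.comm s hs, e⟩

theorem moves {u s : G} (hu : u ∈ U) (u1 : u ≠ 1) (uz : u ≠ z) (hs : s ∈ (S : Subgroup G))
    (e : s ∉ centralizer (U : Set G)) : s * u * s⁻¹ = z * u := by
  rcases (klein_mem_iff hU (h.z_mem hU hUS hn) hu h.z1 u1 uz.symm).1
    (conj_mem_of_mem_normalizer (hn hs) hu) with h1 | h1 | h1 | h1
  · exact absurd (by simpa using h1) u1
  · rw [mul_inv_eq_iff_eq_mul, ← h.comm s hs] at h1
    exact absurd (mul_left_cancel h1) uz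
  · exact absurd (h.mem_C hU hUS hn hu u1 uz hs (mul_inv_eq_iff_eq_mul.1 h1)) e
  · exact h1

theorem mul_mem_C {a b : G} (ha : a ∈ (S : Subgroup G)) (hb : b ∈ (S : Subgroup G))
    (ha' : a ∉ centralizer (U : Set G)) (hb' : b ∉ centralizer (U : Set G)) :
    a * b ∈ centralizer (U : Set G) := by
  obtain ⟨u, hu, u1, uz⟩ := klein_exists_other hU z
  refine h.mem_C hU hUS hn hu u1 uz (mul_mem ha hb) (mul_inv_eq_iff_eq_mul.1 ?_)
  calc _ = a * (b * u * b⁻¹) * a⁻¹ := by group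
    _ = z * (a * u * a⁻¹) := by rw [h.moves hU hUS hn hu u1 uz hb hb', ← mul_assoc, h.comm a ha]; group
    _ = u := by rw [h.moves hU hUS hn hu u1 uz ha ha', ← mul_assoc, h.zz, one_mul]

theorem beta {g : G} (hg : g * z * g⁻¹ ∈ (S : Subgroup G)) (hne : g * z * g⁻¹ ≠ z)
    (hb : ∀ g : G, g * z * g⁻¹ ∈ (S : Subgroup G) → g * z * g⁻¹ ∈ centralizer (U : Set G)) :
    Out G := by
  have hz := h.z_mem hU hUS hn
  have ho : ∀ g : G, orderOf (g * z * g⁻¹) = 2 := fun g => (orderOf_conj g z).trans h.ord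
  by_cases h1 : ∃ g : G, g * z * g⁻¹ ∈ U ∧ g * z * g⁻¹ ≠ z
  · obtain ⟨g, hg, hne⟩ := h1
    have h2 : ¬ (S : Subgroup G) ≤ centralizer (U : Set G) := fun e =>
      hne (h.uniq _ (hUS hg) (ho g) fun s hs => (e hs _ hg).symm)
    obtain ⟨s, hs, h3⟩ := SetLike.not_le_iff_exists.1 h2
    refine h.Dnormal hU hn ?_
    rw [klein_eq_closure hU hz hg h.z1 (ne_one_of_orderOf_two (ho g)) hne.symm]
    exact h.pure (hUS hg) hs (h.moves hU hUS hn hg (ne_one_of_orderOf_two (ho g)) hne hs h3)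
  have key : ∀ g : G, g * z * g⁻¹ ∈ (S : Subgroup G) → g * z * g⁻¹ ≠ z →
      Wc (closure ({z, g * z * g⁻¹} : Set G)) = Wc U := fun g hg hne => by
    refine (h.sc.Wc_eq hU (h.klein (ho g) hg hne) fun u hu v hv => ?_).symm
    exact mem_centralizer_closure_pair.2 ⟨h.comm u (hUS hu), hb g hg u hu⟩ v hv |>.symm
  refine h.out' (h.sc.odd_Wc hU (mul_self_of_orderOf_two (ho g)) (fun e => h1 ⟨g, e, hne⟩)
    fun u hu => (hb g hg u hu).symm) (fun k hk => ?_) (relIndex_centralizer_klein_le S.2 hU hn)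
    fun _ ht ho => h.sc.le_Wc hU (mul_self_of_orderOf_two ho) ht.2
  by_cases e : k * z * k⁻¹ = z
  · have e2 : k * (g * z * g⁻¹) * k⁻¹ = k * g * z * (k * g)⁻¹ := by group
    rw [← key g hg hne]
    refine mem_N_Wc ?_
    rw [cj_closure, Set.image_pair, e, e2, key g hg hne, key]
    · exact e2 ▸ conj_mem_of_mem_normalizer (h.norm (mem_cent1.2 (mul_inv_eq_iff_eq_mul.1 e))) hg
    · rw [← e2]
      exact fun e3 => hne (by simpa using e3.trans e.symm)
  · rw [← inv_mem_iff, ← key k hk e]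
    refine mem_N_Wc ?_
    have e2 : k⁻¹ * (k * z * k⁻¹) * k⁻¹⁻¹ = z := by group
    rw [cj_closure, Set.image_pair, e2, Set.pair_comm, key k hk e, key]
    · refine h.mem_S (k := 1) (ho _) ?_
      calc _ = k⁻¹ * (z * (k * z * k⁻¹)) * k := by group
        _ = _ := by rw [← h.comm _ hk]; group
    · exact fun e3 => e (by nth_rw 1 [← e3]; group)

theorem alpha {g : G} (hg : g * z * g⁻¹ ∈ (S : Subgroup G))
    (hb : g * z * g⁻¹ ∉ centralizer (U : Set G)) : Out G := by
  have hz := h.z_mem hU hUS hn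
  have hzC : z ∈ centralizer (U : Set G) := fun u hu => h.comm u (hUS hu)
  obtain ⟨u, hu, u1, uz⟩ := klein_exists_other hU z
  have uu := klein_sq hU hu
  have e0 := h.moves hU hUS hn hu u1 uz hg hb
  have hP := h.pure hg (hUS hu)
  have ho : orderOf (g * z * g⁻¹) = 2 := (orderOf_conj g z).trans h.ord
  have hgS : ∀ s ∈ cj g (S : Subgroup G), s * (g * z * g⁻¹) = g * z * g⁻¹ * s := fun s hs => by
    calc _ = g * (g⁻¹ * s * g * z) * g⁻¹ := by group
      _ = _ := by rw [h.comm _ (mem_cj.1 hs)]; group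
  have hgS' : ∀ s ∈ (S : Subgroup G), s * (g * z * g⁻¹) = g * z * g⁻¹ * s →
      s ∈ cj g (S : Subgroup G) := fun s hs e => by
    obtain ⟨k, hk⟩ := IsPGroup.iff_orderOf.1 S.2 ⟨s, hs⟩
    refine mem_cj.2 (h.mem_S (k := k) (by rw [← hk, orderOf_mk, ← orderOf_conj g⁻¹ s, inv_inv]) ?_)
    calc _ = g⁻¹ * (s * (g * z * g⁻¹)) * g := by group
      _ = _ := by rw [e]; group
  generalize g * z * g⁻¹ = y at *
  have yy := mul_self_of_orderOf_two ho
  have yz : y ≠ z := fun e => hb (e ▸ hzC)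
  have e1 : u * y * u⁻¹ = z * y := by
    rw [inv_eq_of_mul_eq_one_right uu]
    calc _ = u * (y * u * y⁻¹) * y := by group
      _ = _ := by rw [e0, ← mul_assoc, h.comm u (hUS hu), mul_assoc z, uu, mul_one]
  have hV := h.klein ho hg yz
  have hVy : y ∈ closure ({z, y} : Set G) := subset_closure (by simp)
  have hVz : z ∈ closure ({z, y} : Set G) := subset_closure (by simp)
  specialize hP e1
  by_cases h1 : ∃ s ∈ (S : Subgroup G), s * s = 1 ∧ s * y = y * s ∧ s ∉ closure ({z, y} : Set G)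
  · obtain ⟨s, hs, ss, sy, sV, sC⟩ : ∃ s ∈ (S : Subgroup G), s * s = 1 ∧ s * y = y * s ∧
        s ∉ closure ({z, y} : Set G) ∧ s ∈ centralizer (U : Set G) := by
      obtain ⟨s, hs, ss, sy, sV⟩ := h1
      by_cases sC : s ∈ centralizer (U : Set G)
      · exact ⟨s, hs, ss, sy, sV, sC⟩
      · exact ⟨s * y, mul_mem hs hg, by
          rw [mul_assoc, ← mul_assoc y, ← sy, mul_assoc, yy, mul_one, ss],
          by rw [mul_assoc, ← mul_assoc y, ← sy, mul_assoc],
          fun e => sV ((mul_mem_cancel_right hVy).1 e), h.mul_mem_C hU hUS hn hs hg sC hb⟩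
    have h2 := h.klein (orderOf_two_of (fun e : s = 1 => sV (e ▸ one_mem _)) ss) hs fun e => sV (e ▸ hVz)
    refine h.Dnormal hU hn (le_trans ?_ hP)
    rw [h.sc.Wc_eq hU h2 fun a ha b hb => (mem_centralizer_closure_pair.2
      ⟨h.comm a (hUS ha), sC a ha⟩ b hb).symm, h.sc.Wc_eq h2 hV fun a ha b hb => ?_]
    refine ((closure_le (centralizer ((closure ({z, y} : Set G) : Subgroup G) : Set G))).2
      ?_ ha b hb).symm
    rintro _ (rfl | rfl)
    · exact mem_centralizer_closure_pair.2 ⟨rfl, (h.comm y hg).symm⟩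
    · exact mem_centralizer_closure_pair.2 ⟨h.comm _ hs, sy⟩
  push Not at h1
  have hzy : z * y ∉ centralizer (U : Set G) := fun e => hb ((mul_mem_cancel_left hzC).1 e)
  have sqz : ∀ x ∈ (S : Subgroup G) ⊓ centralizer {y}, orderOf (x * x) = 2 → x * x = z := by
    intro x hx e
    have h2 : x * x ∈ centralizer (U : Set G) := by
      by_cases xC : x ∈ centralizer (U : Set G)
      exacts [mul_mem xC xC, h.mul_mem_C hU hUS hn hx.1 hx.1 xC xC]
    rcases (h.mem4 ho hg).1 (h1 _ (mul_mem hx.1 hx.1) (mul_self_of_orderOf_two e)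
      (mem_cent1.1 (mul_mem hx.2 hx.2))) with h3 | h3 | h3 | h3
    exacts [absurd h3 (ne_one_of_orderOf_two e), h3, absurd (h3 ▸ h2) hb, absurd (h3 ▸ h2) hzy]
  have hC : ∀ x ∈ (S : Subgroup G), x * y = y * x → x ∈ closure ({z, y} : Set G) := by
    intro x hx xy
    refine h1 x hx (by_contra fun xx => ?_) xy
    obtain ⟨k, hk⟩ := IsPGroup.iff_orderOf.1 S.2 ⟨x, hx⟩
    rw [orderOf_mk] at hk
    have hk2 : 2 ≤ k := by
      by_contra e
      apply xx
      rw [← pow_two, ← orderOf_dvd_iff_pow_eq_one, hk]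
      exact pow_dvd_pow 2 (n := 1) (by omega)
    obtain ⟨k, rfl⟩ := Nat.exists_eq_add_of_le' hk2
    have hw : x ^ 2 ^ k ∈ (S : Subgroup G) ⊓ centralizer {y} :=
      pow_mem (mem_inf.2 ⟨hx, mem_cent1.2 xy⟩) _
    have h2 := sqz _ hw (by
      rw [← pow_add, ← two_mul, ← pow_succ', orderOf_pow_of_dvd (by positivity)
        (hk ▸ pow_dvd_pow 2 (by omega)), hk, pow_succ' 2 (k + 1)]
      exact Nat.mul_div_cancel _ (by positivity))
    obtain ⟨n, hn1, hn2, hn3⟩ := exists_mem_normalizer_of_lt (IsPGroup_cj S.2 g)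
      (M := (S : Subgroup G) ⊓ centralizer {y})
      (lt_of_le_of_ne (fun s hs => hgS' s hs.1 (mem_cent1.1 hs.2)) fun e => by
        have e2 : cj g (S : Subgroup G) = S :=
          eq_of_le_of_card_ge (e ▸ inf_le_left) (card_cj g _).ge
        exact yz (h.uniq y hg ho fun s hs => hgS s (e2.symm ▸ hs)))
    have h3 := sqz _ (conj_mem_of_mem_normalizer hn3 hw) (by
      rw [conj_mul, h2, orderOf_conj, h.ord])
    rw [conj_mul, h2] at h3
    obtain ⟨j, hj⟩ := IsPGroup.iff_orderOf.1 (IsPGroup_cj S.2 g) ⟨n, hn1⟩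
    exact hn2 ⟨h.mem_S (k := j) (by rw [← hj, orderOf_mk]) (mul_inv_eq_iff_eq_mul.1 h3),
      mem_cent1.2 (hgS n hn1)⟩
  refine h.Dnormal hV (by_contra fun h2 => ?_) hP
  have hN : ∀ n ∈ (S : Subgroup G), n * y * n⁻¹ ∈ closure ({z, y} : Set G) →
      n ∈ normalizer ((closure ({z, y} : Set G) : Subgroup G) : Set G) := fun n hn e => by
    refine mem_normalizer_of_cj_le ?_
    rw [cj_closure, Set.image_pair, closure_le, h.comm n hn, mul_inv_cancel_right]
    rintro _ (rfl | rfl)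
    exacts [hVz, e]
  obtain ⟨n, hn1, hn2, hn3⟩ := exists_mem_normalizer_of_lt S.2
    (M := (S : Subgroup G) ⊓ normalizer ((closure ({z, y} : Set G) : Subgroup G) : Set G))
    (lt_of_le_of_ne inf_le_left fun e => h2 (e ▸ inf_le_right))
  have h3 := conj_mem_of_mem_normalizer hn3 (⟨hg, le_normalizer hVy⟩ :
    y ∈ (S : Subgroup G) ⊓ normalizer ((closure ({z, y} : Set G) : Subgroup G) : Set G))
  have h4 : n * y * n⁻¹ ∉ centralizer (U : Set G) := fun e => hb (by
    simpa [mul_assoc] using conj_mem_of_mem_normalizer'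
      (H10.le_normalizer_centralizer hn hn1) e)
  have h5 : n * y * n⁻¹ * (n * y * n⁻¹) = 1 := by rw [conj_mul, yy]; group
  refine hn2 ⟨hn1, hN n hn1 ?_⟩
  generalize n * y * n⁻¹ = x at *
  rcases (h.mem4 ho hg).1 (conj_mem_of_mem_normalizer h3.2 hVy) with e | e | e | e
  · exact absurd (by simpa using e) (ne_one_of_orderOf_two ho)
  · rw [mul_inv_eq_iff_eq_mul, ← h.comm x h3.1] at e
    exact absurd (mul_left_cancel e) yz
  · exact hC x h3.1 (mul_inv_eq_iff_eq_mul.1 e)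
  · have h6 := hC (x * u) (mul_mem h3.1 (hUS hu)) (mul_inv_eq_iff_eq_mul.1 (by
      calc _ = x * (u * y * u⁻¹) * x⁻¹ := by group
        _ = z * (x * y * x⁻¹) := by rw [e1, ← mul_assoc, h.comm x h3.1]; group
        _ = y := by rw [e, ← mul_assoc, h.zz, one_mul]))
    have h7 := klein_sq hV h6
    have h8 := h.moves hU hUS hn hu u1 uz h3.1 h4
    rw [inv_eq_of_mul_eq_one_right h5] at h8
    rw [← mul_assoc, h8, mul_assoc, uu, mul_one] at h7
    exact absurd h7 h.z1

end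

theorem main {g : G} (hg : g * z * g⁻¹ ∈ (S : Subgroup G)) (hne : g * z * g⁻¹ ≠ z) : Out G := by
  by_cases h1 : ∀ V : Subgroup S, V.Normal → ¬ IsKleinFour V
  · exact h.no_klein h1
  push Not at h1
  obtain ⟨V, hn, hV⟩ := h1
  have hU := isKleinFour_map_subtype hV
  have h2 : (S : Subgroup G) ≤ normalizer ((V.map (S : Subgroup G).subtype : Subgroup G) : Set G) :=
    fun s hs => mem_normalizer_of_forall (by
      rintro _ ⟨v, hv, rfl⟩
      exact mem_map_of_mem _ (hn.conj_mem v hv ⟨s, hs⟩))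
  by_cases hb : ∀ g : G, g * z * g⁻¹ ∈ (S : Subgroup G) →
      g * z * g⁻¹ ∈ centralizer ((V.map (S : Subgroup G).subtype : Subgroup G) : Set G)
  · exact h.beta hU (map_subtype_le _) h2 hg hne hb
  · push Not at hb
    obtain ⟨g, h3, h4⟩ := hb
    exact h.alpha hU (map_subtype_le _) h2 h3 h4

end One

end Cfsg.Agent.H9Z
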