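import Cfsg.Agent.H9.ZC2

/-!
# The reduction of `ZC`-groups to local characteristic `2`: the main theorem
-/

set_option autoImplicit false
set_option linter.style.haveILetI false

namespace Cfsg.Agent.H9Z

open Subgroup Cfsg.Agent.H11

variable {G : Type*} [Group G] [Finite G]

theorem char2 (hC : SC G) {K : Subgroup G} [K.Normal] (he : Even (Nat.card K))
    (h : ∀ t ∈ K, orderOf t = 2 → th t = ⊥) : IsCharacteristicTwoType K := by
  refine ⟨he, fun T hT hT1 => ?_⟩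
  obtain ⟨z, hz, e⟩ := H10.exists_orderOf_eq_of_isPGroup hT hT1
  refine H10.XOf_eq_bot_iff_char.1 ?_
  rw [H10.XOf_normalizer hT]
  refine H10.XOf_centralizer_eq_bot_of_le hT (zpowers_le.2 hz) ?_
  rw [H10.centralizer_zpowers, H10.XOf_def, sup_eq_bot_iff]
  have e' : orderOf (z : G) = 2 := by rw [orderOf_coe, e]
  have h1 : (centralizer ({z} : Set K)).map K.subtype = K ⊓ centralizer {(z : G)} := by
    rw [GW.cent_subgroupOf, subgroupOf_map_subtype, inf_comm]
  constructor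
  · haveI := hC z e'
    exact H10.PLayOf_eq_bot_of_solvable (solvable_of_solvable_injective
      (f := (inclusion (h1.le.trans inf_le_right)).comp
        (equivMapOfInjective _ _ K.subtype_injective).toMonoidHom)
      ((inclusion_injective (h1.le.trans inf_le_right)).comp (MulEquiv.injective _)))
  · rw [← map_eq_bot_iff_of_injective _ K.subtype_injective, eq_bot_iff, ← h z z.2 e']
    refine (H10.map_OqOf_le _ _).trans ?_
    rw [h1]
    exact (H10.SubnormalIn.of_normal inf_le_right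
      (H10.le_normalizer_inf le_normalizer_of_normal le_normalizer)).OqOf_le

omit [Finite G] in
theorem mem_Z {S : Subgroup G} {x : G} : x ∈ omegaOne 2 (S ⊓ centralizer (S : Set G)) ↔
    x ∈ S ∧ (∀ s ∈ S, s * x = x * s) ∧ x * x = 1 := by
  have : omegaOne 2 (S ⊓ centralizer (S : Set G)) =
      om1 (S ⊓ centralizer (S : Set G)) fun a ha b hb => hb.2 a ha.1 :=
    le_antisymm ((closure_le _).2 fun x hx => mem_om1.2 ⟨hx.1, by rw [← pow_two, hx.2]⟩)
      fun x hx => subset_closure ⟨(mem_om1.1 hx).1, by rw [pow_two, (mem_om1.1 hx).2]⟩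
  rw [this, mem_om1, mem_inf, and_assoc]
  rfl

theorem even_res (heven : Even (Nat.card G)) (hO' : pPrimeCore 2 G = ⊥) (hO : pCore 2 G = ⊥) :
    Even (Nat.card (pResidual 2 G)) := by
  haveI := H3.pResidual_normal (p := 2) (G := G)
  rw [← Nat.not_odd_iff_even]
  intro h
  obtain ⟨S⟩ : Nonempty (Sylow 2 G) := inferInstance
  have h1 := H3.pResidual_sup_sylow S
  rw [le_bot_iff.1 ((H10.le_pPrimeCore (Nat.coprime_two_right.2 h)).trans hO'.le), bot_sup_eq] at h1
  have h2 := H10.le_pCore (N := ⊤) (h1 ▸ S.2)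
  rw [hO, le_bot_iff] at h2
  rw [← card_top, h2, card_bot] at heven
  exact absurd heven (by decide)

theorem normal_sup (S : Sylow 2 G) :
    (pResidual 2 G ⊔ omegaOne 2 ((S : Subgroup G) ⊓ centralizer ((S : Subgroup G) : Set G))).Normal := by
  haveI := H3.pResidual_normal (p := 2) (G := G)
  refine normalizer_eq_top_iff.1 (top_le_iff.1 ?_)
  rw [← H3.pResidual_sup_sylow S]
  refine sup_le (le_sup_left.trans le_normalizer) fun s hs => mem_normalizer_of_cj_le ?_
  rw [cj_sup, cj_eq_of_normal]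
  refine sup_le_sup_left (cj_le_iff.2 fun x hx => ?_) _
  rwa [(mem_Z.1 hx).2.1 s hs, mul_inv_cancel_right]

theorem card_eq_two {A : Subgroup G} {z : G} (hz : orderOf z = 2) (hA : z ∈ A)
    (h : ∀ a ∈ A, a = 1 ∨ a = z) : Nat.card A = 2 := by
  rw [← hz, ← Nat.card_zpowers, le_antisymm (zpowers_le.2 hA) fun a ha => ?_]
  rcases h a ha with rfl | rfl
  exacts [one_mem _, mem_zpowers _]

theorem zc (heven : Even (Nat.card G)) (hC : SC G) (S : Sylow 2 G) {Z : Subgroup G}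
    (hZd : Z = omegaOne 2 ((S : Subgroup G) ⊓ centralizer ((S : Subgroup G) : Set G)))
    (hZ : centralizer (Z : Set G) ≤ normalizer ((S : Subgroup G) : Set G))
    (hO' : pPrimeCore 2 G = ⊥) (hO : pCore 2 G = ⊥) :
    (∃ M : Subgroup (pResidual 2 G), IsStronglyEmbedded M) ∨
    (Nat.card ↥(Z ⊓ pResidual 2 G) = 2 ∧ ∀ h ∈ pResidual 2 G, ∀ z ∈ Z ⊓ pResidual 2 G,
      h * z * h⁻¹ ∈ (S : Subgroup G) → h * z * h⁻¹ ∈ Z) ∨
    (Nat.card Z = 4 ∧ omegaOne 2 ((S : Subgroup G) ⊓ pResidual 2 G) = Z) ∨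
    IsCharacteristicTwoType ↥(pResidual 2 G ⊔ Z) := by
  haveI := H3.pResidual_normal (p := 2) (G := G)
  haveI : (pResidual 2 G ⊔ Z).Normal := hZd ▸ normal_sup S
  have mZ : ∀ {x}, x ∈ Z ↔ x ∈ (S : Subgroup G) ∧ (∀ s ∈ (S : Subgroup G), s * x = x * s) ∧
    x * x = 1 := hZd ▸ mem_Z
  have he := even_res heven hO' hO
  have he' : Even (Nat.card ↥(pResidual 2 G ⊔ Z)) :=
    even_iff_two_dvd.2 ((even_iff_two_dvd.1 he).trans (card_dvd_of_le le_sup_left))
  obtain ⟨z, hz, ho, hc⟩ := exists_orderOf_eq_centralizer_of_normalized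
    (N := (S : Subgroup G) ⊓ pResidual 2 G) S.2 (S.2.to_le inf_le_left) (fun e => by
      obtain ⟨t, htH, ht⟩ := exists_invol_of_even he
      obtain ⟨g, hg⟩ := exists_conj_invol_mem_sylow S ht
      have : g * t * g⁻¹ ∈ (S : Subgroup G) ⊓ pResidual 2 G :=
        ⟨hg, Normal.conj_mem inferInstance t htH g⟩
      rw [e, mem_bot] at this
      exact ne_one_of_orderOf_two ((orderOf_conj g t).trans ht) this)
    (H10.le_normalizer_inf le_normalizer le_normalizer_of_normal)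
  have zZ : z ∈ Z := mZ.2 ⟨hz.1, hc, mul_self_of_orderOf_two ho⟩
  by_cases h1 : ∀ y ∈ (S : Subgroup G), orderOf y = 2 → (∀ s ∈ (S : Subgroup G), s * y = y * s) →
    y = z
  · have h2 : ∀ a ∈ Z, a = 1 ∨ a = z := fun a ha => or_iff_not_imp_left.2 fun e =>
      h1 a (mZ.1 ha).1 (orderOf_two_of e (mZ.1 ha).2.2) (mZ.1 ha).2.1
    by_cases h3 : ∃ g : G, g * z * g⁻¹ ∈ (S : Subgroup G) ∧ g * z * g⁻¹ ≠ z
    · obtain ⟨g, hg, hne⟩ := h3
      refine (One.main ⟨hC, hO', he, ho, hz.1, hc, h1, fun x hx => hZ fun a ha => ?_⟩ hg hne).imp_right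
        fun h4 => .inr (.inr (char2 hC he' fun t ht => h4 t
          ((sup_le le_rfl fun a ha => ?_ : pResidual 2 G ⊔ Z ≤ pResidual 2 G) ht)))
      · rcases h2 a ha with rfl | rfl
        exacts [by simp, (mem_cent1.1 hx).symm]
      · rcases h2 a ha with rfl | rfl
        exacts [one_mem _, hz.2]
    · push Not at h3
      refine .inr (.inl ⟨card_eq_two ho ⟨zZ, hz.2⟩ fun a ha => h2 a ha.1, fun g _ a ha e => ?_⟩)
      rcases h2 a ha.1 with rfl | rfl
      · simp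
      · rwa [h3 g e]
  push Not at h1
  obtain ⟨y, hy, hyo, hyc, hyz⟩ := h1
  have yZ : y ∈ Z := mZ.2 ⟨hy, hyc, mul_self_of_orderOf_two hyo⟩
  have hV := isKleinFour_closure ho hyo hyz.symm (hyc z hz.1)
  have hVZ : closure ({z, y} : Set G) ≤ Z := (closure_le _).2 (by rintro _ (rfl | rfl) <;> assumption)
  by_cases h2 : ∃ s ∈ (S : Subgroup G), s * s = 1 ∧ s ∉ closure ({z, y} : Set G)
  · obtain ⟨s, hs, ss, sV⟩ := h2
    generalize closure ({z, y} : Set G) = V at *
    have h3 : ∀ t ∈ (S : Subgroup G), orderOf t = 2 → th t ≤ Wc V := fun t ht e =>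
      hC.le_Wc hV (mul_self_of_orderOf_two e) fun v hv => ((mZ.1 (hVZ hv)).2.1 t ht).symm
    have h4 := hC.odd_Wc hV ss sV fun v hv => (mZ.1 (hVZ hv)).2.1 s hs
    by_cases h0 : Wc V = ⊥
    · refine .inr (.inr (.inr (char2 hC he' fun t _ ht => ?_)))
      obtain ⟨g, hg⟩ := exists_conj_invol_mem_sylow S ht
      have := h3 _ hg ((orderOf_conj g t).trans ht)
      rwa [h0, le_bot_iff, th, ← cj_OqOf_cent, cj_eq_bot_iff] at this
    · exact .inl ⟨_, se (Y := V) (X := ⊤) (fun v hv => ⟨(mZ.1 (hVZ hv)).1, (mZ.1 (hVZ hv)).2.1⟩)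
        (fun g hg => mem_N_Wc (hC.Wc_eq (isKleinFour_cj hV g) hV fun a ha v hv =>
          (mZ.1 (hVZ hv)).2.1 a (hg ha)).le) hC (by simp)
        (fun t a _ b => (h3 t a.1 b).trans le_normalizer) (not_le_N hO' h4 h0) he⟩
  push Not at h2
  have h3 : Z = closure ({z, y} : Set G) :=
    le_antisymm (fun a ha => h2 a (mZ.1 ha).1 (mZ.1 ha).2.2) hVZ
  by_cases h4 : y ∈ pResidual 2 G
  · refine .inr (.inr (.inl ⟨h3 ▸ hV.card_four, le_antisymm ((closure_le _).2 fun a ha =>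
      hVZ (h2 a ha.1.1 (by rw [← pow_two, ha.2]))) fun a ha => subset_closure
        ⟨⟨(mZ.1 ha).1, ?_⟩, by rw [pow_two, (mZ.1 ha).2.2]⟩⟩))
    exact (closure_le (pResidual 2 G)).2 (by rintro _ (rfl | rfl); exacts [hz.2, h4]) (h3 ▸ ha)
  · refine .inr (.inl ⟨card_eq_two ho ⟨zZ, hz.2⟩ fun a ha => ?_, fun g _ a ha e =>
      hVZ (h2 _ e (by rw [conj_mul, (mZ.1 ha.1).2.2]; group))⟩)
    rcases (mem_four_iff (mul_self_of_orderOf_two ho) (mul_self_of_orderOf_two hyo)
      (hyc z hz.1)).1 (h3 ▸ ha.1) with e | e | e | e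
    exacts [.inl e, .inr e, absurd (e ▸ ha.2) h4,
      absurd (((pResidual 2 G).mul_mem_cancel_left hz.2).1 (e ▸ ha.2)) h4]

end Cfsg.Agent.H9Z
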